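import Mathlib

/-! Gauss: `4 p Φ_p(η) = p A² + B²` for a prime `p ≡ 3 mod 4` (piece G of S4294). -/
set_option autoImplicit false
namespace H28.AmG
open Finset Polynomial

theorem prod_all {L : Type*} [Field L] {p : ℕ} [NeZero p] {ζ : L} (hζ : IsPrimitiveRoot ζ p) (x : L) :
    ∏ a : ZMod p, (1 - ζ ^ a.val * x) = 1 - x ^ p := by
  have h := X_pow_sub_C_eq_prod hζ (α := x) (a := x ^ p) (NeZero.pos p) rfl
  have h2 := congrArg (Polynomial.eval 1) h
  simp only [eval_sub, eval_pow, eval_X, one_pow, eval_C, eval_prod] at h2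
  rw [h2]
  refine Finset.prod_bij (fun a _ => a.val) (fun a _ => Finset.mem_range.2 (ZMod.val_lt a))
    (fun a _ b _ hab => ZMod.val_injective p hab) (fun i hi => ⟨(i : ZMod p), Finset.mem_univ _, ?_⟩)
    (fun a _ => rfl)
  exact ZMod.val_cast_of_lt (Finset.mem_range.1 hi)

theorem pG {K : Type*} [Field K] [CharZero K] (p : ℕ) (hp : p.Prime) (h3 : p % 4 = 3) (η : K) :
    ∃ A B : K, 4 * (p:K) * ∑ i ∈ Finset.range p, η ^ i = p * A ^ 2 + B ^ 2 := by
  classical
  by_cases hη : η = 1
  · refine ⟨0, 2 * p, ?_⟩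
    subst hη
    simp
    ring
  haveI : Fact p.Prime := ⟨hp⟩
  haveI : NeZero p := ⟨hp.ne_zero⟩
  haveI : NeZero (p : K) := ⟨Nat.cast_ne_zero.2 hp.ne_zero⟩
  let L := CyclotomicField p K
  haveI : IsGalois K L := IsCyclotomicExtension.isGalois {p} K L
  haveI : FiniteDimensional K L := IsCyclotomicExtension.finiteDimensional {p} K L
  haveI : CharZero L := charZero_of_injective_algebraMap (algebraMap K L).injective
  obtain ⟨ζ, hζ⟩ : ∃ ζ : L, IsPrimitiveRoot ζ p := ⟨_, IsCyclotomicExtension.zeta_spec p K L⟩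
  have hp2 : ringChar (ZMod p) ≠ 2 := by
    rw [ZMod.ringChar_zmod_n]; omega
  set q := quadraticChar (ZMod p) with hq
  let ψ : AddChar (ZMod p) L := AddChar.zmodChar p ((IsPrimitiveRoot.iff_def ζ p).mp hζ).left
  have hψ : ψ.IsPrimitive := AddChar.zmodChar_primitive_of_primitive_root p hζ
  let χ : MulChar (ZMod p) L := q.ringHomComp (Int.castRingHom L)
  have hχa : ∀ a, χ a = ((q a : ℤ) : L) := fun a => rfl
  have hχ1 : χ ≠ 1 := (MulChar.ringHomComp_ne_one_iff (Int.castRingHom L).injective_int).2 (quadraticChar_ne_one hp2)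
  have hχ2 : χ.IsQuadratic := (quadraticChar_isQuadratic (ZMod p)).comp _
  have hg : gaussSum χ ψ ^ 2 = -(p : L) := by
    rw [gaussSum_sq hχ1 hχ2 hψ, hχa, hq, quadraticChar_neg_one hp2, ZMod.card, ZMod.χ₄_nat_three_mod_four h3]
    push_cast
    ring
  set x : L := algebraMap K L η with hx
  let F : ℤ → L := fun e => ∏ a ∈ univ.filter (fun a : ZMod p => q a = e), (1 - ψ a * x)
  have hprod : F 1 * F (-1) * (1 - x) = 1 - x ^ p := by
    rw [← prod_all hζ x]
    have h0 : F 0 = 1 - x := by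
      have : univ.filter (fun a : ZMod p => q a = 0) = {0} := by
        ext a
        simp only [mem_filter, mem_univ, true_and, mem_singleton]
        exact quadraticChar_eq_zero_iff
      simp only [F, this, prod_singleton, AddChar.map_zero_eq_one, one_mul]
    have hfib := Finset.prod_fiberwise_of_maps_to (s := (univ : Finset (ZMod p))) (t := ({1, -1, 0} : Finset ℤ))
      (g := fun a => q a) (fun a _ => by
        rcases quadraticChar_isQuadratic (ZMod p) a with h | h | h <;> simp [hq, h]) (fun a => 1 - ψ a * x)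
    rw [Finset.prod_insert (by decide), Finset.prod_insert (by decide), prod_singleton] at hfib
    rw [← h0, mul_assoc]
    exact hfib
  have key : ∀ σ : L ≃ₐ[K] L, ∃ e : ℤ, (e = 1 ∨ e = -1) ∧ (∀ c : ℤ, σ (F c) = F (e * c)) ∧
      σ (gaussSum χ ψ) = (e : L) * gaussSum χ ψ := by
    intro σ
    have hσ : IsPrimitiveRoot (σ ζ) p := hζ.map_of_injective σ.injective
    obtain ⟨k, -, hk⟩ := hζ.eq_pow_of_pow_eq_one hσ.pow_eq_one
    have hσψ : ∀ a : ZMod p, σ (ψ a) = ψ ((k : ZMod p) * a) := by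
      intro a
      have h1 : (k : ZMod p) * a = ((k * a.val : ℕ) : ZMod p) := by simp
      rw [h1, AddChar.zmodChar_apply', AddChar.zmodChar_apply, map_pow, ← hk, ← pow_mul]
    have hk0 : (k : ZMod p) ≠ 0 := by
      intro h0
      have h1 := hσψ 1
      rw [h0, zero_mul, AddChar.map_zero_eq_one, AddChar.zmodChar_apply, ZMod.val_one, pow_one] at h1
      exact hσ.ne_one hp.one_lt h1
    have hqk : q k = 1 ∨ q k = -1 := quadraticChar_dichotomy hk0
    have hqq : q k * q k = 1 := by rcases hqk with h | h <;> rw [h] <;> norm_num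
    refine ⟨q k, hqk, fun c => ?_, ?_⟩
    · simp only [F, map_prod, map_sub, map_one, map_mul, hσψ, hx, AlgEquiv.commutes]
      refine Finset.prod_bij (fun a _ => (k : ZMod p) * a) (fun a ha => ?_)
        (fun a _ b _ hab => mul_left_cancel₀ hk0 hab) (fun b hb => ⟨(k : ZMod p)⁻¹ * b, ?_, ?_⟩) (fun a _ => rfl)
      · simp only [mem_filter, mem_univ, true_and] at ha ⊢
        rw [map_mul, ha]
      · simp only [mem_filter, mem_univ, true_and] at hb ⊢
        have h2 : q b = q k * q ((k : ZMod p)⁻¹ * b) := by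
          rw [← map_mul, mul_inv_cancel_left₀ hk0]
        have h4 : q k * (q k * q ((k : ZMod p)⁻¹ * b)) = q k * (q k * c) := by rw [← h2, hb]
        rwa [← mul_assoc, ← mul_assoc, hqq, one_mul, one_mul] at h4
      · exact mul_inv_cancel_left₀ hk0 b
    · have h1 := gaussSum_mulShift χ ψ (Units.mk0 _ hk0)
      have h2 : σ (gaussSum χ ψ) = gaussSum χ (ψ.mulShift (Units.mk0 _ hk0 : (ZMod p)ˣ)) := by
        simp only [gaussSum, map_sum, map_mul, hσψ, hχa, AddChar.mulShift_apply, Units.val_mk0]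
        exact Finset.sum_congr rfl (fun a _ => by rw [map_intCast σ (q a)])
      rw [h2, ← h1, Units.val_mk0, hχa, ← mul_assoc, ← Int.cast_mul, hqq]
      simp
  obtain ⟨A, hA⟩ : F 1 + F (-1) ∈ Set.range (algebraMap K L) := by
    rw [IsGalois.mem_range_algebraMap_iff_fixed]
    intro σ
    obtain ⟨e, he, h1, -⟩ := key σ
    rw [map_add, h1, h1]
    rcases he with rfl | rfl <;> simp [add_comm]
  obtain ⟨B, hB⟩ : (F 1 - F (-1)) * gaussSum χ ψ ∈ Set.range (algebraMap K L) := by
    rw [IsGalois.mem_range_algebraMap_iff_fixed]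
    intro σ
    obtain ⟨e, he, h1, h2⟩ := key σ
    rw [map_mul, map_sub, h1, h1, h2]
    rcases he with rfl | rfl
    · simp
    · simp only [mul_one, mul_neg, neg_neg, Int.cast_neg, Int.cast_one]
      ring
  refine ⟨A, B, (algebraMap K L).injective ?_⟩
  have hx1 : (1 : L) - x ≠ 0 := by
    intro h
    apply hη
    apply (algebraMap K L).injective
    rw [map_one, ← hx]
    exact (sub_eq_zero.1 h).symm
  have hs : ∑ i ∈ Finset.range p, x ^ i = F 1 * F (-1) := by
    apply mul_right_cancel₀ hx1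
    rw [hprod, geom_sum_mul_neg]
  simp only [map_mul, map_add, map_pow, map_sum, map_natCast, map_ofNat, hA, hB, ← hx, hs]
  rw [mul_pow, hg]
  ring

end H28.AmG
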