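import Cfsg.Agent.H28.CzB
import Cfsg.Agent.H21.Heis
import Cfsg.Agent.H11.Orth2
import Cfsg.Agent.H11.Std

/-! The action of `C(ε)` on `K / Z(K)`: a coordinate map `π` and an orthogonal representation `σ`. -/

set_option autoImplicit false

namespace H28
namespace Cz
open Cfsg MulAction H14 H18 H21 H11 Subgroup
open scoped Pointwise commutatorElement Matrix

/-- the central involution of `K` -/
noncomputable def ζ : Co0 := ε * negOne

theorem ζ_mem : ζ ∈ K := by rw [ζ, ε_neg]; exact sgn_mem_K ocG disjoint_compl_left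

theorem tr_one : tr 1 = 24 := by rw [← sgn_empty, tr_sgn]; norm_num

theorem tr_negOne : tr negOne = -24 := by
  rw [negOne, tr_sgn, Finset.card_univ, card_golayPt]; norm_num

theorem ζ_ne : ζ ≠ 1 := fun e => by
  have := tr_negε
  rw [← ζ, e, tr_one] at this
  norm_num at this

theorem ζ_sq : ζ * ζ = 1 := by rw [ζ, ε_neg]; exact sgn_mul_self _

theorem ζ_comm {g : Co0} (hg : g ∈ C1(ε)) : g * ζ = ζ * g := by
  rw [ζ, ← mul_assoc, mem_C1.1 hg, mul_assoc, mul_assoc, H14.negOne_comm]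

theorem conj_mem_K {g k : Co0} (hg : g ∈ C1(ε)) (hk : k ∈ K) : g * k * g⁻¹ ∈ K := fun q hq => by
  rw [mul_smul, mul_smul, K_fix hk (smul_mem_Lm (inv_mem hg) (fr_mem hq)), smul_inv_smul]

theorem Z_K {g : Co0} (hg : g ∈ K) (h : ∀ k ∈ K, g * k = k * g) : g = 1 ∨ g = ζ := by
  rcases cen_K h with e | e | e | e
  · exact Or.inl e
  · refine absurd ?_ negOne_not_mem
    have := K.mul_mem hg ζ_mem
    rwa [e, ζ, ← mul_assoc, ε_sq, one_mul] at this
  · exact Or.inr e
  · exact absurd (e ▸ hg) negOne_not_mem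

theorem Z_eq : Z(K) = zpowers ζ := by
  refine le_antisymm (fun g hg => ?_) (zpowers_le.2 ⟨ζ_mem, mem_C.2 fun k hk => ζ_comm (K_le_C hk)⟩)
  rcases Z_K hg.1 fun k hk => (mem_C.1 hg.2 k hk).symm with e | e <;> rw [e]
  · exact one_mem _
  · exact mem_zpowers _

theorem es_K : ES 2 K := by
  have hs : ∀ k ∈ K, k * k ∈ C(K) := fun k hk => by
    rcases sq_K hk with e | e <;> rw [e]
    · exact one_mem _
    · exact mem_C.2 fun k hk => ζ_comm (K_le_C hk)
  refine ⟨?_, commutator_le.2 fun x hx y hy => ?_⟩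
  · rw [Z_eq, Nat.card_zpowers]
    exact orderOf_eq_prime (by rw [sq, ζ_sq]) ζ_ne
  · rw [show ⁅x, y⁆ = (x * x) * ((x⁻¹ * y) * (x⁻¹ * y)) * (y⁻¹ * y⁻¹) by
      rw [commutatorElement_def]; group]
    exact mul_mem (mul_mem (hs x hx) (hs _ (mul_mem (inv_mem hx) hy))) (hs _ (inv_mem hy))

/-- the sign changes in `K` -/
def A0 : Subgroup Co0 where
  carrier := {g | ∃ c, ∃ hc : c ∈ GC, Disjoint c o0 ∧ g = sgn c hc}
  one_mem' := ⟨∅, empty_mem_GC, Finset.disjoint_empty_left _, sgn_empty.symm⟩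
  mul_mem' := by
    rintro _ _ ⟨c, hc, h1, rfl⟩ ⟨d, hd, h2, rfl⟩
    exact ⟨_, symmDiff_mem_GC hc hd, (Disjoint.sup_left h1 h2).mono_left symmDiff_le_sup,
      (sgn_symmDiff hc hd).symm⟩
  inv_mem' := by
    rintro _ ⟨c, hc, h1, rfl⟩
    exact ⟨c, hc, h1, inv_eq_of_mul_eq_one_right (sgn_mul_self _)⟩

theorem A0_le : A0 ≤ K := by
  rintro _ ⟨c, hc, h1, rfl⟩
  exact sgn_mem_K hc h1

theorem card_A0 : Nat.card A0 = 32 := by
  let f : {c | c ∈ GC ∧ Disjoint c o0} → A0 := fun x => ⟨sgn x.1 x.2.1, _, _, x.2.2, rfl⟩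
  have hf : Function.Bijective f := by
    constructor
    · intro x y e
      exact Subtype.ext (sgn_inj (hc := x.2.1) (hd := y.2.1) (congrArg Subtype.val e))
    · rintro ⟨_, c, hc, h1, rfl⟩
      exact ⟨⟨c, hc, h1⟩, rfl⟩
  rw [← Nat.card_eq_of_bijective f hf, Nat.card_coe_set_eq,
    ncard_CW (f := fun m => Nat.beq (p24 (Nat.land m 0x82402f)) 0) fun m _ => disj_bset m]
  decide +kernel

theorem A0_sq {g : Co0} (h : g ∈ A0) : g * g = 1 := by
  obtain ⟨c, hc, -, rfl⟩ := h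
  exact sgn_mul_self _

theorem equiv_K : Nonempty (K ≃* Heis (bPlus 4 (ZMod 2))) := by
  have h1 : ES 2 (⊤ : Subgroup K) := by
    refine (es_map_iff K.subtype_injective).1 ?_
    rw [← MonoidHom.range_eq_map, range_subtype]
    exact es_K
  refine nonempty_equiv_of_ssum h1 (es_plus 4 2) (card_K.trans (card_plus 4 2).symm) ?_
  rw [ssum_plus]
  refine h1.ssum_of_pelem (A := A0.subgroupOf K) (card_top.trans card_K) ⟨le_top, ⟨?_, ?_⟩, ?_⟩
  · refine cent_iff.2 fun a ha b hb => Subtype.ext ?_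
    have h2 := A0_sq (A0.mul_mem ha hb)
    have h3 := A0_sq ha
    have h4 := A0_sq hb
    show a.1 * b.1 = b.1 * a.1
    change a.1 * b.1 * (a.1 * b.1) = 1 at h2
    change a.1 * a.1 = 1 at h3
    change b.1 * b.1 = 1 at h4
    rw [← inv_eq_of_mul_eq_one_right h2, mul_inv_rev, inv_eq_of_mul_eq_one_right h3,
      inv_eq_of_mul_eq_one_right h4]
  · exact fun a ha => Subtype.ext (by rw [sq]; exact A0_sq ha)
  · rw [Nat.card_congr (subgroupOfEquivOfLe A0_le).toEquiv, card_A0]; norm_num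

abbrev V8 : Type := ι → ZMod 2
abbrev S8 : PForm (orthP (ZMod 2)) V8 := sPlus 4 (ZMod 2)
theorem nd8 : S8.Nondeg := sPlus_nondeg 4 _

/-- coordinates on `K / Z(K)` -/
structure Fr (π : Co0 → V8) (σ : C1(ε) →* S8.Isom) : Prop where
  mul : ∀ x ∈ K, ∀ y ∈ K, π (x * y) = π x + π y
  eq0 : ∀ x ∈ K, π x = 0 ↔ x = 1 ∨ x = ζ
  surj : ∀ v, ∃ x ∈ K, π x = v
  sq : ∀ x ∈ K, x * x = 1 ↔ S8.q (π x) = 0
  comm : ∀ x ∈ K, ∀ y ∈ K, x * y = y * x ↔ S8.h (π x) (π y) = 0
  conj : ∀ g : C1(ε), ∀ x ∈ K, π (g * x * g.1⁻¹) = (σ g).1 (π x)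
  ker : ∀ g, σ g = 1 ↔ g.1 ∈ K ∨ g.1 * negOne ∈ K
  range : ∀ t, nd8.dick t = 1 ↔ ∃ g, σ g = t

theorem C_le_N : C1(ε) ≤ N(K) := fun g hg => mem_normalizer_iff.2 fun k =>
  ⟨conj_mem_K hg, fun h => by simpa [mul_assoc] using conj_mem_K (inv_mem hg) h⟩

theorem card_S8 : Nat.card S8.Isom = 348364800 :=
  (Nat.card_congr (orthEquiv (qPlus 4 (ZMod 2))).toEquiv).symm.trans card_OO

theorem no4 : S8.NotO4 := Or.inr (Or.inl (by rw [finrank_sum_fun]; omega))

theorem range_eq (σ : C1(ε) →* S8.Isom) (h : ∀ g, σ g = 1 ↔ g.1 ∈ K ∨ g.1 * negOne ∈ K) :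
    σ.range = nd8.dick.ker := by
  have h1 : σ.ker = ρ.ker := Subgroup.ext fun g => (h g).trans ker_ρ.symm
  have h2 := σ.ker.card_mul_index
  rw [h1, card_ker, ← h1, card_C, index_ker] at h2
  have h3 := σ.range.card_mul_index
  rw [card_S8] at h3
  have h2' : Nat.card σ.range = 174182400 := by omega
  rw [h2'] at h3
  have h4 : σ.range.index = 2 := by omega
  haveI := normal_of_index_eq_two h4
  have h5 : commutator S8.Isom ≤ σ.range := by
    refine Normal.quotient_commutative_iff_commutator_le.1 ?_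
    haveI : IsCyclic (S8.Isom ⧸ σ.range) := isCyclic_of_prime_card (p := 2) h4
    infer_instance
  have h6 := nd8.orth_index_commutator_even rfl no4
  rw [← nd8.orth_commutator_eq_ker_dick rfl no4]
  have h7 := (commutator S8.Isom).card_mul_index
  rw [h6, card_S8] at h7
  exact (eq_of_le_of_card (n := 174182400) (by norm_num) h5 (by omega) (by omega)).symm

theorem exists_fr0 : ∃ π σ, Fr π σ := by
  classical
  obtain ⟨f⟩ := equiv_K
  have nd := bPlus_nondeg 4 (ZMod 2)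
  let τ : C1(ε) →* MulAut (Heis (bPlus 4 (ZMod 2))) :=
    (MulAut.congr f).toMonoidHom.comp (K.normalizerMonoidHom.comp (inclusion C_le_N))
  have hτ : ∀ (g : C1(ε)) (x : K), τ g (f x) = f ⟨g * x * g.1⁻¹, conj_mem_K g.2 x.2⟩ := fun g x => by
    simp only [τ, MonoidHom.comp_apply, MulEquiv.coe_toMonoidHom, MulAut.congr_apply,
      MulEquiv.trans_apply, MulEquiv.symm_apply_apply]
    rfl
  let σ : C1(ε) →* S8.Isom := (orthEquiv (qPlus 4 (ZMod 2))).toMonoidHom.comp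
    (((Heis.autGL nd).comp τ).codRestrict _ fun g => (Heis.range_autGL nd).le ⟨_, rfl⟩)
  let π : Co0 → V8 := fun x => if h : x ∈ K then (f ⟨x, h⟩).v else 0
  have hπ : ∀ x (h : x ∈ K), π x = (f ⟨x, h⟩).v := fun x h => dif_pos h
  have hker : ∀ g, σ g = 1 ↔ g.1 ∈ K ∨ g.1 * negOne ∈ K := fun g => by
    have e1 : σ g = 1 ↔ τ g ∈ Inn _ := by
      rw [← Heis.ker_autGL nd]
      exact (map_eq_one_iff _ (orthEquiv _).injective).trans Subtype.ext_iff
    rw [e1]
    constructor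
    · rintro ⟨a, ha⟩
      obtain ⟨k, rfl⟩ := f.surjective a
      have h1 : ∀ x ∈ K, k.1⁻¹ * g * x = x * (k.1⁻¹ * g) := fun x hx => by
        have h2 := hτ g ⟨x, hx⟩
        rw [← ha, MulAut.conj_apply, ← map_inv, ← map_mul, ← map_mul] at h2
        have h3 : k.1 * x * k.1⁻¹ = g * x * g.1⁻¹ := congrArg Subtype.val (f.injective h2)
        calc _ = k.1⁻¹ * (g * x * g.1⁻¹) * g := by group
          _ = _ := by rw [← h3]; group
      have h4 : g.1 = k.1 * (k.1⁻¹ * g) := by group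
      rw [h4]
      rcases cen_K h1 with e | e | e | e <;> rw [e]
      · exact Or.inl (by rw [mul_one]; exact k.2)
      · exact Or.inr (by rw [mul_assoc]; exact K.mul_mem k.2 ζ_mem)
      · exact Or.inl (K.mul_mem k.2 ζ_mem)
      · exact Or.inr (by rw [mul_assoc, H14.negOne_sq, mul_one]; exact k.2)
    · rintro (h | h)
      · refine ⟨f ⟨g, h⟩, MulEquiv.ext fun y => ?_⟩
        obtain ⟨x, rfl⟩ := f.surjective y
        rw [hτ, MulAut.conj_apply, ← map_inv, ← map_mul, ← map_mul]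
        rfl
      · refine ⟨f ⟨_, h⟩, MulEquiv.ext fun y => ?_⟩
        obtain ⟨x, rfl⟩ := f.surjective y
        rw [hτ, MulAut.conj_apply, ← map_inv, ← map_mul, ← map_mul]
        refine congrArg f (Subtype.ext ?_)
        show g * negOne * x * (g * negOne)⁻¹ = g * x * g.1⁻¹
        rw [mul_assoc g.1, ← H14.negOne_comm]; group
  refine ⟨π, σ, fun x hx y hy => ?_, fun x hx => ?_, fun v => ?_, fun x hx => ?_, fun x hx y hy => ?_,
    fun g x hx => ?_, hker, fun t => ?_⟩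
  · rw [hπ _ (K.mul_mem hx hy), hπ x hx, hπ y hy, ← Heis.mul_v, ← map_mul]; rfl
  · rw [hπ x hx, ← Heis.mem_Z nd, Z_top, mem_center_iff]
    constructor
    · refine fun h => Z_K hx fun k hk => ?_
      have := h (f ⟨k, hk⟩)
      rw [← map_mul, ← map_mul] at this
      exact (congrArg Subtype.val (f.injective this)).symm
    · intro h y
      obtain ⟨k, rfl⟩ := f.surjective y
      rw [← map_mul, ← map_mul]
      refine congrArg f (Subtype.ext ?_)
      show k.1 * x = x * k.1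
      rcases h with rfl | rfl
      · simp
      · exact ζ_comm (K_le_C k.2)
  · exact ⟨_, (f.symm ⟨v, 0⟩).2, by rw [hπ _ (f.symm ⟨v, 0⟩).2]; simp⟩
  · rw [hπ x hx]
    have h1 := Heis.sq_eq (f ⟨x, hx⟩)
    rw [← map_pow] at h1
    have h2 : x * x = 1 ↔ f (⟨x, hx⟩ ^ 2) = 1 := by
      rw [map_eq_one_iff _ f.injective, sq]
      exact ⟨fun e => Subtype.ext e, fun e => congrArg Subtype.val e⟩
    rw [h2, h1, Heis.ext_iff]
    exact and_iff_right rfl
  · rw [hπ x hx, hπ y hy]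
    have h2 : x * y = y * x ↔ f ⟨x, hx⟩ * f ⟨y, hy⟩ = f ⟨y, hy⟩ * f ⟨x, hx⟩ := by
      rw [← map_mul, ← map_mul, f.injective.eq_iff]
      exact ⟨fun e => Subtype.ext e, fun e => congrArg Subtype.val e⟩
    rw [h2, Heis.comm_iff, orthS_h, qPlus_polar, Finset.sum_add_distrib, CharTwo.add_eq_zero,
      bPlus_apply, bPlus_apply]
    simp only [mul_comm]
  · rw [hπ x hx, hπ _ (conj_mem_K g.2 hx), ← hτ g ⟨x, hx⟩, ← Heis.autGL_mulVec nd]; rfl
  · rw [← MonoidHom.mem_ker, ← range_eq σ hker]; rfl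

theorem Fr.move {π : Co0 → V8} {σ : C1(ε) →* S8.Isom} (h : Fr π σ) (t : S8.Isom) :
    Fr (fun x => t.1 (π x)) ((MulAut.conj t).toMonoidHom.comp σ) where
  mul x hx y hy := by rw [h.mul x hx y hy, map_add]
  eq0 x hx := by rw [← h.eq0 x hx, map_eq_zero_iff _ t.1.injective]
  surj v := let ⟨x, hx, e⟩ := h.surj ((t⁻¹).1 v); ⟨x, hx, by simp [e]⟩
  sq x hx := by rw [h.sq x hx, PForm.orth_isom_q]
  comm x hx y hy := by rw [h.comm x hx y hy, PForm.isom_h]
  conj g x hx := by simp [h.conj g x hx]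
  ker g := by rw [← h.ker]; simp
  range s := by
    have := h.range (t⁻¹ * s * t)
    rw [map_mul, map_mul, mul_right_comm, ← map_mul, inv_mul_cancel, map_one, one_mul] at this
    rw [this]
    refine exists_congr fun g => ?_
    simp only [MonoidHom.comp_apply, MulEquiv.coe_toMonoidHom, MulAut.conj_apply]
    constructor <;> intro e
    · rw [e]; group
    · rw [← e]; group

end Cz
end H28
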