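import Cfsg.Agent.H28.CsA
import Cfsg.Agent.H19.DadeGroup

/-! Centralizers of elements of odd prime order of `C(ε)` in `Co0`: the extraspecial setting. -/

set_option autoImplicit false

namespace H28
namespace Cz
open Cfsg MulAction H14 H18 H21 H11 Subgroup
open scoped Pointwise commutatorElement Matrix

abbrev CA (a : Co0) : Subgroup Co0 := C(zpowers a)
abbrev WA (a : Co0) : Subgroup Co0 := zpowers a ⊔ center Co0

theorem mem_CA {a g : Co0} : g ∈ CA a ↔ g * a = a * g :=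
  ⟨fun h => (mem_C.1 h a (mem_zpowers a)).symm, fun h => mem_C.2 (by
    rintro _ ⟨n, rfl⟩
    exact (Commute.zpow_right h n).eq.symm)⟩

theorem mem_WA {a x : Co0} : x ∈ WA a ↔ ∃ n : ℤ, x = a ^ n ∨ x = a ^ n * negOne := by
  constructor
  · intro h
    obtain ⟨_, ⟨n, rfl⟩, c, hc, rfl⟩ := (mul_normal (zpowers a) (center Co0)).le h
    refine ⟨n, (mem_center_Co0.1 hc).imp (fun e => ?_) fun e => ?_⟩ <;> simp [e]
  · rintro ⟨n, rfl | rfl⟩
    · exact mem_sup_left ⟨n, rfl⟩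
    · exact mul_mem_sup ⟨n, rfl⟩ (mem_center_Co0.2 (Or.inr rfl))

theorem WA_comm {a x g : Co0} (hx : x ∈ WA a) (hg : g ∈ CA a) : g * x = x * g := by
  obtain ⟨n, rfl | rfl⟩ := mem_WA.1 hx
  · exact mem_C.1 hg _ ⟨n, rfl⟩ |>.symm
  · rw [← mul_assoc, ← mem_C.1 hg _ ⟨n, rfl⟩, mul_assoc, mul_assoc, H14.negOne_comm]

instance WA_normal (a : Co0) : ((WA a).subgroupOf (CA a)).Normal :=
  ⟨fun x hx g => by
    show g.1 * x.1 * g.1⁻¹ ∈ WA a
    rw [WA_comm (x := x.1) hx g.2, mul_inv_cancel_right]; exact hx⟩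

abbrev SA (a : Co0) : Type := CA a ⧸ (WA a).subgroupOf (CA a)
abbrev PA (a : Co0) : Subgroup (CA a) := C1(ε).subgroupOf (CA a)
noncomputable def αA (a : Co0) : PA a →* SA a := (QuotientGroup.mk' _).comp (PA a).subtype
noncomputable def jA (a : Co0) : PA a →* C1(ε) :=
  ((CA a).subtype.comp (PA a).subtype).codRestrict _ fun p => p.2
def RA (a : Co0) : Subgroup (PA a) where
  carrier := {p | p.1.1 ∈ K}
  one_mem' := K.one_mem
  mul_mem' := K.mul_mem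
  inv_mem' := K.inv_mem

theorem mk_eq {a : Co0} {x y : CA a} : (x : SA a) = y ↔ x.1⁻¹ * y.1 ∈ WA a := QuotientGroup.eq

theorem α_eq {a : Co0} {x y : PA a} : αA a x = αA a y ↔ x.1.1⁻¹ * y.1.1 ∈ WA a := mk_eq

theorem α_one {a : Co0} {x : PA a} : αA a x = 1 ↔ x.1.1 ∈ WA a := QuotientGroup.eq_one_iff _

theorem neg_mem_WA {a : Co0} : negOne ∈ WA a := mem_sup_right (mem_center_Co0.2 (Or.inr rfl))

theorem K_pow {k : Co0} (hk : k ∈ K) : k ^ 4 = 1 := by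
  rw [show k ^ 4 = (k * k) * (k * k) by simp only [pow_succ, pow_zero, one_mul, mul_assoc]]
  rcases sq_K hk with e | e <;> rw [e]
  · exact one_mul _
  · exact ζ_sq

theorem comm_K {x y : Co0} (hx : x ∈ K) (hy : y ∈ K) : ⁅x, y⁆ = 1 ∨ ⁅x, y⁆ = ζ :=
  Z_K (es_K.comm_mem hx hy).1 fun k hk => (mem_C.1 (es_K.comm_mem hx hy).2 k hk).symm

section
variable {π : Co0 → V8} {σ : C1(ε) →* S8.Isom}

theorem Fr.inv (h : Fr π σ) {x : Co0} (hx : x ∈ K) : π x⁻¹ = π x := by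
  have h1 := h.mul _ (K.inv_mem hx) x hx
  rw [inv_mul_cancel, (h.eq0 1 K.one_mem).2 (Or.inl rfl)] at h1
  funext i
  exact CharTwo.add_eq_zero.1 (congrFun h1 i).symm

theorem Fr.eq (h : Fr π σ) {x y : Co0} (hx : x ∈ K) (hy : y ∈ K) (e : π x = π y) :
    y = x ∨ y = x * ζ := by
  have h1 := h.mul _ (K.inv_mem hx) y hy
  rw [h.inv hx, e] at h1
  have h2 : π y + π y = 0 := funext fun i => CharTwo.add_self_eq_zero _
  rcases (h.eq0 _ (K.mul_mem (K.inv_mem hx) hy)).1 (h1.trans h2) with e | e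
  · exact Or.inl (inv_mul_eq_one.1 e).symm
  · exact Or.inr (inv_mul_eq_iff_eq_mul.1 e)

theorem Fr.card_ker (h : Fr π σ) : Nat.card σ.ker = 1024 := by
  rw [show σ.ker = ρ.ker from Subgroup.ext fun g => (h.ker g).trans ker_ρ.symm, Cz.card_ker]

theorem Fr.lift (h : Fr π σ) {t : S8.Isom} {n : ℕ} (hn : Odd n) (ht : t ^ n = 1) :
    ∃ c, σ c = t ∧ c ^ n = 1 := by
  have h1 : nd8.dick t = 1 := by
    have := congrArg nd8.dick ht
    rw [map_pow, map_one] at this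
    rcases Int.units_eq_one_or (nd8.dick t) with e | e
    · exact e
    · rw [e, hn.neg_one_pow] at this; exact absurd this (by decide)
  obtain ⟨c, rfl⟩ := (h.range t).1 h1
  obtain ⟨k, ⟨m, rfl⟩, h3⟩ := H19.exists_crt_exp (m := 1024) (n := n)
    (Nat.Coprime.pow_left 10 (Nat.coprime_two_left.2 hn))
  refine ⟨c ^ (1024 * m), by rw [map_pow, H19.pow_eq_self_of_modEq_one ht h3], ?_⟩
  have h4 : c ^ n ∈ σ.ker := by rw [MonoidHom.mem_ker, map_pow, ht]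
  have h5 := H19.pow_card_eq_one_of_mem h4
  rw [h.card_ker] at h5
  rw [← pow_mul, mul_comm, mul_comm 1024, pow_mul, mul_comm m, pow_mul, h5, one_pow]

end

variable {V1 V2 : Type} [AddCommGroup V1] [Module (ZMod 2) V1] [FiniteDimensional (ZMod 2) V1]
  [AddCommGroup V2] [Module (ZMod 2) V2] [FiniteDimensional (ZMod 2) V2]

/-- an element `a` of odd prime order acting trivially on `V1` and as `M` on `V2` -/
structure Dat (π : Co0 → V8) (σ : C1(ε) →* S8.Isom) {S1 : PForm (orthP (ZMod 2)) V1}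
    {S2 : PForm (orthP (ZMod 2)) V2} (i1 : V1 →ₗ[ZMod 2] V8) (i2 : V2 →ₗ[ZMod 2] V8)
    (φ : S1.Isom × S2.Isom →* S8.Isom) (M : S2.Isom) (a : Co0) : Prop where
  fr : Fr π σ
  os : PForm.OSum S8 S1 S2 i1 i2
  n1 : S1.Nondeg
  n2 : S2.Nondeg
  hφ : ∀ p x y, (φ p).1 (i1 x + i2 y) = i1 (p.1.1 x) + i2 (p.2.1 y)
  hd : ∀ p, nd8.dick (φ p) = n1.dick p.1 * n2.dick p.2
  odd : Odd (orderOf a)
  aC : a ∈ C1(ε)
  act : σ ⟨a, aC⟩ = φ (1, M)
  fpf : ∀ y, M.1 y = y → y = 0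
  cen : ∀ c : S2.Isom, c * M = M * c → c ∈ zpowers M

namespace Dat
variable {π : Co0 → V8} {σ : C1(ε) →* S8.Isom} {S1 : PForm (orthP (ZMod 2)) V1}
  {S2 : PForm (orthP (ZMod 2)) V2} {i1 : V1 →ₗ[ZMod 2] V8} {i2 : V2 →ₗ[ZMod 2] V8}
  {φ : S1.Isom × S2.Isom →* S8.Isom} {M : S2.Isom} {a : Co0} (D : Dat π σ i1 i2 φ M a)
include D

theorem inj1 : Function.Injective i1 := D.os.isom1.injective D.n1
theorem inj2 : Function.Injective i2 := D.os.isom2.injective D.n2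

theorem φ1 (p : S1.Isom × S2.Isom) (x : V1) : (φ p).1 (i1 x) = i1 (p.1.1 x) := by
  simpa using D.hφ p x 0

theorem φ2 (p : S1.Isom × S2.Isom) (y : V2) : (φ p).1 (i2 y) = i2 (p.2.1 y) := by
  simpa using D.hφ p 0 y

theorem φ_inj : Function.Injective φ := fun p q e =>
  Prod.ext (PForm.isom_ext fun x => D.inj1 (by rw [← D.φ1, ← D.φ1, e]))
    (PForm.isom_ext fun x => D.inj2 (by rw [← D.φ2, ← D.φ2, e]))

theorem fix_iff {v : V8} : (φ (1, M)).1 v = v ↔ ∃ x, i1 x = v := by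
  constructor
  · intro h
    obtain ⟨x, y, rfl⟩ := D.os.span v
    rw [D.hφ] at h
    exact ⟨x, by simp [D.fpf y (D.inj2 (add_left_cancel h))]⟩
  · rintro ⟨x, rfl⟩
    exact D.φ1 _ x

theorem dec {t : S8.Isom} (h : t * φ (1, M) = φ (1, M) * t) : ∃ s, ∃ n : ℤ, t = φ (s, M ^ n) := by
  obtain ⟨U, hU, e1, he1, e2, he2, rfl, h3⟩ := D.os.exists_glue D.n1 D.n2
  have h1 : t ∈ S8.stab (LinearMap.range i1) := fun v => by
    rw [LinearMap.mem_range, LinearMap.mem_range, ← D.fix_iff, ← D.fix_iff, ← PForm.isom_mul_apply,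
      ← h, PForm.isom_mul_apply, t.1.injective.eq_iff]
  obtain ⟨⟨p, q⟩, rfl⟩ := (PForm.glue_range hU).ge h1
  obtain ⟨p, rfl⟩ := (PForm.isomCongr e1 he1).surjective p
  obtain ⟨q, rfl⟩ := (PForm.isomCongr e2 he2).surjective q
  have h2 : PForm.glue hU (PForm.isomCongr e1 he1 p, PForm.isomCongr e2 he2 q) = φ (p, q) :=
    PForm.isom_ext fun v => by
      obtain ⟨x, y, rfl⟩ := D.os.span v
      rw [h3, D.hφ]
  rw [h2, ← map_mul, ← map_mul] at h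
  obtain ⟨n, rfl⟩ := D.cen q (congrArg Prod.snd (D.φ_inj h))
  exact ⟨p, n, h2⟩

theorem act_zpow (n : ℤ) : σ (⟨a, D.aC⟩ ^ n) = φ (1, M ^ n) := by
  rw [map_zpow, D.act, ← map_zpow]; simp

theorem dick_M (n : ℤ) : D.n2.dick (M ^ n) = 1 := by
  have := D.hd (1, M ^ n)
  rw [(D.fr.range _).2 ⟨_, D.act_zpow n⟩, map_one, one_mul] at this
  exact this.symm

theorem dec_P (p : PA a) : ∃ s, ∃ n : ℤ, σ (jA a p) = φ (s, M ^ n) := D.dec (by
  rw [← D.act, ← map_mul, ← map_mul]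
  exact congrArg σ (Subtype.ext (mem_CA.1 p.1.2)))

theorem W_pow {x : Co0} (hx : x ∈ WA a) (h : x ^ 4 = 1) : x = 1 ∨ x = negOne := by
  have key : ∀ n : ℤ, (a ^ n) ^ 4 = 1 → a ^ n = 1 := fun n hn => by
    rw [← orderOf_eq_one_iff]
    exact Nat.eq_one_of_dvd_coprimes (Nat.Coprime.pow_left 2 (Nat.coprime_two_left.2 D.odd))
      (orderOf_dvd_of_pow_eq_one hn) (orderOf_dvd_of_mem_zpowers ⟨n, rfl⟩)
  obtain ⟨n, rfl | rfl⟩ := mem_WA.1 hx
  · exact Or.inl (key n h)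
  · rw [Commute.mul_pow (H14.negOne_comm _), show 4 = 2 * 2 from rfl, pow_mul negOne, sq negOne,
      H14.negOne_sq, one_pow, mul_one] at h
    exact Or.inr (by rw [key n h, one_mul])

theorem W_K {x : Co0} (hx : x ∈ WA a) (h : x ∈ K) : x = 1 :=
  (D.W_pow hx (K_pow h)).resolve_right fun e => negOne_not_mem (e ▸ h)

theorem π_mem {k : Co0} (hk : k ∈ K) : k ∈ CA a ↔ ∃ x, i1 x = π k := by
  rw [← D.fix_iff, ← D.act, ← D.fr.conj _ k hk, mem_CA]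
  constructor
  · intro h
    rw [← h, mul_inv_cancel_right]
  · intro h
    rcases D.fr.eq (conj_mem_K D.aC hk) hk h with e | e
    · exact (mul_inv_eq_iff_eq_mul.1 e.symm).symm
    · have h3 : a * k * a⁻¹ = k * ζ := by
        conv_rhs => rw [e]
        rw [mul_assoc _ ζ, ζ_sq, mul_one]
      have h1 : ∀ n : ℕ, a ^ n * k * (a ^ n)⁻¹ = k * ζ ^ n := fun n => by
        induction n with
        | zero => simp
        | succ n ih =>
          have h2 : a * ζ ^ n * a⁻¹ = ζ ^ n := by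
            rw [(Commute.pow_right (ζ_comm D.aC) n).eq, mul_inv_cancel_right]
          calc _ = a * (a ^ n * k * (a ^ n)⁻¹) * a⁻¹ := by group
            _ = a * k * a⁻¹ * (a * ζ ^ n * a⁻¹) := by rw [ih]; group
            _ = _ := by rw [h2, h3]; group
      obtain ⟨n, hn⟩ := D.odd
      have := h1 (orderOf a)
      rw [pow_orderOf_eq_one, hn, pow_succ, pow_mul, sq, ζ_sq] at this
      exact absurd (by simpa using this) ζ_ne

theorem exists_R (x : V1) : ∃ r ∈ RA a, π r.1.1 = i1 x := by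
  obtain ⟨k, hk, e⟩ := D.fr.surj (i1 x)
  exact ⟨⟨⟨k, (D.π_mem hk).2 ⟨x, e.symm⟩⟩, K_le_C hk⟩, hk, e⟩

theorem of_R {r : PA a} (hr : r ∈ RA a) : ∃ x, i1 x = π r.1.1 := (D.π_mem hr).1 r.1.2

theorem exists_β (h4 : S1.NotO4) : ∃ β : PA a →* commutator S1.Isom, Function.Surjective β ∧
    ∀ p, ∃ n : ℤ, σ (jA a p) = φ ((β p).1, M ^ n) := by
  let β0 : PA a →* S1.Isom × S2.Isom := (MonoidHom.ofInjective D.φ_inj).symm.toMonoidHom.comp
    ((σ.comp (jA a)).codRestrict _ fun p => let ⟨s, n, e⟩ := D.dec_P p; ⟨_, e.symm⟩)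
  have h0 : ∀ p, φ (β0 p) = σ (jA a p) := fun p =>
    MonoidHom.apply_ofInjective_symm D.φ_inj _
  have h1 : ∀ p, ∃ n : ℤ, σ (jA a p) = φ ((β0 p).1, M ^ n) := fun p => by
    obtain ⟨s, n, e⟩ := D.dec_P p
    exact ⟨n, by rw [D.φ_inj ((h0 p).trans e), e]⟩
  have hc := D.n1.orth_commutator_eq_ker_dick rfl h4
  refine ⟨((MonoidHom.fst _ _).comp β0).codRestrict _ fun p => ?_, fun t => ?_, h1⟩
  · obtain ⟨n, e⟩ := h1 p
    have := D.hd ((β0 p).1, M ^ n)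
    rw [(D.fr.range _).2 ⟨_, e⟩, D.dick_M, mul_one] at this
    rw [hc]; exact this.symm
  · obtain ⟨x, hx⟩ := (D.fr.range (φ (t.1, 1))).1 (by
      rw [D.hd, map_one, mul_one]; exact hc.le t.2)
    let a' : C1(ε) := ⟨a, D.aC⟩
    have ho : orderOf a' = orderOf a := (orderOf_coe a').symm
    have h2 : x * a' * x⁻¹ * a'⁻¹ ∈ σ.ker := by
      rw [MonoidHom.mem_ker, map_mul, map_mul, map_mul, map_inv, map_inv, hx, D.act, ← map_inv,
        ← map_inv, ← map_mul, ← map_mul, ← map_mul, ← map_one φ]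
      simp [Prod.one_eq_mk]
    have hco : (orderOf a').Coprime (Nat.card σ.ker) := by
      rw [ho, D.fr.card_ker]
      exact Nat.Coprime.pow_right 10 (Nat.coprime_two_right.2 D.odd)
    obtain ⟨y, hy, c, hc, h3, h5⟩ := H19.exists_conj_coset_centralizer σ.ker a'
      (by rw [normalizer_eq_top]; trivial) hco _ h2
    have h6 : (y * x) * (a' * 1) * (y * x)⁻¹ = a' * c := by rw [← h3, ← h5]; group
    have h7 := H19.conj_eq_of_conj_mul_eq hco.symm (Commute.one_right _) h3.symm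
      (pow_orderOf_eq_one _) (pow_orderOf_eq_one _) (one_pow _) (H19.pow_card_eq_one_of_mem hc) h6
    let p : PA a := ⟨⟨(y * x).1, mem_CA.2 (congrArg Subtype.val (mul_inv_eq_iff_eq_mul.1 h7))⟩, (y * x).2⟩
    refine ⟨p, Subtype.ext ?_⟩
    have h8 : σ (jA a p) = φ (t.1, 1) := by
      show σ (y * x) = _
      rw [map_mul, MonoidHom.mem_ker.1 hy, one_mul, hx]
    exact congrArg Prod.fst (D.φ_inj ((h0 p).trans h8))

theorem εC : ε ∈ CA a := mem_CA.2 (mem_C1.1 D.aC).symm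
theorem ζC : ζ ∈ CA a := mem_CA.2 (ζ_comm D.aC).symm

/-- the involution -/
noncomputable def z : SA a := (⟨ε, D.εC⟩ : CA a)
/-- the centre of `R` -/
noncomputable def ζP : PA a := ⟨⟨ζ, D.ζC⟩, K_le_C ζ_mem⟩

theorem αζ : αA a D.ζP = D.z := (mk_eq.2 (by
  show ε⁻¹ * (ε * negOne) ∈ _
  rw [inv_mul_cancel_left]; exact neg_mem_WA)).symm

theorem α_inj {x y : PA a} (hx : x ∈ RA a) (hy : y ∈ RA a) (h : αA a x = αA a y) : x = y :=
  Subtype.ext (Subtype.ext (inv_mul_eq_one.1 (D.W_K (α_eq.1 h) (K.mul_mem (K.inv_mem hx) hy))))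

theorem oz : orderOf D.z = 2 := by
  rw [← D.αζ]
  refine orderOf_eq_prime ?_ fun e => ζ_ne (D.W_K (α_one.1 e) ζ_mem)
  rw [← map_pow, sq, show D.ζP * D.ζP = 1 from Subtype.ext (Subtype.ext ζ_sq), map_one]

theorem range_α : (αA a).range = C1(D.z) := by
  ext x
  constructor
  · rintro ⟨g, rfl⟩
    exact mem_C1.2 (congrArg (QuotientGroup.mk (s := (WA a).subgroupOf (CA a)))
      (Subtype.ext (mem_C1.1 g.2) : g.1 * ⟨ε, D.εC⟩ = ⟨ε, D.εC⟩ * g.1))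
  · intro hx
    obtain ⟨g, rfl⟩ := QuotientGroup.mk_surjective x
    have h1 : (ε * g.1)⁻¹ * (g.1 * ε) ∈ WA a := mk_eq.1 (mem_C1.1 hx).symm
    have h2 : g.1⁻¹ * ε * g.1 = (ε * g.1)⁻¹ * (g.1 * ε) * ε := by
      rw [mul_inv_rev, inv_eq_of_mul_eq_one_right ε_sq, mul_assoc _ _ ε, mul_assoc _ ε ε, ε_sq]; group
    generalize (ε * g.1)⁻¹ * (g.1 * ε) = u at h1 h2
    have h3 : u ^ 2 = 1 := by
      have : (u * ε) ^ 2 = 1 := by
        rw [← h2, show (g.1⁻¹ * ε * g.1) ^ 2 = g.1⁻¹ * (ε * ε) * g.1 by rw [sq]; group, ε_sq]; group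
      rwa [Commute.mul_pow (WA_comm h1 D.εC).symm, sq ε, ε_sq, mul_one] at this
    rcases D.W_pow h1 (by rw [show 4 = 2 * 2 from rfl, pow_mul, h3, one_pow]) with rfl | rfl
    · exact ⟨⟨g, mem_C1.2 (by rw [one_mul, mul_assoc, inv_mul_eq_iff_eq_mul] at h2; exact h2.symm)⟩, rfl⟩
    · have := tr_conj g.1⁻¹ ε
      rw [inv_inv, h2, ← H14.negOne_comm, tr_negε, tr_ε] at this
      norm_num at this

theorem card_R {w : ℕ} (hV : Nat.card V1 = 2 ^ (2 * w)) :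
    Nat.card ((RA a).map (αA a)) = 2 ^ (2 * w + 1) := by
  choose r hr he using D.exists_R
  let f : V1 × Bool → (RA a).map (αA a) := fun x =>
    ⟨αA a (r x.1 * if x.2 then D.ζP else 1), mem_map_of_mem _ (mul_mem (hr _) (by
      split_ifs
      · exact ζ_mem
      · exact one_mem _))⟩
  have hm : ∀ (x : V1) (b : Bool), (r x * if b then D.ζP else 1) ∈ RA a ∧
      π (r x * if b then D.ζP else 1).1.1 = i1 x := fun x b => by
    cases b
    · simpa using ⟨hr x, he x⟩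
    · refine ⟨mul_mem (hr x) ζ_mem, ?_⟩
      show π ((r x).1.1 * ζ) = _
      rw [D.fr.mul _ (hr x) _ ζ_mem, he, (D.fr.eq0 _ ζ_mem).2 (Or.inr rfl), add_zero]
  have hf : Function.Bijective f := by
    constructor
    · rintro ⟨x, b⟩ ⟨y, c⟩ e
      have h1 := D.α_inj (hm x b).1 (hm y c).1 (congrArg Subtype.val e)
      obtain rfl : x = y := D.inj1 (by rw [← (hm x b).2, h1, (hm y c).2])
      have h2 := congrArg (fun p : PA a => p.1.1) (mul_left_cancel h1)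
      cases b <;> cases c
      · rfl
      · exact absurd h2.symm ζ_ne
      · exact absurd h2 ζ_ne
      · rfl
    · rintro ⟨_, k, hk, rfl⟩
      obtain ⟨x, hx⟩ := D.of_R hk
      rcases D.fr.eq (hr x) hk ((he x).trans hx) with e | e
      · exact ⟨(x, false), Subtype.ext (congrArg (αA a) (Subtype.ext (Subtype.ext (by simp [e]))))⟩
      · exact ⟨(x, true), Subtype.ext (congrArg (αA a) (Subtype.ext (Subtype.ext e.symm)))⟩
  rw [← Nat.card_eq_of_bijective f hf, Nat.card_prod, hV, pow_succ]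
  simp

section
variable {β : PA a →* commutator S1.Isom} (hβ : ∀ p, ∃ n : ℤ, σ (jA a p) = φ ((β p).1, M ^ n))
include hβ

theorem conj_β (p : PA a) {k : Co0} (hk : k ∈ K) {x : V1} (e : i1 x = π k) :
    π (p.1.1 * k * p.1.1⁻¹) = i1 ((β p).1.1 x) := by
  obtain ⟨n, h⟩ := hβ p
  rw [← D.φ1 (_, M ^ n), ← h, e]
  exact D.fr.conj (jA a p) k hk

theorem ker_β (p : PA a) : β p = 1 ↔ αA a p ∈ (RA a).map (αA a) := by
  obtain ⟨n, h⟩ := hβ p
  have ha : a ^ n ∈ CA a := zpow_mem (mem_CA.2 rfl) n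
  constructor
  · intro e
    have h1 : σ (jA a p * (⟨a, D.aC⟩ ^ n)⁻¹) = 1 := by
      rw [map_mul, map_inv, D.act_zpow, h, e]; simp
    rcases (D.fr.ker _).1 h1 with h2 | h2
    · refine ⟨⟨⟨_, mul_mem p.1.2 (inv_mem ha)⟩, K_le_C h2⟩, h2, α_eq.2 (mem_WA.2 ⟨n, Or.inl ?_⟩)⟩
      show (p.1.1 * (a ^ n)⁻¹)⁻¹ * p.1.1 = _
      group
    · refine ⟨⟨⟨_, mul_mem (mul_mem p.1.2 (inv_mem ha)) (mem_CA.2 (H14.negOne_comm a).symm)⟩,
        K_le_C h2⟩, h2, α_eq.2 (mem_WA.2 ⟨n, Or.inr ?_⟩)⟩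
      show (p.1.1 * (a ^ n)⁻¹ * negOne)⁻¹ * p.1.1 = _
      rw [H14.negOne_comm (a ^ n), mul_inv_rev, inv_eq_of_mul_eq_one_right H14.negOne_sq]
      group
  · rintro ⟨r, hr, e⟩
    refine Subtype.ext (PForm.isom_ext fun x => D.inj1 ?_)
    obtain ⟨k, hk, e1⟩ := D.exists_R x
    rw [← D.conj_β hβ p hk e1.symm]
    have h1 := WA_comm (α_eq.1 e) k.1.2
    have h2 : p.1.1 * k.1.1 * p.1.1⁻¹ = r.1.1 * k.1.1 * r.1.1⁻¹ := by
      calc _ = r.1.1 * (r.1.1⁻¹ * p.1.1 * k.1.1) * p.1.1⁻¹ := by group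
        _ = _ := by rw [← h1]; group
    rw [h2, D.fr.mul _ (K.mul_mem hr hk) _ (K.inv_mem hr), D.fr.mul _ hr _ hk, D.fr.inv hr, e1,
      add_right_comm, show π r.1.1 + π r.1.1 = 0 from funext fun i => CharTwo.add_self_eq_zero _,
      zero_add]
    rfl

theorem cent_β (p : PA a) (h : ∀ r ∈ RA a, αA a ⁅p, r⁆ = 1) : β p = 1 := by
  refine Subtype.ext (PForm.isom_ext fun x => D.inj1 ?_)
  obtain ⟨k, hk, e1⟩ := D.exists_R x
  rw [← D.conj_β hβ p hk e1.symm]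
  have h1 : p.1.1 * k.1.1 * p.1.1⁻¹ * k.1.1⁻¹ = 1 :=
    D.W_K (α_one.1 (h k hk)) (K.mul_mem (conj_mem_K p.2 hk) (K.inv_mem hk))
  rw [mul_inv_eq_one.1 h1, e1]
  rfl

end

theorem zp {x : PA a} (h : x.1.1 = 1 ∨ x.1.1 = ζ) : αA a x ∈ zpowers D.z := by
  rcases h with e | e
  · rw [show x = 1 from Subtype.ext (Subtype.ext e), map_one]; exact one_mem _
  · rw [show x = D.ζP from Subtype.ext (Subtype.ext e), D.αζ]; exact mem_zpowers _

theorem der (x : PA a) (hx : x ∈ RA a) (y : PA a) (hy : y ∈ RA a) : αA a ⁅x, y⁆ ∈ zpowers D.z :=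
  D.zp (comm_K hx hy)

theorem cen_R (x : PA a) (hx : x ∈ RA a) (h : ∀ y ∈ RA a, αA a ⁅x, y⁆ = 1) :
    αA a x ∈ zpowers D.z := by
  obtain ⟨v, hv⟩ := D.of_R hx
  refine D.zp ((D.fr.eq0 _ hx).1 ?_)
  rw [← hv, D.n1 v fun u => ?_, map_zero]
  obtain ⟨k, hk, e⟩ := D.exists_R u
  rw [← D.os.isom1.h_eq, hv, ← e, ← D.fr.comm _ hx _ hk]
  exact commutatorElement_eq_one_iff_mul_comm.1
    (D.W_K (α_one.1 (h k hk)) (es_K.comm_mem hx hk).1)

theorem nwc {g : Co0} (hg : g ∈ CA a) (h1 : g * ε * g⁻¹ ∈ K) (h2 : π (g * ε * g⁻¹) ≠ 0) :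
    ∃ g : SA a, g * D.z * g⁻¹ ∈ (RA a).map (αA a) ∧ g * D.z * g⁻¹ ≠ D.z := by
  let r : PA a := ⟨⟨g * ε * g⁻¹, mul_mem (mul_mem hg D.εC) (inv_mem hg)⟩, K_le_C h1⟩
  refine ⟨(⟨g, hg⟩ : CA a), ⟨r, h1, rfl⟩, fun e => h2 ?_⟩
  have h3 : r = D.ζP := D.α_inj h1 ζ_mem (e.trans D.αζ.symm)
  exact (D.fr.eq0 _ h1).2 (Or.inr (congrArg (fun p : PA a => p.1.1) h3))

theorem main (h4 : S1.NotO4) {w : ℕ} (hw : w ≠ 0) (hV : Nat.card V1 = 2 ^ (2 * w))
    (hT : ∀ N : Subgroup (commutator S1.Isom), N.Normal → IsPGroup 2 N → N = ⊥)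
    {g : Co0} (hg : g ∈ CA a) (h1 : g * ε * g⁻¹ ∈ K) (h2 : π (g * ε * g⁻¹) ≠ 0) :
    ∃ (Q : Subgroup C1(D.z)) (_ : Q.Normal), IsExtraspecialCentralizerSetting D.z Q w ∧
      (∀ x : C1(D.z), x ∈ Q ↔ x.1 ∈ (RA a).map (αA a)) ∧
      Nonempty (C1(D.z) ⧸ Q ≃* commutator S1.Isom) := by
  obtain ⟨β, hs, hβ⟩ := D.exists_β h4
  obtain ⟨Q, hQ, h5, h6, -, e, -⟩ := gen_setting (αA a) D.range_α β hs (RA a) (D.ker_β hβ) D.oz
    ⟨D.ζP, ζ_mem, D.αζ⟩ D.der D.cen_R hw (D.card_R hV) hT (D.cent_β hβ) (D.nwc hg h1 h2)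
  exact ⟨Q, hQ, h5, h6, ⟨e⟩⟩

end Dat
end Cz
end H28
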