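import Cfsg.Agent.H28.CsB
import Cfsg.Agent.H6.JS
import Cfsg.Agent.S1558
import Cfsg.Agent.S5436

/-! Fusion of the involution `ε` in centralizers of elements of order 3 and 5, simplicity criteria. -/

set_option autoImplicit false

namespace H28
namespace Cz
open Cfsg MulAction H14 H18 H21 H11 Subgroup Module
open scoped Pointwise commutatorElement Matrix

section Orth
variable {V : Type} [AddCommGroup V] [Module (ZMod 2) V] [FiniteDimensional (ZMod 2) V]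
  {S : PForm (orthP (ZMod 2)) V}

theorem exists_perp (hS : S.Nondeg) (h3 : 3 ≤ finrank (ZMod 2) V) (u : V) :
    ∃ v, S.q v ≠ 0 ∧ S.h u v = 0 := by
  by_contra! h
  have h1 : S.TS (S.perp ((ZMod 2) ∙ u)) := PForm.orth_ts_iff.2 fun x hx => by
    by_contra e
    exact h x e (S.mem_perp_singleton.1 hx)
  have h2 := h1.two_mul_finrank_le hS
  have h4 := S.le_finrank_ker_h u
  omega

theorem trans_dick (hS : S.Nondeg) (h3 : 3 ≤ finrank (ZMod 2) V) {u u' : V} (hu : u ≠ 0)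
    (hu' : u' ≠ 0) (hq : S.q u = S.q u') : ∃ g : S.Isom, hS.dick g = 1 ∧ g.1 u = u' := by
  obtain ⟨g, hg⟩ := hS.witt_vec hu hu' (by rw [hq, sub_self]; exact zero_mem _)
  rcases Int.units_eq_one_or (hS.dick g) with e | e
  · exact ⟨g, e, hg⟩
  · obtain ⟨v, h1, h2⟩ := exists_perp hS h3 u
    exact ⟨g * S.refl v, by simp [e, hS.dick_refl h1], by
      rw [PForm.isom_mul_apply, PForm.refl_apply_of_perp (S.h_swap_zero h2), hg]⟩

theorem irr_dick (hS : S.Nondeg) (h3 : 3 ≤ finrank (ZMod 2) V) (U : V → Prop)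
    (add : ∀ u v, U u → U v → U (u + v)) (act : ∀ t v, hS.dick t = 1 → U v → U (t.1 v))
    {v0 : V} (h0 : v0 ≠ 0) (hU : U v0) (v : V) : U v := by
  have z2 : ∀ a : ZMod 2, a ≠ 0 → a = 1 := by decide
  have vv : ∀ v : V, v + v = 0 := fun v => by
    rw [← two_smul (ZMod 2), show (2 : ZMod 2) = 0 from rfl, zero_smul]
  have mv : ∀ u u', u ≠ 0 → u' ≠ 0 → S.q u = S.q u' → U u → U u' := fun u u' a b c d => by
    obtain ⟨g, h1, rfl⟩ := trans_dick hS h3 a b c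
    exact act g u h1 d
  have n0 : ∀ u, S.q u ≠ 0 → u ≠ 0 := fun u h e => h (e ▸ S.orth_q_zero)
  obtain ⟨w, hw, hw'⟩ : ∃ w, S.q w ≠ 0 ∧ U w := by
    by_cases e : S.q v0 = 0
    · obtain ⟨y, hy⟩ := hS.exists_h_eq_one h0
      obtain ⟨f, h1, h2⟩ : ∃ f, S.q f = 0 ∧ S.h v0 f = 1 := by
        by_cases e' : S.q y = 0
        · exact ⟨y, e', hy⟩
        · exact ⟨v0 + y, by rw [S.orth_q_add, e, z2 _ e', hy]; decide, by
            rw [map_add, hy, PForm.orth_h_self, e]; decide⟩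
      refine ⟨v0 + f, by rw [S.orth_q_add, e, h1, h2]; decide, add _ _ hU (mv _ _ h0 ?_ ?_ hU)⟩
      · rintro rfl
        simp at h2
      · rw [e, h1]
    · exact ⟨v0, e, hU⟩
  have ns : ∀ u, S.q u ≠ 0 → U u := fun u h =>
    mv _ _ (n0 _ hw) (n0 _ h) (by rw [z2 _ hw, z2 _ h]) hw'
  by_cases e : S.q v = 0
  · obtain ⟨u, h1, h2⟩ := exists_perp hS h3 v
    have := add _ _ (ns (v + u) (by rw [S.orth_q_add, e, h2]; simpa using h1)) (ns u h1)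
    rwa [add_assoc, vv, add_zero] at this
  · exact ns v e

/-- an isometry from a linear map -/
noncomputable def mkI (hS : S.Nondeg) (m : V →ₗ[ZMod 2] V) (h : ∀ x, S.q (m x) = S.q x) : S.Isom :=
  ⟨LinearEquiv.ofInjectiveEndo m ((PForm.orth_isIsom h).injective hS), PForm.orth_isIsom h⟩

theorem cen_of {M : S.Isom} {y : V} (h0 : y ≠ 0)
    (h1 : ∀ v, v ≠ 0 → S.q v = S.q y → ∃ n : ℕ, v = (M ^ n).1 y)
    (h2 : ∀ f g : S.Isom, (∀ n : ℕ, f.1 ((M ^ n).1 y) = g.1 ((M ^ n).1 y)) → f = g)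
    (c : S.Isom) (hc : c * M = M * c) : c ∈ zpowers M := by
  obtain ⟨n, hn⟩ := h1 (c.1 y) (by rwa [Ne, map_eq_zero_iff _ c.1.injective]) (PForm.orth_isom_q c y)
  refine ⟨n, h2 _ _ fun k => ?_⟩
  rw [← PForm.isom_mul_apply c, (Commute.pow_right hc k).eq, PForm.isom_mul_apply, hn,
    ← PForm.isom_mul_apply, ← PForm.isom_mul_apply]
  simp only [zpow_natCast, ← pow_add, add_comm]

theorem simple_of (hS : S.Nondeg) (h4 : S.NotO4) (h3 : 3 ≤ finrank (ZMod 2) V)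
    (h : IsSimpleGroup (commutator S.Isom ⧸ center (commutator S.Isom))) :
    IsSimpleGroup (commutator S.Isom) := by
  have h1 := hS.orth_card_center h4 h3
  rw [if_neg fun e => e.1 rfl, card_eq_one] at h1
  exact ((QuotientGroup.quotientMulEquivOfEq h1).trans QuotientGroup.quotientBot).symm.isSimpleGroup

end Orth

theorem o1m : bset 0x6c0710 ∈ octads := bset_mem_octads (by decide +kernel)
theorem o2m : bset 0x11b8c0 ∈ octads := bset_mem_octads (by decide +kernel)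

/-- a second octad sign change -/
noncomputable def ε1 : Co0 := sgn _ o1m.1

theorem ε1_mem : ε1 ∈ K := sgn_mem_K _ ((disj_bset _).2 (by decide +kernel))
theorem ε1_sq : ε1 * ε1 = 1 := sgn_mul_self _

theorem ε1ζ : ε1 * ζ = sgn _ o2m.1 := by
  rw [ε1, ζ, ε_neg, ← sgn_symmDiff]
  exact sgn_congr _ _ (by rw [oc_eq, ← bset_xor]; rfl)

theorem ε1_ne : ¬ (ε1 = 1 ∨ ε1 = ζ) := by
  have h : tr ε1 = 8 := by rw [ε1, tr_sgn, o1m.2]; norm_num
  rintro (e | e) <;> rw [e] at h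
  · rw [tr_one] at h; norm_num at h
  · rw [ζ, tr_negε] at h; norm_num at h

/-- elements permuting the trio cyclically -/
def Cy (h : Co0) : Prop := h * ε * h⁻¹ = ε1 ∧ h * ε1 * h⁻¹ = ε1 * ζ

theorem exists_cy : ∃ h, Cy h := by
  classical
  have n01 : o0 ≠ bset 0x6c0710 := by decide +kernel
  have n02 : o0 ≠ bset 0x11b8c0 := by decide +kernel
  have n12 : bset 0x6c0710 ≠ bset 0x11b8c0 := by decide +kernel
  let T : Finset (Finset GolayPt) := {o0, bset 0x6c0710, bset 0x11b8c0}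
  have hT : T ∈ trios := by
    refine ⟨Finset.card_eq_three.2 ⟨_, _, _, n01, n02, n12, rfl⟩, ?_, ?_⟩ <;>
    simp only [T, Finset.mem_insert, Finset.mem_singleton]
    · rintro _ (rfl | rfl | rfl)
      exacts [o0_mem, o1m, o2m]
    · have d10 : Disjoint (bset 0x6c0710) o0 := (disj_bset _).2 (by decide +kernel)
      have d20 : Disjoint (bset 0x11b8c0) o0 := (disj_bset _).2 (by decide +kernel)
      have d12 : Disjoint (bset 0x6c0710) (bset 0x11b8c0) := by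
        rw [Finset.disjoint_iff_inter_eq_empty, ← bset_and]; exact bset_zero
      rintro _ (rfl | rfl | rfl) _ (rfl | rfl | rfl) h
      exacts [absurd rfl h, d10.symm, d20.symm, d10, absurd rfl h, d12, d20, d12.symm, absurd rfl h]
  let x0 : T := ⟨o0, by simp [T]⟩
  let x1 : T := ⟨bset 0x6c0710, by simp [T]⟩
  let x2 : T := ⟨bset 0x11b8c0, by simp [T]⟩
  have m01 : x0 ≠ x1 := fun e => n01 (congrArg Subtype.val e)
  have m02 : x0 ≠ x2 := fun e => n02 (congrArg Subtype.val e)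
  have m12 : x1 ≠ x2 := fun e => n12 (congrArg Subtype.val e)
  obtain ⟨g, -, hg⟩ := (Agent.S1558.result T hT).1 (Equiv.swap x0 x1 * Equiv.swap x1 x2)
  have h0 := hg x0
  have h1 := hg x1
  rw [Equiv.Perm.mul_apply, Equiv.swap_apply_of_ne_of_ne m01 m02, Equiv.swap_apply_left] at h0
  rw [Equiv.Perm.mul_apply, Equiv.swap_apply_left,
    Equiv.swap_apply_of_ne_of_ne m02.symm m12.symm] at h1
  refine ⟨permH g, ?_, ?_⟩
  · rw [ε, ← sgn_smul]; exact sgn_congr _ _ h0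
  · rw [ε1ζ, ε1, ← sgn_smul]; exact sgn_congr _ _ h1

abbrev D0 : Subgroup Co0 := C1(ε) ⊓ C1(ε1)

theorem Cy.ζ {h : Co0} (H : Cy h) : h * ζ * h⁻¹ = ε1 * negOne := by
  rw [Cz.ζ, ← H.1, mul_assoc _ h⁻¹, H14.negOne_comm h⁻¹]; group

theorem Cy.three {h : Co0} (H : Cy h) : h * (ε1 * Cz.ζ) * h⁻¹ = ε := by
  calc _ = h * ε1 * h⁻¹ * (h * Cz.ζ * h⁻¹) := by group
    _ = ε := by
      rw [H.2, H.ζ, ζ_comm (K_le_C ε1_mem), mul_assoc, ← mul_assoc ε1, ε1_sq, one_mul, Cz.ζ,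
        mul_assoc, H14.negOne_sq, mul_one]

theorem cj_comm {h x y : Co0} (e : x * y = y * x) :
    h * x * h⁻¹ * (h * y * h⁻¹) = h * y * h⁻¹ * (h * x * h⁻¹) := by
  rw [conj_mul, conj_mul, e]

theorem Cy.conj {h d : Co0} (H : Cy h) (hd : d ∈ D0) : h * d * h⁻¹ ∈ D0 :=
  ⟨mem_C1.2 (H.three ▸ cj_comm (Commute.mul_right (mem_C1.1 hd.2) (ζ_comm hd.1)).eq),
    mem_C1.2 (H.1 ▸ cj_comm (mem_C1.1 hd.1))⟩

theorem Cy.mul {h d : Co0} (H : Cy h) (hd : d ∈ D0) : Cy (d * h) := by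
  constructor
  · rw [show d * h * ε * (d * h)⁻¹ = d * (h * ε * h⁻¹) * d⁻¹ by group, H.1, mem_C1.1 hd.2,
      mul_inv_cancel_right]
  · rw [show d * h * ε1 * (d * h)⁻¹ = d * (h * ε1 * h⁻¹) * d⁻¹ by group, H.2,
      (Commute.mul_right (mem_C1.1 hd.2) (ζ_comm hd.1)).eq, mul_inv_cancel_right]

theorem Cy.pow {h : Co0} (H : Cy h) : Cy (h * h * h * h) := H.mul ⟨mem_C1.2 (by
    rw [← mul_inv_eq_iff_eq_mul, show h * h * h * ε * (h * h * h)⁻¹ =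
      h * (h * (h * ε * h⁻¹) * h⁻¹) * h⁻¹ by group, H.1, H.2, H.three]), mem_C1.2 (by
    rw [← mul_inv_eq_iff_eq_mul, show h * h * h * ε1 * (h * h * h)⁻¹ =
      h * (h * (h * ε1 * h⁻¹) * h⁻¹) * h⁻¹ by group, H.2, H.three, H.1])⟩

theorem Cy.cent {h x : Co0} (H : Cy h) {p : ℕ} (hp : p = 3 ∨ p = 5) (ho : orderOf x = p)
    (hx : h * x * h⁻¹ ∈ zpowers x) : ∃ g ∈ CA x, Cy g := by
  have h0 : x ^ p = 1 := ho ▸ pow_orderOf_eq_one x
  obtain ⟨i, hi, e⟩ := H6.J.eq_pow_of_mem (by omega) h0 hx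
  refine ⟨_, mem_CA.2 ?_, H.pow⟩
  rw [← mul_inv_eq_iff_eq_mul, show h * h * h * h * x * (h * h * h * h)⁻¹ =
    h * (h * (h * (h * x * h⁻¹) * h⁻¹) * h⁻¹) * h⁻¹ by group]
  simp only [e, ← conj_pow, ← pow_mul]
  have h1 : i ≠ 0 := by
    rintro rfl
    rw [pow_zero, conj_eq_one_iff] at e
    rw [e, orderOf_one] at ho
    omega
  refine H19.pow_eq_self_of_modEq_one h0 ?_
  rcases hp with rfl | rfl <;> interval_cases i <;> first | omega | decide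

section
variable {π : Co0 → V8} {σ : C1(ε) →* S8.Isom}

theorem Fr.ne (h : Fr π σ) : π ε1 ≠ 0 := fun e => ε1_ne ((h.eq0 _ ε1_mem).1 e)

theorem Fr.card_D (h : Fr π σ) : ¬ 5 ^ 2 ∣ Nat.card D0 := by
  letI := MulAction.compHom V8 σ
  have h1 := card_stabilizer_mul (G := C1(ε)) (π ε1)
  have hq := (h.sq _ ε1_mem).1 ε1_sq
  have h3 : orbit C1(ε) (π ε1) = {v | quadFormPlus 4 (ZMod 2) v = 0} \ {0} := by
    ext v
    constructor
    · rintro ⟨g, rfl⟩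
      exact ⟨(PForm.orth_isom_q (σ g) _).trans hq,
        fun e => h.ne ((map_eq_zero_iff _ (σ g).1.injective).1 e)⟩
    · rintro ⟨h1, h2⟩
      obtain ⟨t, h3, rfl⟩ := trans_dick nd8 (by rw [finrank_sum_fun]; omega) h.ne h2 (hq.trans h1.symm)
      obtain ⟨g, rfl⟩ := (h.range t).1 h3
      exact ⟨g, rfl⟩
  have h4 : ({v | quadFormPlus 4 (ZMod 2) v = 0} \ {0} : Set (ι → ZMod 2)).ncard = 135 := by
    have := Cfsg.Agent.S0289.result (F := ZMod 2) (q := 2) (by simp) 4 (by norm_num)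
    rw [Set.ncard_sdiff_singleton_of_mem (by simp [quadFormPlus]), ← Nat.card_coe_set_eq]
    exact (congrArg (· - 1) this).trans (by norm_num)
  rw [h3, h4, card_C] at h1
  have h5 : D0.subgroupOf C1(ε) ≤ stabilizer C1(ε) (π ε1) := fun g hg => by
    show (σ g).1 (π ε1) = π ε1
    rw [← h.conj g _ ε1_mem, mem_C1.1 (show g.1 ∈ C1(ε1) from hg.2)]
    exact congrArg π (mul_inv_cancel_right _ _)
  have h6 := card_dvd_of_le h5
  rw [Nat.card_congr (subgroupOfEquivOfLe inf_le_left).toEquiv,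
    show Nat.card (stabilizer C1(ε) (π ε1)) = 4096 * 322560 by omega] at h6
  exact fun e => absurd (e.trans h6) (by norm_num)

theorem exists_fr {e : V8} (h0 : e ≠ 0) (hq : S8.q e = 0) : ∃ π σ, Fr π σ ∧ π ε1 = e := by
  obtain ⟨π, σ, h⟩ := exists_fr0
  obtain ⟨t, -, ht⟩ := trans_dick nd8 (by rw [finrank_sum_fun]; omega) h.ne h0
    (((h.sq _ ε1_mem).1 ε1_sq).trans hq.symm)
  exact ⟨_, _, h.move t, ht⟩

end

namespace Dat
variable {V1 V2 : Type} [AddCommGroup V1] [Module (ZMod 2) V1] [FiniteDimensional (ZMod 2) V1]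
  [AddCommGroup V2] [Module (ZMod 2) V2] [FiniteDimensional (ZMod 2) V2]
  {π : Co0 → V8} {σ : C1(ε) →* S8.Isom} {S1 : PForm (orthP (ZMod 2)) V1}
  {S2 : PForm (orthP (ZMod 2)) V2} {i1 : V1 →ₗ[ZMod 2] V8} {i2 : V2 →ₗ[ZMod 2] V8}
  {φ : S1.Isom × S2.Isom →* S8.Isom} {M : S2.Isom} {a : Co0} (D : Dat π σ i1 i2 φ M a)
include D

theorem mem_D {e : V1} (he : i1 e = π ε1) : a ∈ D0 :=
  ⟨D.aC, mem_C1.2 (mem_CA.1 ((D.π_mem ε1_mem).2 ⟨e, he⟩)).symm⟩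

theorem not_nine (h4 : S1.NotO4) (ho : orderOf a = 5) (hc : Nat.card (commutator S1.Isom) = 60) :
    ¬ 3 ^ 2 ∣ Nat.card (D0 ⊓ C1(a) : Subgroup Co0) := fun h => by
  obtain ⟨β, hs, hβ⟩ := D.exists_β h4
  have h1 : D0 ⊓ C1(a) ≤ C1(ε) ⊓ CA a := fun x hx => ⟨hx.1.1, mem_CA.2 (mem_C1.1 hx.2)⟩
  have h2 := h.trans (card_dvd_of_le h1)
  rw [← Nat.card_congr (subgroupOfEquivOfLe (inf_le_right (a := C1(ε)) (b := CA a))).toEquiv,
    inf_subgroupOf_right, ← β.ker.card_mul_index, index_ker, MonoidHom.range_eq_top.2 hs,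
    card_top, hc] at h2
  have h3 : 3 ∣ Nat.card β.ker := by omega
  haveI := Fact.mk Nat.prime_three
  obtain ⟨x, hx⟩ := exists_prime_orderOf_dvd_card' 3 h3
  obtain ⟨r, hr, e⟩ := (D.ker_β hβ x.1).1 x.2
  have h5 := α_eq.1 e
  have h6 : (r.1.1⁻¹ * x.1.1.1) ^ 20 = 1 := by
    have h7 : a ^ 20 = 1 := orderOf_dvd_iff_pow_eq_one.1 (by rw [ho]; norm_num)
    have h8 : ∀ n : ℤ, (a ^ n) ^ 20 = 1 := fun n => by
      rw [← zpow_natCast, ← zpow_mul, mul_comm, zpow_mul, zpow_natCast, h7, one_zpow]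
    obtain ⟨n, e | e⟩ := mem_WA.1 h5 <;> rw [e]
    · exact h8 n
    · rw [Commute.mul_pow (H14.negOne_comm _), h8, show 20 = 2 * 10 from rfl, pow_mul, sq,
        H14.negOne_sq, one_pow, mul_one]
  have h7 : x.1.1.1 ^ 20 = 1 := by
    rw [← mul_inv_cancel_left r.1.1 x.1.1.1, Commute.mul_pow (WA_comm h5 r.1.2), h6,
      show 20 = 4 * 5 from rfl, pow_mul, K_pow hr, one_pow, mul_one]
  have h8 : orderOf x ∣ 20 :=
    orderOf_dvd_of_pow_eq_one (Subtype.ext (Subtype.ext (Subtype.ext h7)))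
  rw [hx] at h8
  norm_num at h8

theorem irr (h4 : S1.NotO4) (h3 : 3 ≤ finrank (ZMod 2) V1) {Q : Subgroup C1(D.z)}
    (hQ : ∀ x : C1(D.z), x ∈ Q ↔ x.1 ∈ (RA a).map (αA a)) (W : Subgroup C1(D.z)) (hW : W.Normal)
    (hl : W ≤ Q) : W = Q ∨ ∀ x ∈ W, x.1 ∈ zpowers D.z := by
  refine or_iff_not_imp_right.2 fun h => le_antisymm hl fun y hy => ?_
  push Not at h
  obtain ⟨x, hx, hn⟩ := h
  obtain ⟨β, hs, hβ⟩ := D.exists_β h4
  let m : PA a →* C1(D.z) := (αA a).codRestrict _ fun p => D.range_α.le ⟨p, rfl⟩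
  have hW' : (W.comap m).Normal := hW.comap m
  obtain ⟨r0, hr0, e0⟩ := (hQ x).1 (hl hx)
  have w0 : r0 ∈ W.comap m := by
    show m r0 ∈ W
    rwa [show m r0 = x from Subtype.ext e0]
  obtain ⟨v0, hv0⟩ := D.of_R hr0
  have n0 : v0 ≠ 0 := by
    rintro rfl
    exact hn (e0 ▸ D.zp ((D.fr.eq0 _ hr0).1 (by rw [← hv0, map_zero])))
  have hζ : D.ζP ∈ W.comap m := by
    obtain ⟨u, hu⟩ := D.n1.exists_h_ne_zero n0
    obtain ⟨k, hk, e⟩ := D.exists_R u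
    rw [← D.os.isom1.h_eq, hv0, ← e, Ne, ← D.fr.comm _ hr0 _ hk] at hu
    have h1 : ⁅r0, k⁆ = D.ζP := Subtype.ext (Subtype.ext ((comm_K hr0 hk).resolve_left fun e =>
      hu (commutatorElement_eq_one_iff_mul_comm.1 e)))
    rw [← h1, commutatorElement_def, mul_assoc, mul_assoc, ← mul_assoc k]
    exact mul_mem w0 (hW'.conj_mem _ (inv_mem w0) k)
  obtain ⟨r, hr, e⟩ := (hQ y).1 hy
  obtain ⟨v, hv⟩ := D.of_R hr
  obtain ⟨r', h1, h2, h5⟩ := irr_dick D.n1 h3 (fun v => ∃ r ∈ RA a, r ∈ W.comap m ∧ π r.1.1 = i1 v)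
    (by
      rintro u v ⟨r, a1, a2, a3⟩ ⟨s, b1, b2, b3⟩
      exact ⟨r * s, mul_mem a1 b1, mul_mem a2 b2, by
        rw [map_add, ← a3, ← b3]; exact D.fr.mul _ a1 _ b1⟩)
    (by
      rintro t v ht ⟨r, a1, a2, a3⟩
      obtain ⟨p, hp⟩ := hs ⟨t, (D.n1.orth_commutator_eq_ker_dick rfl h4).ge ht⟩
      exact ⟨p * r * p⁻¹, conj_mem_K p.2 a1, hW'.conj_mem _ a2 p,
        (D.conj_β hβ p a1 a3.symm).trans (by rw [hp])⟩) n0 ⟨r0, hr0, w0, hv0.symm⟩ v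
  rw [show y = m r from Subtype.ext e.symm]
  rcases D.fr.eq h1 hr (h5.trans hv) with e | e
  · rw [show r = r' from Subtype.ext (Subtype.ext e)]; exact h2
  · rw [show r = r' * D.ζP from Subtype.ext (Subtype.ext e)]; exact mul_mem h2 hζ

theorem conj_ε (h4 : S1.NotO4) (h3 : 3 ≤ finrank (ZMod 2) V1) {e : V1} (he : i1 e = π ε1)
    {g : Co0} (hg : g ∈ CA a) (H : Cy g) {k : Co0} (hk : k ∈ K) {v : V1} (hv : i1 v = π k)
    (h0 : v ≠ 0) (hq : S1.q v = 0) : ∃ c ∈ CA a, c * ε * c⁻¹ = k := by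
  obtain ⟨β, hs, hβ⟩ := D.exists_β h4
  obtain ⟨t, ht, rfl⟩ := trans_dick D.n1 h3 (u := e) (fun h => D.fr.ne (by rw [← he, h, map_zero])) h0
    (by rw [hq, ← D.os.isom1.orth_q, he]; exact (D.fr.sq _ ε1_mem).1 ε1_sq)
  obtain ⟨p, hp⟩ := hs ⟨t, (D.n1.orth_commutator_eq_ker_dick rfl h4).ge ht⟩
  have h1 := D.conj_β hβ p ε1_mem he
  rw [hp] at h1
  rcases D.fr.eq (conj_mem_K (g := p.1.1) p.2 ε1_mem) hk (h1.trans hv) with e | e
  · exact ⟨p.1.1 * g, mul_mem p.1.2 hg, by rw [e, ← H.1]; group⟩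
  · refine ⟨p.1.1 * g * g, mul_mem (mul_mem p.1.2 hg) hg, ?_⟩
    rw [e, mul_assoc _ _ Cz.ζ, ζ_comm (inv_mem (show p.1.1 ∈ C1(ε) from p.2)), ← mul_assoc, mul_assoc _ ε1, ← H.2, ← H.1]
    group

theorem wcl (h4 : S1.NotO4) (h3 : 3 ≤ finrank (ZMod 2) V1) {e : V1} (he : i1 e = π ε1)
    {g : Co0} (hg : g ∈ CA a) (H : Cy g) {u v : V1} (hu : S1.q u = 0) (hv : S1.q v = 0)
    (h1 : S1.h u v ≠ 0) (h2 : S1.h u e = 0) (h5 : S1.h v e = 0) :
    ∃ x ∈ C1(D.z), IsConj D.z x ∧ x ∉ (RA a).map (αA a) := by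
  by_contra! hn
  have key : ∀ u, u ≠ 0 → S1.q u = 0 → S1.h u e = 0 → ∃ k ∈ K, π k = i1 u ∧ ∃ r ∈ RA a,
      r.1.1⁻¹ * (g * k * g⁻¹) ∈ WA a := fun u a1 a2 a3 => by
    obtain ⟨k, hk, e1⟩ := D.exists_R u
    have b1 : k.1.1 * ε1 = ε1 * k.1.1 := by
      rw [D.fr.comm _ hk _ ε1_mem, e1, ← he, D.os.isom1.h_eq, a3]
    let X : PA a := ⟨⟨g * k.1.1 * g⁻¹, mul_mem (mul_mem hg k.1.2) (inv_mem hg)⟩,
      (H.conj ⟨k.2, mem_C1.2 b1⟩).1⟩
    obtain ⟨c, hc, e2⟩ := D.conj_ε h4 h3 he hg H hk e1.symm a1 a2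
    obtain ⟨r, hr, e3⟩ := hn (αA a X) (D.range_α.le ⟨X, rfl⟩) (isConj_iff.2
      ⟨(⟨g * c, mul_mem hg hc⟩ : CA a), congrArg (QuotientGroup.mk (s := (WA a).subgroupOf (CA a)))
        (Subtype.ext (by
          show g * c * ε * (g * c)⁻¹ = g * k.1.1 * g⁻¹
          rw [← e2]; group) : (⟨g * c, mul_mem hg hc⟩ : CA a) * ⟨ε, D.εC⟩ *
            (⟨g * c, mul_mem hg hc⟩ : CA a)⁻¹ = X.1)⟩)
    exact ⟨_, hk, e1, r, hr, α_eq.1 e3⟩
  obtain ⟨x, hx, e1, r, hr, a1⟩ := key u (by rintro rfl; simp at h1) hu h2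
  obtain ⟨y, hy, e2, s, hs, a2⟩ := key v (by rintro rfl; simp at h1) hv h5
  rw [← D.os.isom1.h_eq, ← e1, ← e2, Ne, ← D.fr.comm _ hx _ hy] at h1
  have b1 : ⁅x, y⁆ = Cz.ζ := (comm_K hx hy).resolve_left fun e =>
    h1 (commutatorElement_eq_one_iff_mul_comm.1 e)
  have b2 : ⁅g * x * g⁻¹, g * y * g⁻¹⁆ = ε1 * negOne := by rw [← conjugate_commutatorElement, b1, H.ζ]
  rw [← mul_inv_cancel_left r.1.1 (g * x * g⁻¹), ← mul_inv_cancel_left s.1.1 (g * y * g⁻¹)] at b2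
  generalize r.1.1⁻¹ * (g * x * g⁻¹) = w1 at a1 b2
  generalize s.1.1⁻¹ * (g * y * g⁻¹) = w2 at a2 b2
  have wc : w2 ∈ CA a := by
    obtain ⟨n, rfl | rfl⟩ := mem_WA.1 a2
    · exact zpow_mem (mem_CA.2 rfl) n
    · exact mul_mem (zpow_mem (mem_CA.2 rfl) n) (mem_CA.2 (H14.negOne_comm a).symm)
  have b3 : ⁅r.1.1 * w1, s.1.1 * w2⁆ = ⁅r.1.1, s.1.1⁆ := by
    have c1 := WA_comm a1 (mul_mem s.1.2 wc)
    have c2 := WA_comm a2 (inv_mem r.1.2)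
    calc _ = r.1.1 * (w1 * (s.1.1 * w2)) * w1⁻¹ * r.1.1⁻¹ * w2⁻¹ * s.1.1⁻¹ := by
          rw [commutatorElement_def]; group
      _ = r.1.1 * s.1.1 * (w2 * r.1.1⁻¹) * w2⁻¹ * s.1.1⁻¹ := by rw [← c1]; group
      _ = _ := by rw [← c2, commutatorElement_def]; group
  rw [b3] at b2
  exact negOne_not_mem ((K.mul_mem_cancel_left ε1_mem).1 (b2 ▸ (es_K.comm_mem hr hs).1))

theorem simple {w : ℕ} (hw : 2 ≤ w) (h4 : S1.NotO4) (h3 : 3 ≤ finrank (ZMod 2) V1)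
    {Q : Subgroup C1(D.z)} [Q.Normal] (h : IsExtraspecialCentralizerSetting D.z Q w)
    (hQ : ∀ x : C1(D.z), x ∈ Q ↔ x.1 ∈ (RA a).map (αA a)) (e : C1(D.z) ⧸ Q ≃* commutator S1.Isom)
    [IsSimpleGroup (commutator S1.Isom)] (hp : ¬ (Nat.card (commutator S1.Isom)).Prime)
    (hx : ∃ x ∈ C1(D.z), IsConj D.z x ∧ x ∉ (RA a).map (αA a)) : IsSimpleGroup (SA a) := by
  obtain ⟨x, h1, h2, h5⟩ := hx
  haveI := e.isSimpleGroup
  refine Agent.S5436.result D.z h.1 Q h.2.1 h.2.2.1 w hw h.2.2.2.1 h.2.2.2.2 inferInstance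
    (fun hc => hp ?_) (D.irr h4 h3 hQ) fun e => h5 ((hQ ⟨x, h1⟩).1 (e ▸ subset_closure h2))
  rw [← Nat.card_congr e.toEquiv]
  letI : CommGroup (C1(D.z) ⧸ Q) := ⟨hc.is_comm.comm⟩
  exact IsSimpleGroup.prime_card

end Dat
end Cz
end H28
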