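import Cfsg.Agent.H28.CsC

/-! Elements of order 3 and 5 of `C(ε)` with fixed spaces of dimension 6 and 4 on `K / Z(K)`. -/

set_option autoImplicit false

namespace H28
namespace Cz
open Cfsg MulAction H14 H18 H21 H11 Subgroup Module
open scoped Pointwise commutatorElement Matrix

abbrev Vm (m : ℕ) : Type := (Fin m ⊕ Fin m) ⊕ Fin 2 → ZMod 2
abbrev Sm (m : ℕ) : PForm (orthP (ZMod 2)) (Vm m) := sMinus m (ZMod 2) 1 1
theorem ndm (m : ℕ) : (Sm m).Nondeg := sMinus_nondeg m aniso_two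
theorem no4m (m : ℕ) (h : m ≠ 0) : (Sm m).NotO4 := by
  by_cases e : m = 1
  · subst e
    exact Or.inr (Or.inr (sMinus_not_hasTS 1 aniso_two))
  · exact Or.inr (Or.inl (by rw [finrank_minus_fun]; omega))

def i31 : Vm 2 →ₗ[ZMod 2] V8 where
  toFun v := Sum.elim ![v (.inl (.inl 0)), v (.inl (.inl 1)), v (.inr 0) + v (.inr 1), v (.inr 1)]
    ![v (.inl (.inr 0)), v (.inl (.inr 1)), v (.inr 0), v (.inr 1)]
  map_add' u v := by ext (i | i) <;> fin_cases i <;> simp [add_add_add_comm]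
  map_smul' c v := by ext (i | i) <;> fin_cases i <;> simp [mul_add]

def i32 : Vm 0 →ₗ[ZMod 2] V8 where
  toFun v := Sum.elim ![0, 0, v (.inr 1), v (.inr 0) + v (.inr 1)] ![0, 0, v (.inr 1), v (.inr 0)]
  map_add' u v := by ext (i | i) <;> fin_cases i <;> simp [add_add_add_comm]
  map_smul' c v := by ext (i | i) <;> fin_cases i <;> simp [mul_add]

def i51 : Vm 1 →ₗ[ZMod 2] V8 where
  toFun v := Sum.elim ![v (.inl (.inl 0)), 0, v (.inr 1), v (.inr 0) + v (.inr 1)]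
    ![v (.inl (.inr 0)), 0, v (.inr 1), v (.inr 0)]
  map_add' u v := by ext (i | i) <;> fin_cases i <;> simp [add_add_add_comm]
  map_smul' c v := by ext (i | i) <;> fin_cases i <;> simp [mul_add]

def i52 : Vm 1 →ₗ[ZMod 2] V8 where
  toFun v := Sum.elim ![0, v (.inl (.inl 0)), v (.inr 0) + v (.inr 1), v (.inr 1)]
    ![0, v (.inl (.inr 0)), v (.inr 0), v (.inr 1)]
  map_add' u v := by ext (i | i) <;> fin_cases i <;> simp [add_add_add_comm]
  map_smul' c v := by ext (i | i) <;> fin_cases i <;> simp [mul_add]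

theorem os3 : PForm.OSum S8 (Sm 2) (Sm 0) i31 i32 where
  isom1 := PForm.orth_isIsom
    (by decide +kernel : ∀ x, quadFormPlus 4 (ZMod 2) (i31 x) = quadFormMinus 2 (ZMod 2) 1 1 x)
  isom2 := PForm.orth_isIsom
    (by decide +kernel : ∀ x, quadFormPlus 4 (ZMod 2) (i32 x) = quadFormMinus 0 (ZMod 2) 1 1 x)
  orth x y := by
    simp [qPlus_polar, i31, i32, Fin.sum_univ_succ]
    generalize x (.inr 0) = a, x (.inr 1) = b, y (.inr 0) = c, y (.inr 1) = d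
    revert a b c d
    decide
  span v := ⟨Sum.elim (Sum.elim ![v (.inl 0), v (.inl 1)] ![v (.inr 0), v (.inr 1)])
      ![v (.inr 2) + v (.inl 3) + v (.inr 3), v (.inl 2) + v (.inr 2)],
    Sum.elim 0 ![v (.inr 3) + v (.inl 2) + v (.inr 2), v (.inl 3) + v (.inr 3)], by
    have h : ∀ a b c d : ZMod 2, a = b + c + d + (a + b) + (c + d) ∧
      c = a + b + (d + a + b + (c + d)) ∧ b = b + c + d + (c + d) ∧ d = a + b + (d + a + b) := by decide
    ext (i | i) <;> fin_cases i <;> simp [i31, i32]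
    exacts [(h _ _ _ _).1, (h _ _ _ _).2.1, (h 0 _ _ _).2.2.1, (h _ _ 0 _).2.2.2]⟩

theorem os5 : PForm.OSum S8 (Sm 1) (Sm 1) i51 i52 where
  isom1 := PForm.orth_isIsom
    (by decide +kernel : ∀ x, quadFormPlus 4 (ZMod 2) (i51 x) = quadFormMinus 1 (ZMod 2) 1 1 x)
  isom2 := PForm.orth_isIsom
    (by decide +kernel : ∀ x, quadFormPlus 4 (ZMod 2) (i52 x) = quadFormMinus 1 (ZMod 2) 1 1 x)
  orth x y := by
    simp [qPlus_polar, i51, i52, Fin.sum_univ_succ]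
    generalize x (.inr 0) = a, x (.inr 1) = b, y (.inr 0) = c, y (.inr 1) = d
    revert a b c d
    decide
  span v := ⟨Sum.elim (Sum.elim ![v (.inl 0)] ![v (.inr 0)])
      ![v (.inr 3) + v (.inl 2) + v (.inr 2), v (.inl 3) + v (.inr 3)],
    Sum.elim (Sum.elim ![v (.inl 1)] ![v (.inr 1)])
      ![v (.inr 2) + v (.inl 3) + v (.inr 3), v (.inl 2) + v (.inr 2)], by
    have h : ∀ a b c d : ZMod 2, a = c + d + (b + c + d + (a + b)) ∧
      c = d + a + b + (c + d) + (a + b) ∧ b = c + d + (b + c + d) ∧ d = d + a + b + (a + b) := by decide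
    ext (i | i) <;> fin_cases i <;> simp [i51, i52]
    exacts [(h _ _ _ _).1, (h _ _ _ _).2.1, (h 0 _ _ _).2.2.1, (h _ _ 0 _).2.2.2]⟩

def m3 : Vm 0 →ₗ[ZMod 2] Vm 0 where
  toFun v := Sum.elim 0 ![v (.inr 1), v (.inr 0) + v (.inr 1)]
  map_add' u v := by ext (i | i) <;> fin_cases i <;> simp [add_add_add_comm]
  map_smul' c v := by ext (i | i) <;> fin_cases i <;> simp [mul_add]

def m5 : Vm 1 →ₗ[ZMod 2] Vm 1 where
  toFun v := Sum.elim (Sum.elim ![v (.inl (.inr 0))]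
      ![v (.inl (.inl 0)) + v (.inl (.inr 0)) + v (.inr 0) + v (.inr 1)])
    ![v (.inl (.inr 0)) + v (.inr 0), v (.inr 0) + v (.inr 1)]
  map_add' u v := by ext ((i | i) | i) <;> fin_cases i <;> simp <;> ring
  map_smul' c v := by ext ((i | i) | i) <;> fin_cases i <;> simp [mul_add]

noncomputable def M3 : (Sm 0).Isom := mkI (ndm 0) m3
  (by decide +kernel : ∀ x, quadFormMinus 0 (ZMod 2) 1 1 (m3 x) = quadFormMinus 0 (ZMod 2) 1 1 x)
noncomputable def M5 : (Sm 1).Isom := mkI (ndm 1) m5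
  (by decide +kernel : ∀ x, quadFormMinus 1 (ZMod 2) 1 1 (m5 x) = quadFormMinus 1 (ZMod 2) 1 1 x)

theorem M3_pow : M3 ^ 3 = 1 :=
  PForm.isom_ext (by decide +kernel : ∀ x, m3 (m3 (m3 x)) = x)
theorem M5_pow : M5 ^ 5 = 1 :=
  PForm.isom_ext (by decide +kernel : ∀ x, m5 (m5 (m5 (m5 (m5 x)))) = x)
theorem M3_fpf : ∀ y, M3.1 y = y → y = 0 := (by decide +kernel : ∀ y, m3 y = y → y = 0)
theorem M5_fpf : ∀ y, M5.1 y = y → y = 0 := (by decide +kernel : ∀ y, m5 y = y → y = 0)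

def y3 : Vm 0 := Sum.elim 0 ![1, 0]
def y5 : Vm 1 := Sum.elim (Sum.elim ![1] ![0]) ![0, 0]

theorem M3_cen : ∀ c : (Sm 0).Isom, c * M3 = M3 * c → c ∈ zpowers M3 :=
  cen_of (y := y3) (by decide +kernel) (fun v h _ => by
    rcases (by decide +kernel : ∀ v : Vm 0, v ≠ 0 → v = y3 ∨ v = m3 y3 ∨ v = m3 (m3 y3)) v h with
      e | e | e
    exacts [⟨0, e⟩, ⟨1, e⟩, ⟨2, e⟩]) fun f g h => PForm.isom_ext fun v => by
    have h0 : f.1 y3 = g.1 y3 := h 0
    have h1 : f.1 (m3 y3) = g.1 (m3 y3) := h 1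
    rw [(by decide +kernel : ∀ v : Vm 0, v = v (.inr 0) • y3 + v (.inr 1) • m3 y3) v]
    simp only [map_add, map_smul, h0, h1]

theorem M5_cen : ∀ c : (Sm 1).Isom, c * M5 = M5 * c → c ∈ zpowers M5 :=
  cen_of (y := y5) (by decide +kernel) (fun v h h' => by
    rcases (by decide +kernel : ∀ v : Vm 1, v ≠ 0 →
      quadFormMinus 1 (ZMod 2) 1 1 v = quadFormMinus 1 (ZMod 2) 1 1 y5 → v = y5 ∨ v = m5 y5 ∨
        v = m5 (m5 y5) ∨ v = m5 (m5 (m5 y5)) ∨ v = m5 (m5 (m5 (m5 y5)))) v h h' with e | e | e | e | e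
    exacts [⟨0, e⟩, ⟨1, e⟩, ⟨2, e⟩, ⟨3, e⟩, ⟨4, e⟩]) fun f g h => PForm.isom_ext fun v => by
    have h0 : f.1 y5 = g.1 y5 := h 0
    have h1 : f.1 (m5 y5) = g.1 (m5 y5) := h 1
    have h2 : f.1 (m5 (m5 y5)) = g.1 (m5 (m5 y5)) := h 2
    have h3 : f.1 (m5 (m5 (m5 y5))) = g.1 (m5 (m5 (m5 y5))) := h 3
    rw [(by decide +kernel : ∀ v : Vm 1, v = (v (.inl (.inl 0)) + v (.inr 0) + v (.inr 1)) • y5 +
      (v (.inl (.inr 0)) + v (.inr 0) + v (.inr 1)) • m5 y5 + v (.inr 0) • m5 (m5 y5) +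
      v (.inr 1) • m5 (m5 (m5 y5))) v]
    simp only [map_add, map_smul, h0, h1, h2, h3]

def e3 : Vm 2 := Sum.elim (Sum.elim ![1, 0] ![0, 0]) ![0, 0]

theorem exists_dat : ∃ π σ φ3 φ5 a b, Dat π σ (S1 := Sm 2) i31 i32 φ3 M3 a ∧ Dat π σ (S1 := Sm 1) i51 i52 φ5 M5 b ∧
    orderOf a = 3 ∧ orderOf b = 5 ∧ a * b = b * a ∧ i31 e3 = π ε1 ∧ i51 y5 = π ε1 := by
  obtain ⟨π, σ, h, he⟩ := exists_fr (e := i51 y5) (by decide +kernel)
    (by decide +kernel : quadFormPlus 4 (ZMod 2) (i51 y5) = 0)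
  obtain ⟨φ3, a1, a2, -⟩ := os3.exists_hom (ndm 2) (ndm 0)
  obtain ⟨φ5, b1, b2, -⟩ := os5.exists_hom (ndm 1) (ndm 1)
  have t3 : φ3 (1, M3) ^ 3 = 1 := by rw [← map_pow, Prod.pow_mk, M3_pow, one_pow]; exact map_one _
  have t5 : φ5 (1, M5) ^ 5 = 1 := by rw [← map_pow, Prod.pow_mk, M5_pow, one_pow]; exact map_one _
  have f3 : ∀ y, (φ3 (1, M3)).1 (i52 y) = i52 y := fun y => by
    have := a1 (1, M3) (Sum.elim (Sum.elim ![0, y (.inl (.inl 0))] ![0, y (.inl (.inr 0))])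
      ![y (.inr 0), y (.inr 1)]) 0
    simp only [map_zero, add_zero] at this
    exact this
  have f5 : ∀ x y, (φ5 (1, M5)).1 (i51 x + i52 y) = i51 x + i52 (M5.1 y) := b1 _
  have hc : Commute (φ3 (1, M3)) (φ5 (1, M5)) := PForm.isom_ext fun v => by
    obtain ⟨x, y, rfl⟩ := os5.span v
    obtain ⟨x', y', e⟩ := os5.span ((φ3 (1, M3)).1 (i51 x))
    have h0 : y' = 0 := (ndm 1) y' fun u => by
      have := PForm.isom_h (φ3 (1, M3)) (i51 x) (i52 u)
      rwa [f3, e, map_add, LinearMap.add_apply, os5.orth, os5.orth, zero_add, os5.isom2.h_eq] at this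
    rw [h0, map_zero, add_zero] at e
    rw [PForm.isom_mul_apply, PForm.isom_mul_apply, f5, map_add, map_add, f3, f3, e, f5]
  obtain ⟨c, c1, c2⟩ := h.lift (t := φ3 (1, M3) * φ5 (1, M5)) (n := 15) (by decide) (by
    rw [hc.mul_pow, show 15 = 3 * 5 from rfl, pow_mul, t3, mul_comm 3, pow_mul, t5]; simp)
  have s3 : σ (c ^ 10) = φ3 (1, M3) := by
    rw [map_pow, c1, hc.mul_pow, show 10 = 5 * 2 from rfl, pow_mul (φ5 _), t5, one_pow, mul_one]
    exact H19.pow_eq_self_of_modEq_one t3 (by decide)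
  have s5 : σ (c ^ 6) = φ5 (1, M5) := by
    rw [map_pow, c1, hc.mul_pow, show 6 = 3 * 2 from rfl, pow_mul (φ3 _), t3, one_pow, one_mul]
    exact H19.pow_eq_self_of_modEq_one t5 (by decide)
  haveI := Fact.mk Nat.prime_three
  haveI := Fact.mk Nat.prime_five
  have o3 : orderOf (c ^ 10).1 = 3 := by
    rw [orderOf_coe]
    refine orderOf_eq_prime (by rw [← pow_mul, show 10 * 3 = 15 * 2 from rfl, pow_mul, c2, one_pow])
      fun e => ?_
    have := a1 (1, M3) 0 y3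
    rw [← s3, e, map_one] at this
    exact absurd (M3_fpf _ (os3.isom2.injective (ndm 0) (add_left_cancel this)).symm) (by decide +kernel)
  have o5 : orderOf (c ^ 6).1 = 5 := by
    rw [orderOf_coe]
    refine orderOf_eq_prime (by rw [← pow_mul, show 6 * 5 = 15 * 2 from rfl, pow_mul, c2, one_pow])
      fun e => ?_
    have := b1 (1, M5) 0 y5
    rw [← s5, e, map_one] at this
    exact absurd (M5_fpf _ (os5.isom2.injective (ndm 1) (add_left_cancel this)).symm) (by decide +kernel)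
  exact ⟨π, σ, φ3, φ5, (c ^ 10).1, (c ^ 6).1, ⟨h, os3, ndm 2, ndm 0, a1, a2, by rw [o3]; decide, _, s3, M3_fpf, M3_cen⟩,
    ⟨h, os5, ndm 1, ndm 1, b1, b2, by rw [o5]; decide, _, s5, M5_fpf, M5_cen⟩, o3, o5,
    congrArg Subtype.val (Commute.pow_pow_self c 10 6).eq,
    (by decide +kernel : i31 e3 = i51 y5).trans he.symm, he.symm⟩

theorem card_m (m : ℕ) (h : m ≠ 0) : 2 * Nat.card (commutator (Sm m).Isom) =
    2 * 2 ^ ((m + 1) * m) * (2 ^ (m + 1) + 1) * ∏ i ∈ Finset.range m, (2 ^ (2 * (i + 1)) - 1) := by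
  have h1 := (ndm m).orth_card_minus (finrank_minus_fun m) (sMinus_not_hasTS m aniso_two)
  rw [← (commutator _).index_mul_card, (ndm m).orth_index_commutator_even rfl (no4m m h)] at h1
  simpa using h1

theorem card_m1 : Nat.card (commutator (Sm 1).Isom) = 60 := by
  have := card_m 1 (by norm_num)
  simp [Finset.prod_range_succ] at this
  omega

theorem card_m2 : Nat.card (commutator (Sm 2).Isom) = 25920 := by
  have := card_m 2 (by norm_num)
  simp [Finset.prod_range_succ] at this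
  omega

theorem move5 {π : Co0 → V8} {σ : C1(ε) →* S8.Isom} (h : Fr π σ) {b g : Co0} (H : Cy g) (hb : b ∈ D0)
    (ho : orderOf b = 5) : ∃ g, Cy g ∧ g * b * g⁻¹ ∈ zpowers b := by
  obtain ⟨d, hd, e⟩ := H6.J.exists_conj_zpowers Nat.prime_five h.card_D ho hb
    (by rw [conj_pow, ← ho, pow_orderOf_eq_one]; simp) (H.conj hb)
  exact ⟨d * g, H.mul hd, by rwa [show d * g * b * (d * g)⁻¹ = d * (g * b * g⁻¹) * d⁻¹ by group]⟩

theorem exists5 : ∃ π σ φ b, Dat π σ (S1 := Sm 1) i51 i52 φ M5 b ∧ orderOf b = 5 ∧ i51 y5 = π ε1 ∧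
    ∃ g ∈ CA b, Cy g := by
  obtain ⟨π, σ, φ3, φ5, a, b, -, D, -, o5, -, -, he⟩ := exists_dat
  obtain ⟨g, H⟩ := exists_cy
  obtain ⟨g, H, e⟩ := move5 D.fr H (D.mem_D he) o5
  exact ⟨π, σ, φ5, b, D, o5, he, H.cent (Or.inr rfl) o5 e⟩

theorem exists3 : ∃ π σ φ a, Dat π σ (S1 := Sm 2) i31 i32 φ M3 a ∧ orderOf a = 3 ∧ i31 e3 = π ε1 ∧
    ∃ g ∈ CA a, Cy g := by
  obtain ⟨π, σ, φ3, φ5, a, b, D, D', o3, o5, hc, he, he'⟩ := exists_dat
  obtain ⟨g, H⟩ := exists_cy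
  obtain ⟨g, H, e⟩ := move5 D.fr H (D'.mem_D he') o5
  obtain ⟨g', h1, H'⟩ : ∃ g' ∈ CA b, Cy g' := H.cent (Or.inr rfl) o5 e
  have ha := D.mem_D he
  obtain ⟨d, hd, e⟩ := H6.J.exists_conj_zpowers Nat.prime_three
    (D'.not_nine (no4m 1 (by norm_num)) o5 card_m1) o3 ⟨ha, mem_C1.2 hc⟩ (b := g' * a * g'⁻¹)
    (by rw [conj_pow, ← o3, pow_orderOf_eq_one]; simp) ⟨H'.conj ha, mem_C1.2 (mem_CA.1
      (mul_mem (mul_mem h1 (mem_CA.2 hc)) (inv_mem h1)))⟩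
  exact ⟨π, σ, φ3, a, D, o3, he, (H'.mul hd.1).cent (Or.inl rfl) o3
    (by rwa [show d * g' * a * (d * g')⁻¹ = d * (g' * a * g'⁻¹) * d⁻¹ by group])⟩

end Cz
end H28
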