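import Cfsg.Agent.H14.Mons3
import Cfsg.Agent.H14.LeeQ
import Cfsg.Agent.H14.M24Use

/-! The octad sign change `ε` in `Co0`: traces, conjugates, and the pointwise fixer `K` of its
`-1` eigenlattice (extraspecial of order `2^9`). -/

set_option autoImplicit false

namespace H28
namespace Cz
open Cfsg MulAction Finset H14 H18
open scoped Pointwise commutatorElement

theorem oG : o0 ∈ GC := o0_mem.1
theorem ocG : o0ᶜ ∈ GC := compl_mem_GC oG

/-- the octad sign change -/
noncomputable def ε : Co0 := sgn o0 oG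

theorem sgn_congr {c d : Finset GolayPt} (hc : c ∈ GC) (hd : d ∈ GC) (e : c = d) :
    sgn c hc = sgn d hd := by subst e; rfl

theorem sgn_inj {c d : Finset GolayPt} {hc : c ∈ GC} {hd : d ∈ GC} (e : sgn c hc = sgn d hd) :
    c = d := (mon_inj (σ := 1) (τ := 1) (hc := hc) (hd := hd) (by rw [e])).2

theorem ε_neg : ε * negOne = sgn o0ᶜ ocG := by
  unfold ε negOne
  rw [← sgn_symmDiff]
  exact sgn_congr _ _ (by ext p; simp [mem_symmDiff])

theorem negOne_comm (g : Co0) : negOne * g = g * negOne :=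
  Subtype.ext (Equiv.ext fun x => by
    show (negOne * g) • x = (g * negOne) • x
    rw [mul_smul, mul_smul, negOne_smul, negOne_smul, smul_neg])

theorem negOne_sq : negOne * negOne = 1 := sgn_mul_self _

theorem ε_sq : ε * ε = 1 := sgn_mul_self _

/-- the trace -/
noncomputable def tr (g : Co0) : ℚ := (matC (R := ℚ) (c := 1 / 8) (by norm_num) g).trace

theorem tr_conj (g h : Co0) : tr (g * h * g⁻¹) = tr h := by
  unfold tr
  rw [map_mul, map_mul, Matrix.trace_mul_comm, ← mul_assoc, ← map_mul, inv_mul_cancel, map_one,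
    one_mul]

theorem tr_mon (σ : M24) {c : Finset GolayPt} (hc : c ∈ GC) :
    tr (sgn c hc * permH σ) = ∑ p, if σ • p = p then (if p ∈ c then -1 else 1) else 0 := by
  unfold tr Matrix.trace
  refine sum_congr rfl fun p _ => ?_
  show (1 / 8 : ℚ) * ((((sgn c hc * permH σ) • fr p : Λ).1 p : ℤ) : ℚ) = _
  rw [mon_fr]
  by_cases e : σ • p = p
  · rw [e]; split_ifs <;> simp_all [fr_apply]
  · have e' : p ≠ σ • p := fun h => e h.symm
    split_ifs <;> simp_all [fr_apply]

theorem tr_sgn {c : Finset GolayPt} (hc : c ∈ GC) : tr (sgn c hc) = 24 - 2 * c.card := by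
  have := tr_mon 1 hc
  rw [map_one, mul_one] at this
  rw [this]
  have h : ∀ p, (if (1 : M24) • p = p then (if p ∈ c then -1 else 1) else 0 : ℚ) =
      1 - 2 * (if p ∈ c then 1 else 0) := fun p => by
    rw [if_pos (one_smul _ _)]; split_ifs <;> norm_num
  simp only [h, sum_sub_distrib, ← mul_sum, sum_boole, sum_const, card_univ, card_golayPt]
  simp

theorem tr_ε : tr ε = 8 := by rw [ε, tr_sgn, o0_mem.2]; norm_num

theorem tr_negε : tr (ε * negOne) = -8 := by
  rw [ε_neg, tr_sgn, card_compl, o0_mem.2, card_golayPt]; norm_num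

theorem conj_sgn {g : Co0} {p : GolayPt} (h : (g * ε * g⁻¹) • fr p = -fr p) :
    ∃ c, ∃ hc : c ∈ octads, g * ε * g⁻¹ = sgn c hc.1 := by
  obtain ⟨σ, c, hc, e⟩ := (mem_Mon_iff_E2 p).2 (h ▸ E2.neg (fr p) : E2 ((g * ε * g⁻¹) • fr p) (fr p))
  have ht : tr (sgn c hc * permH σ) = 8 := by rw [← e, tr_conj, tr_ε]
  rw [e, mon_fr] at h
  have hp : σ • p = p ∧ p ∈ c := by
    split_ifs at h with h1
    · have := fr_inj (neg_injective h); exact ⟨this, this ▸ h1⟩
    · exact absurd h (fr_ne_neg _ _)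
  have h2 : σ * σ = 1 := by
    have : sgn c hc * permH σ * (sgn c hc * permH σ) = sgn ∅ empty_mem_GC * permH 1 := by
      rw [← e, sgn_empty, map_one, one_mul,
        show g * ε * g⁻¹ * (g * ε * g⁻¹) = g * (ε * ε) * g⁻¹ by group, ε_sq]; group
    rw [sgn_mul_mon] at this
    exact (mon_inj this).1
  have h1 : σ = 1 := by
    refine eq_one_of_nfix h2 ?_
    by_contra hn
    rw [tr_mon] at ht
    have h3 : ∑ q, (if σ • q = q then (if q ∈ c then -1 else 1) else 0 : ℚ) ≤
        ∑ q, ((if σ • q = q then 1 else 0) - 2 * if q = p then 1 else 0) := by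
      refine sum_le_sum fun q _ => ?_
      by_cases e1 : q = p
      · subst e1; simp [hp.1, hp.2]; norm_num
      · split_ifs <;> norm_num
    have h4 : nfix GolayPt σ = (univ.filter fun q : GolayPt => σ • q = q).card := by
      rw [nfix, ← Set.ncard_coe_finset]; congr 1; ext q; simp
    rw [ht, sum_sub_distrib, sum_boole, ← h4, ← mul_sum] at h3
    simp only [sum_ite_eq', mem_univ, if_true] at h3
    have : (nfix GolayPt σ : ℚ) ≤ 8 := by exact_mod_cast not_lt.1 hn
    linarith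
  subst h1
  rw [map_one, mul_one] at e ht
  rw [tr_sgn] at ht
  exact ⟨c, ⟨hc, by exact_mod_cast (show (c.card : ℚ) = 8 by linarith)⟩, e⟩

theorem mon_conj (σ : M24) {c d : Finset GolayPt} (hc : c ∈ GC) (hd : d ∈ GC) :
    sgn c hc * permH σ * sgn d hd * (sgn c hc * permH σ)⁻¹ = sgn (σ • d) (smul_mem_GC σ hd) := by
  have := Sg_comm (sgn_mem_Sg hc) (sgn_mem_Sg (smul_mem_GC σ hd))
  rw [show sgn c hc * permH σ * sgn d hd * (sgn c hc * permH σ)⁻¹ =
    sgn c hc * (permH σ * sgn d hd * (permH σ)⁻¹) * (sgn c hc)⁻¹ by group, ← sgn_smul, this]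
  group

theorem mon_comm_iff (σ : M24) {c d : Finset GolayPt} (hc : c ∈ GC) (hd : d ∈ GC) :
    sgn c hc * permH σ * sgn d hd = sgn d hd * (sgn c hc * permH σ) ↔ σ • d = d := by
  rw [← mul_inv_eq_iff_eq_mul, mon_conj]
  exact ⟨sgn_inj, sgn_congr _ _⟩

/-! ### The pointwise fixer -/

/-- the fixer of the frame vectors on the octad -/
def K : Subgroup Co0 where
  carrier := {g | ∀ p ∈ o0, g • fr p = fr p}
  one_mem' _ _ := one_smul _ _
  mul_mem' hg hh p hp := by rw [mul_smul, hh p hp, hg p hp]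
  inv_mem' hg p hp := by rw [inv_smul_eq_iff, hg p hp]

theorem none_mem : (none : GolayPt) ∈ o0 := by decide +kernel

theorem mon_mem_K {σ : M24} {c : Finset GolayPt} {hc : c ∈ GC} :
    sgn c hc * permH σ ∈ K ↔ (∀ p ∈ o0, σ • p = p) ∧ Disjoint c o0 := by
  constructor
  · intro h
    have : ∀ p ∈ o0, σ • p = p ∧ p ∉ c := fun p hp => by
      have h1 := h p hp
      rw [mon_fr] at h1
      split_ifs at h1 with h2
      · exact absurd h1.symm (fr_ne_neg _ _)
      · have := fr_inj h1; exact ⟨this, this ▸ h2⟩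
    exact ⟨fun p hp => (this p hp).1, disjoint_right.2 fun p hp => (this p hp).2⟩
  · rintro ⟨h1, h2⟩ p hp
    rw [mon_fr, h1 p hp, if_neg (disjoint_right.1 h2 hp)]

theorem K_le_Mon : K ≤ Mon := fun _ h => stab_fr_le none (h none none_mem)

theorem mem_K {g : Co0} (h : g ∈ K) : ∃ (σ : M24) (c : Finset GolayPt) (hc : c ∈ GC),
    g = sgn c hc * permH σ ∧ (∀ p ∈ o0, σ • p = p) ∧ Disjoint c o0 := by
  obtain ⟨σ, c, hc, e⟩ := K_le_Mon h
  exact ⟨σ, c, hc, e, mon_mem_K.1 (e ▸ h)⟩

theorem sgn_mem_K {c : Finset GolayPt} (hc : c ∈ GC) (h : Disjoint c o0) : sgn c hc ∈ K := by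
  have := (mon_mem_K (σ := 1) (hc := hc)).2 ⟨fun _ _ => one_smul _ _, h⟩
  rwa [map_one, mul_one] at this

theorem perm_mem_K {σ : M24} (h : ∀ p ∈ o0, σ • p = p) : permH σ ∈ K := by
  have := (mon_mem_K (σ := σ) (hc := empty_mem_GC)).2 ⟨h, disjoint_empty_left _⟩
  rwa [sgn_empty, one_mul] at this

theorem negOne_not_mem : negOne ∉ K := fun h => by
  have := h none none_mem
  rw [negOne_smul] at this
  exact fr_ne_neg _ _ this.symm

theorem K_le_C : K ≤ C1(ε) := fun g h => by
  obtain ⟨σ, c, hc, rfl, h1, -⟩ := mem_K h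
  exact Subgroup.mem_centralizer_singleton_iff.2 ((mon_comm_iff σ hc oG).2 (smul_eq_of_pw h1))

theorem disj_bset (m : ℕ) : Disjoint (bset m) o0 ↔ Nat.beq (p24 (Nat.land m 0x82402f)) 0 = true := by
  rw [disjoint_iff_inter_eq_empty, o0, ← bset_and, ← card_eq_zero, card_bset_eq_iff]; rfl

theorem card_K : Nat.card K = 512 := by
  let f : {c | c ∈ GC ∧ Disjoint c o0} × {σ : M24 | ∀ p ∈ o0, σ • p = p} → K :=
    fun x => ⟨sgn x.1.1 x.1.2.1 * permH x.2.1, mon_mem_K.2 ⟨x.2.2, x.1.2.2⟩⟩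
  have hf : Function.Bijective f := by
    constructor
    · intro x y e
      have := mon_inj (congrArg Subtype.val e)
      exact Prod.ext (Subtype.ext this.2) (Subtype.ext this.1)
    · rintro ⟨g, hg⟩
      obtain ⟨σ, c, hc, rfl, h1, h2⟩ := mem_K hg
      exact ⟨(⟨c, hc, h2⟩, ⟨σ, h1⟩), rfl⟩
  rw [← Nat.card_eq_of_bijective f hf, Nat.card_prod, Nat.card_coe_set_eq, Nat.card_coe_set_eq,
    ncard_pw_octad o0_mem, ncard_CW (f := fun m => Nat.beq (p24 (Nat.land m 0x82402f)) 0)
      fun m _ => disj_bset m]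
  decide +kernel

theorem oc_eq : o0ᶜ = bset 0x7dbfd0 := by rw [o0, ← bset_compl]; rfl

theorem mem_T {σ : M24} (h : ∀ p ∈ o0, σ • p = p) : σ ∈ sub M0.gen wK0 := by
  rw [K0_eq, fOc0]; exact (mem_fixingSubgroup_iff _).2 h

theorem T_pw {w : Word} (hw : w ∈ wK0) : ∀ p ∈ o0, ev M0.gen w • p = p := by
  have := ev_mem_sub (gen := M0.gen) hw
  rw [K0_eq, fOc0] at this
  exact (mem_fixingSubgroup_iff _).1 this

/-- translations fix or complement the hyperplanes -/
def TX : Subgroup M24 where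
  carrier := {σ | σ • o0 = o0 ∧ ∀ c ∈ GC, Disjoint c o0 → σ • c = c ∨ σ • c = symmDiff c o0ᶜ}
  one_mem' := ⟨one_smul _ _, fun _ _ _ => Or.inl (one_smul _ _)⟩
  mul_mem' := by
    rintro σ τ ⟨h1, h2⟩ ⟨h3, h4⟩
    refine ⟨by rw [mul_smul, h3, h1], fun c hc hd => ?_⟩
    rw [mul_smul]
    rcases h4 c hc hd with e | e <;> rw [e]
    · exact h2 c hc hd
    · rw [smul_symmDiff, smul_compl_finset, h1]
      rcases h2 c hc hd with e' | e' <;> rw [e']
      · exact Or.inr rfl
      · exact Or.inl (symmDiff_symmDiff_cancel_right _ _)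
  inv_mem' := by
    rintro σ ⟨h1, h2⟩
    refine ⟨inv_smul_eq_iff.2 h1.symm, fun c hc hd => ?_⟩
    rcases h2 c hc hd with e | e
    · exact Or.inl (inv_smul_eq_iff.2 e.symm)
    · refine Or.inr (inv_smul_eq_iff.2 ?_)
      rw [smul_symmDiff, smul_compl_finset, h1, e, symmDiff_symmDiff_cancel_right]

theorem T_code {σ : M24} (h : ∀ p ∈ o0, σ • p = p) {c : Finset GolayPt} (hc : c ∈ GC)
    (hd : Disjoint c o0) : σ • c = c ∨ σ • c = symmDiff c o0ᶜ := by
  have : sub M0.gen wK0 ≤ TX := by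
    refine (sub_le _).2 fun w hw => ⟨smul_eq_of_pw (T_pw hw), fun c hc hd => ?_⟩
    obtain ⟨m, hm, rfl⟩ := mem_GC.1 hc
    have h1 := forall_CW (f := fun m => !Nat.beq (p24 (Nat.land m 0x82402f)) 0 || wK0.all fun w =>
      Nat.beq (runW (letN M24c.nets) w m) m ||
        Nat.beq (runW (letN M24c.nets) w m) (Nat.xor m 0x7dbfd0)) (by decide +kernel) hm
    rw [(disj_bset m).1 hd] at h1
    have h2 := List.all_eq_true.1 h1 w hw
    rw [Bool.or_eq_true, Nat.beq_eq, Nat.beq_eq] at h2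
    rw [show ev M0.gen w • bset m = _ from ev_smul_bset M24c_ok w m, oc_eq, ← bset_xor]
    exact h2.imp (fun e => by rw [e]) fun e => by rw [e]; rfl
  exact (this (mem_T h)).2 c hc hd

theorem T_inv {c : Finset GolayPt} (hc : c ∈ GC)
    (h : ∀ σ : M24, (∀ p ∈ o0, σ • p = p) → σ • c = c) :
    c = ∅ ∨ c = o0 ∨ c = o0ᶜ ∨ c = univ := by
  obtain ⟨m, hm, rfl⟩ := mem_GC.1 hc
  have h1 := forall_CW (f := fun m => !(wK0.all fun w => Nat.beq (Nat.land 0xffffff
      (runW (letN M24c.nets) w m)) m) ||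
      (Nat.beq m 0 || (Nat.beq m 0x82402f || (Nat.beq m 0x7dbfd0 || Nat.beq m 0xffffff))))
      (by decide +kernel) hm
  have h2 : (wK0.all fun w => Nat.beq (Nat.land 0xffffff (runW (letN M24c.nets) w m)) m) = true := by
    refine List.all_eq_true.2 fun w hw => ?_
    have := h _ (T_pw hw)
    rw [show ev M0.gen w • bset m = _ from ev_smul_bset M24c_ok w m] at this
    rw [Nat.beq_eq]
    refine bset_inj (lt_of_le_of_lt Nat.and_le_left (by norm_num)) hm.lt ?_
    rw [show Nat.land 0xffffff (runW (letN M24c.nets) w m) =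
      full 24 &&& runW (letN M24c.nets) w m from rfl, bset_and, bset_full, univ_inter, this]
  rw [h2] at h1
  simp only [Bool.not_true, Bool.false_or, Bool.or_eq_true, Nat.beq_eq] at h1
  rcases h1 with rfl | rfl | rfl | rfl
  · exact Or.inl bset_zero
  · exact Or.inr (Or.inl rfl)
  · exact Or.inr (Or.inr (Or.inl oc_eq.symm))
  · exact Or.inr (Or.inr (Or.inr bset_full))

theorem sq_K {g : Co0} (h : g ∈ K) : g * g = 1 ∨ g * g = ε * negOne := by
  obtain ⟨σ, c, hc, rfl, h1, h2⟩ := mem_K h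
  rw [sgn_mul_mon, sq_of_pw o0_mem h1, map_one, mul_one, ε_neg, ← sgn_empty]
  rcases T_code h1 hc h2 with e | e
  · exact Or.inl (sgn_congr _ _ (by rw [e, symmDiff_self]; rfl))
  · exact Or.inr (sgn_congr _ _ (by rw [e, symmDiff_symmDiff_cancel_left]))

theorem sep {q r : GolayPt} (hq : q ∉ o0) (hr : r ≠ q) :
    ∃ d ∈ GC, Disjoint d o0 ∧ q ∈ d ∧ r ∉ d := by
  have : ∀ q r : GolayPt, q ∉ o0 → r ≠ q → ∃ m ∈ [0x6c0710, 0x710d80, 0x1d0a90, 0x3886c0, 0x5481d0,
      0x498b40, 0x258c50, 0x182d50, 0x742a40, 0x6920d0, 0x527c0, 0x20ab90, 0x4cac80, 0x51a610,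
      0x3da100, 0x401ed0, 0x2c19c0, 0x311350, 0x5d1440, 0x789810, 0x149f00, 0x99590, 0x659280,
      0x583380, 0x343490, 0x293e00, 0x453910, 0x60b540, 0xcb250, 0x11b8c0],
      (cw m && Nat.beq (p24 (Nat.land m 0x82402f)) 0 && tb m (gi q) && !tb m (gi r)) = true := by
    decide +kernel
  obtain ⟨m, -, h⟩ := this q r hq hr
  simp only [Bool.and_eq_true, tb_eq, Bool.not_eq_true'] at h
  exact ⟨bset m, bset_mem_GC h.1.1.1, (disj_bset m).2 h.1.1.2, mem_bset.2 h.1.2,
    fun e => by rw [mem_bset, h.2] at e; exact absurd e (by simp)⟩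

theorem cen_K {g : Co0} (h : ∀ k ∈ K, g * k = k * g) :
    g = 1 ∨ g = ε ∨ g = ε * negOne ∨ g = negOne := by
  have h1 : ∀ q, q ∉ o0 → g • fr q = fr q ∨ g • fr q = -fr q := by
    intro q hq
    have h2 : ∀ r, r ≠ q → (g • fr q : Λ).1 r = 0 := by
      intro r hr
      obtain ⟨d, hd, hd1, hd2, hd3⟩ := sep hq hr
      have h3 : sgn d hd • fr q = -fr q := by
        have := mon_fr 1 hd q
        rwa [map_one, mul_one, one_smul, if_pos hd2] at this
      have h4 : sgn d hd • g • fr q = -(g • fr q) := by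
        rw [← mul_smul, ← h _ (sgn_mem_K hd hd1), mul_smul, h3, smul_neg]
      have h5 := congrFun (congrArg Subtype.val h4) r
      rw [sgn_apply, if_neg hd3] at h5
      simp only [AddSubgroup.coe_neg, Pi.neg_apply] at h5
      omega
    have h6 : (g • fr q : Λ).1 q ^ 2 = 8 ^ 2 := by
      have := (sqNorm_smul g (fr q)).trans (norm_fr q)
      rw [sqNorm_erase _ q, sum_eq_zero fun r hr => by rw [h2 r (mem_erase.1 hr).1]; rfl] at this
      omega
    refine (pm_of_sq 8 h6).imp (fun e => Subtype.ext (funext fun r => ?_))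
      fun e => Subtype.ext (funext fun r => ?_)
    · rw [fr_apply]; split_ifs with e1
      · rw [e1, e]
      · exact h2 r e1
    · simp only [AddSubgroup.coe_neg, Pi.neg_apply, fr_apply]; split_ifs with e1
      · rw [e1, e]
      · exact h2 r e1
  have q0 : (some 4 : GolayPt) ∉ o0 := by decide +kernel
  obtain ⟨σ, c, hc, rfl⟩ := (mem_Mon_iff_E2 (some 4)).2 (E2_fr_of (h1 _ q0))
  have h2 : ∀ q, q ∉ o0 → σ • q = q := by
    intro q hq
    have := h1 q hq
    rw [mon_fr] at this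
    split_ifs at this <;> rcases this with e | e
    · exact absurd e.symm (fr_ne_neg _ _)
    · exact fr_inj (neg_injective e)
    · exact fr_inj e
    · exact absurd e (fr_ne_neg _ _)
  have h3 : σ = 1 := by
    have ho : bset 0x6c0710 ∈ octads := bset_mem_octads (by decide +kernel)
    refine eq_one_of_pw ho (fun x hx => h2 x (disjoint_left.1 ((disj_bset _).2 (by decide +kernel)) hx))
      (p := some 6) (by decide +kernel) (h2 _ (by decide +kernel))
  subst h3
  rw [map_one, mul_one] at h ⊢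
  have h4 := T_inv hc fun τ hτ => by
    have := (h _ (perm_mem_K hτ)).symm
    rw [← mul_inv_eq_iff_eq_mul, ← sgn_smul] at this
    exact sgn_inj this
  rcases h4 with rfl | rfl | rfl | rfl
  · exact Or.inl sgn_empty
  · exact Or.inr (Or.inl rfl)
  · exact Or.inr (Or.inr (Or.inl ε_neg.symm))
  · exact Or.inr (Or.inr (Or.inr rfl))

theorem card_CM : Nat.card (Mon.subgroupOf C1(ε)) = 4096 * 322560 := by
  have h1 : C1(ε).subgroupOf Mon = (stabilizer M24 o0).comap monH := by
    ext g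
    obtain ⟨c, hc, e⟩ := monH_spec g
    rw [Subgroup.mem_subgroupOf, Subgroup.mem_centralizer_singleton_iff, e, Subgroup.mem_comap,
      mem_stabilizer_iff]
    exact mon_comm_iff _ hc oG
  have h2 : (C1(ε).subgroupOf Mon).index = 759 := by
    rw [h1, Subgroup.index_comap_of_surjective _ monH_surj]
    have := (stabilizer M24 o0).card_mul_index
    rw [card_HOc o0_mem, card_M24] at this
    omega
  have h3 := (C1(ε).subgroupOf Mon).card_mul_index
  rw [h2, card_Mon] at h3
  have h4 : ∀ H J : Subgroup Co0, Nat.card (H.subgroupOf J) = Nat.card (H ⊓ J : Subgroup Co0) :=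
    fun H J => by
      rw [← Subgroup.inf_subgroupOf_right]
      exact Nat.card_congr (Subgroup.subgroupOfEquivOfLe inf_le_right).toEquiv
  rw [h4, inf_comm, ← h4]
  exact Nat.eq_of_mul_eq_mul_right (by norm_num : 0 < 759) (h3.trans (by norm_num))

end Cz
end H28
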