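import Cfsg.Agent.H28.Fis
import Cfsg.Prelude.Def_CaseTheorems

/-! Groups of type M(22) and M(23): number of transpositions, centralizers of transpositions. -/

namespace H28
open Cfsg H15 Subgroup

variable {G : Type*} [Group G] {D : Set G}

open Spor.Fi22 in
theorem cent22 : centralizer {(PresentedGroup.of .a : Spor.Fi22)} = Fi22.H := by
  refine centralizer_eq_of_max ?_ (fun Y h1 h2 => ?_) ?_
  · rw [Fi22.H, map_closure_eq_sub Fi22.M_gen, H14.sub_le]
    intro w hw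
    have := Fi22.M.rels_of_idArr (D := 12) (l := ([a, c, d, e, f, g, h, i, (a * b * c * d * e * h) ^ 5].map
      (w14 Fi22.ix)).map fun w => ([0] ++ w, w ++ [0])) (by decide) (by decide +kernel) _ (List.mem_map_of_mem hw)
    simp only [H14.ev_append] at this
    rw [mem_centralizer_singleton_iff, show PresentedGroup.of Gen.a = _ from (Fi22.M_gen .a).symm,
      ← H14.ev_single Fi22.M.gen]
    exact this
  · rw [Fi22.stab, ← Fi22.stab1, ← Fi22.top] at *
    exact Fi22P.max Fi22.M Fi22.hc Y h1 h2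
  · rw [Fi23.center22, mem_bot]
    intro h
    have := closure_D22
    rw [D22, h] at this
    simp only [isConj_one_right, Set.ofPred_eq_eq_singleton, closure_singleton_one] at this
    have := Fi22.simple
    exact bot_ne_top ‹_›

theorem ncard22 [Finite G] (hD : IsThreeTranspositionGroup D) (ht : IsOfTypeM22 G D) : D.ncard = 3510 := by
  obtain ⟨e, he⟩ := typeM22 hD ht
  rw [ncard_of_equiv e he, cent22, Fi22.stab, Fi22.index_stab0]

theorem ncard23 [Finite G] (hD : IsThreeTranspositionGroup D) (ht : IsOfTypeM23 G D) : D.ncard = 31671 := by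
  obtain ⟨e, he⟩ := typeM23 hD ht
  rw [ncard_of_equiv e (a := Fi23.z) fun x => (he x).trans
    ⟨fun h => (IsConj.symm z_D23).trans h, fun h => IsConj.trans z_D23 h⟩, Fi23.cent, Fi23.stab, Fi23.index_stab0]

theorem cent_m22 [Finite G] (hD : IsThreeTranspositionGroup D) (ht : IsOfTypeM22 G D) {d : G} (hd : d ∈ D) :
    d ∈ closure (nb D d) ∧ IsQuasisimple (closure (nb D d)) ∧ closure (nb D d) = centralizer {d} ∧
      center (closure (nb D d)) = (zpowers d).subgroupOf (closure (nb D d)) := by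
  have Q := q22_of hD ht
  have cls : ∀ a ∈ D, ∀ b ∈ D, IsConj a b := fun a ha b hb => (Q.cls a ha b hb).elim fun g h => isConj_iff.2 ⟨g, h.2⟩
  obtain ⟨e, -⟩ := typeM22 hD ht
  have n := ncard22 hD ht
  obtain ⟨hZ, -, -, -, -, -, ⟨F, _, _, hF, -⟩, -⟩ := ht
  obtain ⟨b, hb, hn⟩ := Q.par d hd
  obtain ⟨τ, Fr⟩ := Q.exists_fr hd hb hn
  obtain ⟨z1, -, z3, -⟩ := Fr.zrel hD hZ Q.loc (Fr.conn hD Q.loc cls)
  have m : d ∈ closure (nb D d) :=
    (mul_mem_cancel_left (Fr.lab.ev_mem (w := lineW) (by decide +kernel))).1 (z1 ▸ one_mem _)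
  obtain ⟨q⟩ := (Q.loc d hd).quot hF
  have := Agent.S0283.result (q := 2) hF 6 (by norm_num) (by norm_num)
  exact ⟨m, ⟨perfect_of_odd (fun a ha b hb => (Q.loc d hd).conj ha hb) (fun a ha => t3_sq hD.1 ha.1)
    ([15, 243, 828, 1023, 3, 12, 48].map τ) (fun a ha => by
      obtain ⟨v, hv, rfl⟩ := List.mem_map.1 ha
      exact Fr.lab.mem v (by clear ha; revert v; decide +kernel)) (by rw [List.length_map]; decide) z3, q.isSimpleGroup⟩,
    cent_eq m (hD.1.1 d hd) ((Nat.card_congr q.toEquiv).trans (card_psu6 hF))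
      ((Nat.card_congr e.toEquiv).trans Fi22.card) ((ncard_class hD.2.1 cls hd).symm.trans n)⟩

theorem cent_m23 [Finite G] (hD : IsThreeTranspositionGroup D) (ht : IsOfTypeM23 G D) {d : G} (hd : d ∈ D) :
    d ∈ closure (nb D d) ∧ IsQuasisimple (closure (nb D d)) ∧ closure (nb D d) = centralizer {d} ∧
      center (closure (nb D d)) = (zpowers d).subgroupOf (closure (nb D d)) := by
  have Q := q23_of hD ht
  have cls : ∀ a ∈ D, ∀ b ∈ D, IsConj a b := fun a ha b hb => (Q.cls a ha b hb).elim fun g h => isConj_iff.2 ⟨g, h.2⟩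
  obtain ⟨e, -⟩ := typeM23 hD ht
  obtain ⟨j, hj, hn⟩ := Q.par d hd
  obtain ⟨y, hy, h1, h2⟩ := Q.dia d hd j hj
  obtain ⟨τ, b, F⟩ := exists_fr3 Q.loc hd ⟨hy, fun e => hn (e ▸ h2.symm), h1⟩ ⟨hj, fun e => hn (e ▸ h1), h2.symm⟩ hn
  obtain ⟨⟨f, f1, -, f4⟩, f5⟩ := Q.hom _ _ _ _ _ F
  have m : d ∈ closure (nb D d) := (mul_mem_cancel_left (mul_mem (closure_mono (nb_sub y)
    (F.fr.lab.ev_mem (w := lineW) (by decide +kernel))) (subset_closure F.fr.hy))).1
    (eq_one_of_comm ht.1 hD.2.2 f5 ▸ one_mem _)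
  have z := eq_one_of_comm ht.1 hD.2.2 (f1.kerw Q.t3 (F.g_mem Q.t3) f4 (w := powL [0, 1, 2, 3, 4, 5, 8] 9)
    (by decide +kernel) (Fi23.rel _ (by decide +kernel)))
  obtain ⟨f', g1, g2⟩ := (Q.loc d hd).ex_hom
  obtain ⟨q⟩ := g1.quot (Q.t3.nb d) (g2 ▸ closure_D22) Fi23.center22
  have := Fi22.simple
  exact ⟨m, ⟨perfect_of_odd (Q.loc d hd).cls (fun a ha => t3_sq hD.1 ha.1)
    ((powL [0, 1, 2, 3, 4, 5, 8] 9).map (g23 τ y b j)) (fun a ha => by
      obtain ⟨v, hv, rfl⟩ := List.mem_map.1 ha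
      rw [g23, if_neg (by clear ha; revert v; decide +kernel)]
      exact F.fr.g_mem (Q.t3.nb d) _) (by rw [List.length_map]; decide) z, q.isSimpleGroup⟩,
    cent_eq m (hD.1.1 d hd) ((Nat.card_congr q.toEquiv).trans Fi22.card)
      ((Nat.card_congr e.toEquiv).trans Fi23.card) ((ncard_class hD.2.1 cls hd).symm.trans (ncard23 hD ht))⟩

end H28
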