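import Cfsg.Agent.H28.GE
import Cfsg.Agent.H28.QH

/-! Quartets of a dodecad. -/

namespace H28
open Cfsg H14 Finset MulAction
open scoped Pointwise

variable {d t u : Finset GolayPt} {Q : Finset (Finset GolayPt)}

def O1 : List (List ℕ) := [[0x109, 0x1202, 0x12010, 0x40044], [0x112, 0x248, 0x3001, 0x50004], [0x1c, 0x2041, 0x10202, 0x41100],
  [0x7, 0x1018, 0x2300, 0x50040], [0x52, 0x2204, 0x10009, 0x41100], [0x304, 0x1041, 0x12010, 0x4000a],
  [0x248, 0x1014, 0x10101, 0x42002], [0x7, 0x3040, 0x10108, 0x40210], [0x211, 0x200a, 0x10044, 0x41100],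
  [0x142, 0x100c, 0x12010, 0x40201], [0x248, 0x2104, 0x11002, 0x40011], [0x7, 0x150, 0x11200, 0x42008]]
def O2 : List (List ℕ) := [[0x16, 0x1300, 0x12001, 0x40048], [0x1048, 0x2012, 0x10005, 0x40300], [0xd, 0x242, 0x3100, 0x50010],
  [0x103, 0x2048, 0x10210, 0x41004], [0x250, 0x1003, 0x12008, 0x40104], [0x1140, 0x2014, 0x10003, 0x40208],
  [0x58, 0x1101, 0x12200, 0x40006], [0x1005, 0x2210, 0x10048, 0x40102], [0x4a, 0x205, 0x3010, 0x50100],
  [0x43, 0x20c, 0x11100, 0x42010], [0x15, 0x308, 0x12002, 0x41040], [0x1102, 0x2240, 0x10018, 0x40005],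
  [0x13, 0x1240, 0x12004, 0x40108], [0x4c, 0x203, 0x10110, 0x43000], [0x1006, 0x2208, 0x10050, 0x40101],
  [0x340, 0x2011, 0x10006, 0x41008], [0x49, 0x206, 0x1110, 0x52000], [0x1104, 0x2050, 0x10208, 0x40003],
  [0x105, 0x218, 0x12040, 0x41002], [0x1108, 0x2005, 0x10012, 0x40240], [0x148, 0x2003, 0x10014, 0x41200],
  [0xe, 0x241, 0x2110, 0x51000], [0x46, 0x209, 0x11010, 0x42100], [0x45, 0x20a, 0x12100, 0x41010],
  [0x106, 0x2018, 0x10240, 0x41001], [0x1208, 0x2006, 0x10011, 0x40140], [0xb, 0x244, 0x13000, 0x40110]]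
def O3 : List (List ℕ) := [[0x54, 0x103, 0x1208, 0x52000], [0x308, 0x3010, 0x10041, 0x40006], [0x10a, 0x250, 0x10005, 0x43000],
  [0x1110, 0x2003, 0x10240, 0x4000c], [0x218, 0x3100, 0x10006, 0x40041], [0x1201, 0x2048, 0x10006, 0x40110],
  [0x43, 0x3004, 0x10018, 0x40300], [0x206, 0x2050, 0x11001, 0x40108], [0x203, 0x1108, 0x12040, 0x40014],
  [0x46, 0x111, 0x12008, 0x41200], [0x16, 0x1009, 0x2240, 0x50100], [0x19, 0x1006, 0x12100, 0x40240],
  [0x49, 0x3200, 0x10012, 0x40104], [0x49, 0x2014, 0x10300, 0x41002], [0xb, 0x2210, 0x10104, 0x41040],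
  [0x20a, 0x1101, 0x10014, 0x42040], [0x244, 0x1101, 0x2012, 0x50008], [0x241, 0x3008, 0x10014, 0x40102],
  [0x58, 0x1204, 0x10003, 0x42100], [0x16, 0x141, 0x10208, 0x43000], [0x209, 0x2012, 0x10140, 0x41004],
  [0x1110, 0x2208, 0x10005, 0x40042], [0x1042, 0x2005, 0x10208, 0x40110], [0x105, 0x1240, 0x1000a, 0x42010],
  [0x218, 0x1044, 0x2003, 0x50100], [0x118, 0x242, 0x12001, 0x41004], [0x106, 0x1048, 0x2201, 0x50010],
  [0x301, 0x2006, 0x10048, 0x41010], [0x1005, 0x2042, 0x10110, 0x40208], [0x242, 0x2014, 0x11008, 0x40101],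
  [0x20a, 0x2011, 0x11040, 0x40104], [0x15, 0x100a, 0x10240, 0x42100], [0xe, 0x1140, 0x10210, 0x42001],
  [0x45, 0x1300, 0x2018, 0x50002], [0xd, 0x1012, 0x12200, 0x40140], [0x1003, 0x2110, 0x10204, 0x40048],
  [0x4c, 0x1102, 0x2011, 0x50200], [0x250, 0x2006, 0x11100, 0x40009], [0x15, 0x2048, 0x11100, 0x40202],
  [0x148, 0x212, 0x13000, 0x40005], [0x13, 0x3100, 0x10048, 0x40204], [0x205, 0x1140, 0x12008, 0x40012],
  [0x1240, 0x2009, 0x10110, 0x40006], [0x43, 0x114, 0x12200, 0x41008], [0x1a, 0x340, 0x1005, 0x52000],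
  [0x214, 0x1048, 0x12100, 0x40003], [0x20c, 0x2140, 0x10012, 0x41001], [0x244, 0x2108, 0x10011, 0x41002],
  [0x103, 0x3010, 0x1000c, 0x40240], [0x4a, 0x1104, 0x10011, 0x42200], [0x20c, 0x1050, 0x12001, 0x40102],
  [0x308, 0x1003, 0x2044, 0x50010], [0x10c, 0x2240, 0x10003, 0x41010], [0x4c, 0x1210, 0x12002, 0x40101],
  [0x340, 0x200c, 0x11010, 0x40003], [0x13, 0x144, 0x2208, 0x51000], [0x205, 0x2102, 0x10050, 0x41008],
  [0x105, 0x2202, 0x11010, 0x40048], [0x58, 0x302, 0x2005, 0x51000], [0x206, 0x2101, 0x10018, 0x41040],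
  [0xd, 0x2050, 0x10102, 0x41200], [0xe, 0x1011, 0x12040, 0x40300], [0x46, 0x1108, 0x2210, 0x50001],
  [0x51, 0x106, 0x13000, 0x40208], [0x148, 0x1006, 0x10201, 0x42010], [0x241, 0x1104, 0x12002, 0x40018],
  [0x209, 0x1102, 0x12004, 0x40050], [0x4a, 0x310, 0x12004, 0x41001], [0x45, 0x3002, 0x10210, 0x40108],
  [0x203, 0x2018, 0x11004, 0x40140], [0x1208, 0x2110, 0x10042, 0x40005], [0xb, 0x1300, 0x10050, 0x42004]]
def O4 : List (List ℕ) := [[0x141, 0x1018, 0x12004, 0x40202], [0x19, 0x304, 0x10042, 0x43000], [0x54, 0x3100, 0x10201, 0x4000a],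
  [0x250, 0x100c, 0x2101, 0x50002], [0x109, 0x1050, 0x10006, 0x42200], [0x16, 0x2108, 0x11040, 0x40201],
  [0x1204, 0x2011, 0x10108, 0x40042], [0x1202, 0x2140, 0x10005, 0x40018], [0x142, 0x218, 0x11001, 0x42004],
  [0x142, 0x2009, 0x10204, 0x41010], [0x304, 0x2003, 0x11008, 0x40050], [0x13, 0x100c, 0x10300, 0x42040],
  [0x1110, 0x2044, 0x1000a, 0x40201], [0x1a, 0x3040, 0x10204, 0x40101], [0x1050, 0x200a, 0x10300, 0x40005],
  [0x15, 0x142, 0x3200, 0x50008], [0x302, 0x1009, 0x10044, 0x42010], [0x100c, 0x2202, 0x10041, 0x40110],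
  [0x10a, 0x2041, 0x11010, 0x40204], [0x54, 0x2009, 0x11002, 0x40300], [0x144, 0x3010, 0x10202, 0x40009],
  [0x103, 0x2204, 0x11040, 0x40018], [0x141, 0x1204, 0x200a, 0x50010], [0x10c, 0x2012, 0x11200, 0x40041],
  [0x10a, 0x1201, 0x2014, 0x50040], [0x1101, 0x200c, 0x10042, 0x40210], [0x144, 0x100a, 0x12001, 0x40210],
  [0x49, 0x2102, 0x11004, 0x40210], [0x10c, 0x211, 0x1042, 0x52000], [0x1042, 0x2300, 0x10014, 0x40009],
  [0x1044, 0x2110, 0x10009, 0x40202], [0x212, 0x1041, 0x1000c, 0x42100], [0x58, 0x3002, 0x10104, 0x40201],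
  [0x1300, 0x2042, 0x1000c, 0x40011], [0x211, 0x3004, 0x10102, 0x40048], [0x51, 0x2300, 0x1000a, 0x41004],
  [0x1011, 0x2102, 0x10208, 0x40044], [0x51, 0x1202, 0x200c, 0x50100], [0x310, 0x1006, 0x2041, 0x50008],
  [0x111, 0x1048, 0x10202, 0x42004], [0x1012, 0x2101, 0x10044, 0x40208], [0x150, 0x20a, 0x3004, 0x50001],
  [0x242, 0x1011, 0x10104, 0x42008], [0x1018, 0x2042, 0x10201, 0x40104], [0x304, 0x1012, 0x2048, 0x50001],
  [0x109, 0x3004, 0x10240, 0x40012], [0x109, 0x214, 0x2042, 0x51000], [0xd, 0x310, 0x11040, 0x42002],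
  [0x19, 0x2044, 0x11200, 0x40102], [0x1c, 0x1003, 0x10140, 0x42200], [0x310, 0x3008, 0x10003, 0x40044],
  [0x211, 0x2140, 0x11008, 0x40006], [0x214, 0x1102, 0x10041, 0x42008], [0x150, 0x1009, 0x12002, 0x40204],
  [0x118, 0x1041, 0x2006, 0x50200], [0x1a, 0x2201, 0x11100, 0x40044], [0x114, 0x1202, 0x10048, 0x42001],
  [0x1009, 0x2104, 0x10210, 0x40042], [0x118, 0x205, 0x11002, 0x42040], [0x1c, 0x1240, 0x2102, 0x50001],
  [0x203, 0x1050, 0x2104, 0x50008], [0x10c, 0x3001, 0x10050, 0x40202], [0x118, 0x3200, 0x10044, 0x40003],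
  [0x150, 0x2201, 0x1000c, 0x41002], [0x301, 0x1044, 0x10012, 0x42008], [0x244, 0x1018, 0x10102, 0x42001],
  [0x141, 0x2210, 0x11002, 0x4000c], [0x302, 0x1014, 0x12008, 0x40041], [0x19, 0x1140, 0x2202, 0x50004],
  [0x10a, 0x1044, 0x12200, 0x40011], [0x144, 0x1201, 0x10018, 0x42002], [0x112, 0x200c, 0x10201, 0x41040],
  [0x100a, 0x2204, 0x10110, 0x40041], [0x43, 0x1210, 0x2108, 0x50004], [0x1005, 0x2108, 0x10202, 0x40050],
  [0x52, 0x1201, 0x12100, 0x4000c], [0x302, 0x3040, 0x10011, 0x4000c], [0x114, 0x200a, 0x11001, 0x40240],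
  [0x4a, 0x2101, 0x11200, 0x40014], [0x111, 0x20c, 0x3002, 0x50040], [0x52, 0x308, 0x11004, 0x42001],
  [0x111, 0x2240, 0x11004, 0x4000a], [0x1014, 0x2201, 0x10042, 0x40108], [0x4c, 0x2300, 0x11001, 0x40012],
  [0x340, 0x3002, 0x10009, 0x40014], [0x1041, 0x2208, 0x10102, 0x40014], [0x212, 0x2044, 0x10101, 0x41008],
  [0x212, 0x1104, 0x2009, 0x50040], [0x52, 0x105, 0x3008, 0x50200], [0x1210, 0x2005, 0x10140, 0x4000a],
  [0x206, 0x3008, 0x10140, 0x40011], [0x1a, 0x2104, 0x10041, 0x41200], [0xe, 0x3200, 0x10101, 0x40050],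
  [0x46, 0x3001, 0x10300, 0x40018], [0x106, 0x1210, 0x10009, 0x42040], [0x301, 0x100a, 0x2050, 0x50004],
  [0x112, 0x1204, 0x12040, 0x40009], [0x51, 0x1108, 0x10204, 0x42002], [0x1c, 0x301, 0x13000, 0x40042],
  [0x148, 0x1011, 0x2204, 0x50002], [0x241, 0x1012, 0x10108, 0x42004], [0x114, 0x209, 0x3040, 0x50002],
  [0x54, 0x2202, 0x10108, 0x41001], [0x45, 0x112, 0x11008, 0x42200], [0x214, 0x3001, 0x1000a, 0x40140],
  [0x1042, 0x2018, 0x10101, 0x40204], [0x1208, 0x2041, 0x10104, 0x40012], [0xb, 0x1014, 0x2140, 0x50200]]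
def OL : List ℕ := [0x400a4f, 0xa0031d, 0x803da, 0x401ed, 0x140659, 0xc0237, 0x60b54, 0x46011b, 0x10f13, 0x810366, 0x41055c, 0x21007b,
  0x85028b, 0x250196, 0x15094a, 0x550305, 0x8d0151, 0x2d024c, 0x13021e, 0x70447, 0x84805e, 0x248343, 0x182d5, 0x9810f,
  0x58338, 0x104157, 0x4470e, 0x5481d, 0x454252, 0x34349, 0x293e, 0x80254b, 0x402371, 0x202656, 0x428d3, 0x44229c,
  0x942312, 0x34200f, 0xc2b09, 0x4c2146, 0x22387, 0xa205d, 0x6226a, 0x1262d, 0x812a58, 0xc12017, 0x212945, 0x61230a,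
  0x112199, 0x192243, 0x527c0, 0x152074, 0xd241a, 0x87210c, 0x272211, 0x10a34c, 0x4a515, 0x5aa06, 0x45a049, 0x3a152,
  0x846245, 0x246158, 0x160ce, 0x96314, 0x56123, 0xe21b, 0x149f, 0x10132b, 0x81745, 0x41572, 0x841907, 0xc41348,
  0x241a1a, 0x641055, 0x1412c6, 0x1c111c, 0x821253, 0x22114e, 0x11b8c, 0x4111c3, 0x91104d, 0x311350, 0x91856, 0x491219,
  0x51a61, 0x851614, 0x45102e, 0x251509, 0x31135, 0x710d8, 0xf1302, 0x9959, 0x409316, 0x6920d, 0x1964a, 0x159013,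
  0x527c, 0x45391, 0xc504b, 0x81511a, 0x215207, 0x5d144, 0x8031d4, 0x2032c9, 0x103a15, 0x50305a, 0x88320e, 0x283113,
  0x43c4c, 0x843039, 0x443603, 0x243324, 0x23718, 0x163141, 0x132b2, 0x113506, 0x93168, 0x453910, 0xa53042, 0xd3085,
  0x3380b, 0x433244, 0xb067, 0x4b18a, 0xcb250, 0x81b301, 0x21b01c, 0x7b42, 0x40710d, 0x67016, 0x17451, 0x157208]

/-- hexad test on the standard dodecad -/
def hx (m : ℕ) : Bool := OL.any fun o => Nat.beq (Nat.land o 0x5335f) m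

theorem hx_iff {m : ℕ} (hm : m < 2 ^ 24) : bset m ∈ hexadsOn d0 ↔ hx m = true := by
  have k : (OL.all fun o => oct o && Nat.beq (p24 (Nat.land o 0x5335f)) 6) = true ∧ allCW (fun o =>
      !(Nat.beq (p24 o) 8 && Nat.beq (p24 (Nat.land o 0x5335f)) 6) || OL.any (Nat.beq o)) = true := by decide +kernel
  simp only [hx, List.any_eq_true, Nat.beq_eq]
  refine ⟨fun ⟨h, o, ho, e⟩ => ?_, ?_⟩
  · obtain ⟨o, h1, rfl⟩ := mem_GC.1 ho.1
    rw [d0, ← bset_and] at e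
    have := forall_CW k.2 h1
    rw [(card_bset_eq_iff _ _).1 ho.2, (card_bset_eq_iff (Nat.land o _) _).1 (e ▸ h)] at this
    exact ⟨o, by simpa using this, bset_inj (Nat.and_lt_two_pow _ (by decide)) hm e⟩
  · rintro ⟨o, ho, rfl⟩
    have := Bool.and_eq_true_iff.1 (List.all_eq_true.1 k.1 o ho)
    exact ⟨(card_bset_eq_iff _ _).2 this.2, _, bset_mem_octads this.1, (bset_and _ _).symm⟩

theorem smul_quartet (g : M24) (h : Q ∈ quartets d) : g • Q ∈ quartets (g • d) := by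
  refine ⟨(card_smul_finset _ _).trans h.1, fun t a => ?_, fun t a u b n => ?_⟩
  · obtain ⟨t, ht, rfl⟩ := mem_smul_finset.1 a
    exact ⟨(card_smul_finset _ _).trans (h.2.1 t ht).1, smul_finset_subset_smul_finset (h.2.1 t ht).2⟩
  obtain ⟨t, ht, rfl⟩ := mem_smul_finset.1 a
  obtain ⟨u, hu, rfl⟩ := mem_smul_finset.1 b
  obtain ⟨h1, o, h2, h3⟩ := h.2.2 t ht u hu fun q => n (q ▸ rfl)
  rw [← smul_finset_union]
  exact ⟨(card_smul_finset _ _).trans h1, g • o, smul_mem_octads g h2, by rw [← smul_finset_inter, h3]⟩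

/-- quartet test -/
noncomputable def qOk (l : List ℕ) : Bool := Nat.beq l.length 4 && (decide l.Nodup && l.all fun t =>
  Nat.blt t 0x1000000 && (Nat.beq (p24 t) 3 && (subs t 0x5335f && l.all fun u => Nat.beq t u || hx (Nat.lor t u))))

theorem qOk_spec {l : List ℕ} (h : qOk l = true) : bsets l ∈ quartets d0 := by
  simp only [qOk, Bool.and_eq_true, Nat.beq_eq, decide_eq_true_eq, List.all_eq_true, Nat.blt_eq, Bool.or_eq_true] at h
  refine ⟨(card_bsets h.2.1 fun m q => (h.2.2 m q).1).trans h.1, forall_bsets.2 fun m q =>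
    ⟨(card_bset m).trans (h.2.2 m q).2.1, bset_subset (h.2.2 m q).2.2.1⟩, forall_bsets.2 fun a p => forall_bsets.2 fun b q n => ?_⟩
  rw [← bset_or]
  exact (hx_iff (Nat.or_lt_two_pow (h.2.2 a p).1 (h.2.2 b q).1)).2 (((h.2.2 a p).2.2.2 b q).resolve_left fun e => n (e ▸ rfl))

/-- the standard quartet -/
def q0 : List ℕ := [0x7, 0x248, 0x12010, 0x41100]

theorem q0_mem : bsets q0 ∈ quartets d0 := qOk_spec (by decide +kernel)

theorem q0_eq (h : Q ∈ quartets d0) (h1 : bset 7 ∈ Q) (h2 : bset 0x248 ∈ Q) : Q = bsets q0 := by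
  refine eq_of_subset_of_card_le (fun v hv => ?_) (q0_mem.1.trans h.1.symm).le
  have := all_sub (f := fun m => q0.any (Nat.beq m) || !(hx (Nat.lor 7 m) && hx (Nat.lor 0x248 m))) (by decide +kernel)
    (h.2.1 v hv).1
  by_contra n
  have k : ∀ a ∈ q0, a < 2 ^ 24 → bset a ∈ Q → hx (Nat.lor a (mask v)) = true := fun a ha h3 h4 =>
    (hx_iff (Nat.or_lt_two_pow h3 (mask_lt v))).1 (by
      rw [bset_or, bset_mask]; exact h.2.2 _ h4 v hv fun e => n (mem_bsets.2 ⟨a, ha, e⟩))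
  rw [k 7 (by decide) (by decide) h1, k 0x248 (by decide) (by decide) h2] at this
  exact n (mem_bsets.2 ⟨mask v, by simpa using this, bset_mask v⟩)

theorem hex_std (hd : d ∈ dodecads) (ht : t.card = 3) (hu : u.card = 3) (h : t ∪ u ∈ hexadsOn d) :
    ∃ g : M24, g • d0 = d ∧ g • bset 7 = t ∧ g • bset 0x248 = u := by
  obtain ⟨h1, o, h2, h3⟩ := h
  have a : t ⊆ o ∩ d := h3 ▸ subset_union_left
  obtain ⟨g, e⟩ := ((Cfg.dod hd).sstep1 ct3 ht (by
    simp [sgS, ht, inter_eq_right.2 (a.trans inter_subset_right)])).step1 chx h2.1 (by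
    simp [sgS, h2.2, ht, inter_eq_left.2 (a.trans inter_subset_left), inter_comm d, h3, h1])
  simp only [List.map, List.cons.injEq] at e
  obtain ⟨rfl, rfl, rfl, -⟩ := e
  refine ⟨g, rfl, rfl, ?_⟩
  have := card_union_add_card_inter (g • bset 7) u
  rw [← union_sdiff_cancel_left (disjoint_iff_inter_eq_empty.2 (card_eq_zero.1 (by omega : (g • bset 7 ∩ u).card = 0))),
    ← h3, ← smul_finset_inter, ← smul_finset_sdiff]
  exact congrArg _ (by decide)

theorem quartet_std (hd : d ∈ dodecads) (h : Q ∈ quartets d) : ∃ g : M24, g • d0 = d ∧ g • bsets q0 = Q := by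
  obtain ⟨t, ht, u, hu, n⟩ := one_lt_card.1 (h.1 ▸ by norm_num : 1 < Q.card)
  obtain ⟨g, rfl, rfl, rfl⟩ := hex_std hd (h.2.1 t ht).1 (h.2.1 u hu).1 (h.2.2 t ht u hu n)
  exact ⟨g, rfl, smul_eq_iff_eq_inv_smul g |>.2 (q0_eq (by simpa using smul_quartet g⁻¹ h)
    (by rwa [← smul_mem_smul_finset_iff g, smul_inv_smul]) (by rwa [← smul_mem_smul_finset_iff g, smul_inv_smul])).symm⟩

theorem smul_quartets (g : M24) : g • quartets d = quartets (g • d) :=
  Set.ext fun Q => ⟨by rintro ⟨Q, h, rfl⟩; exact smul_quartet g h, fun h =>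
    ⟨g⁻¹ • Q, by simpa using smul_quartet g⁻¹ h, smul_inv_smul g Q⟩⟩

theorem QH_ok : QH.nets.all golayOk = true := by decide +kernel
/-- the machine of the stabiliser of the standard quartet -/
noncomputable abbrev PQ := m24PM _ QH_ok
theorem PQ_all : Rels PQ.gen QH.allRels := QH.all_ok' PQ

/-- all quartets -/
def QA : List (List ℕ) := [q0] ++ O1 ++ O2 ++ O3 ++ O4

theorem QA_sub : bsets '' {a | a ∈ QA} ⊆ quartets d0 := by
  rintro _ ⟨a, ha, rfl⟩
  exact qOk_spec (List.all_eq_true.1 (show QA.all qOk = true by decide +kernel) a ha)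

theorem QA_card : (bsets '' {a | a ∈ QA}).ncard = 220 := ncard_dif (by decide +kernel)

theorem PQ_le : sub PQ.gen QH.ws0 ≤ stabilizer M24 d0 ⊓ stabilizer M24 (bsets q0) :=
  le_inf (smul_bset_of_invChk _ (by decide +kernel)) ((sub_le _).2 fun w hw => (ev_bsets _ w _).trans (same_spec
    (List.all_eq_true.1 (show QH.ws0.all (fun w => same (q0.map (runW (letN QH.nets) w)) q0) = true by decide +kernel) w hw)))

theorem quartet_count : sub PQ.gen QH.ws0 = stabilizer M24 d0 ⊓ stabilizer M24 (bsets q0) ∧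
    Nat.card (stabilizer M24 d0 ⊓ stabilizer M24 (bsets q0) :) = 432 ∧ bsets '' {a | a ∈ QA} = quartets d0 := by
  have h := card_inf_stabilizer_mul G12 (bsets q0)
  rw [card_G12, show {y | ∃ g ∈ G12, g • bsets q0 = y} = quartets d0 from Set.ext fun Q =>
    ⟨by rintro ⟨g, h, rfl⟩; exact (h : g • d0 = d0) ▸ smul_quartet g q0_mem, quartet_std d0_mem⟩] at h
  have c := QH.card0 PQ (QH.rels_of_all PQ_all)
  have h1 := c ▸ Subgroup.card_le_of_le PQ_le
  have h2 := QA_card ▸ Set.ncard_le_ncard QA_sub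
  have h3 : Nat.card (stabilizer M24 d0 ⊓ stabilizer M24 (bsets q0) :) = 432 := by nlinarith
  exact ⟨eq_of_le_of_card (by norm_num) PQ_le c h3, h3, Set.eq_of_subset_of_ncard_le QA_sub (by rw [QA_card]; nlinarith)⟩

theorem conj_dq (g : M24) {A B : Type*} [MulAction M24 A] [MulAction M24 B] (a : A) (b : B) (x : M24) :
    g * x * g⁻¹ ∈ stabilizer M24 (g • a) ⊓ stabilizer M24 (g • b) ↔ x ∈ stabilizer M24 a ⊓ stabilizer M24 b :=
  and_congr (conj_mem_stabilizer ..) (conj_mem_stabilizer ..)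

theorem orb_q {a : List ℕ} {O : List (List ℕ)} (h : (O.any (· == a) && clos QH.nets (lets 4) O &&
    rch QH.nets (lets 4) a O) = true) :
    orbit (stabilizer M24 d0 ⊓ stabilizer M24 (bsets q0) :) (bsets a) = bsets '' {a | a ∈ O} := by
  simp only [Bool.and_eq_true, List.any_eq_true, beq_iff_eq, exists_eq_right] at h
  rw [← quartet_count.1, ← QH.orig_eq PQ_all]
  exact orbit_list _ h.1.1 h.1.2 h.2

end H28
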