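import Cfsg.Agent.H28.GQ
import Cfsg.Agent.H28.QL
import Cfsg.Agent.H15.StdGL23

/-! The subgroups `3² : GL(2, 3)` and `PSL(2, 11)` of `M12`. -/

namespace H28
open Cfsg H14 H15 Finset MulAction Matrix
open scoped Pointwise MatrixGroups

theorem quartet_hom : ∃ φ : (stabilizer M24 d0 ⊓ stabilizer M24 (bsets q0) :) →* GL (Fin 2) (ZMod 3),
    Function.Surjective φ := by
  obtain ⟨a, ha⟩ := ar_3 (F := ZMod 3) rfl
  obtain ⟨S, g, h1, -⟩ := StdGL23.std_spec (F := ZMod 3) rfl ha
  obtain ⟨M⟩ := (mem_gl (Equiv.refl (Fin 2)) ha.1 (L := [(0x45, 0x49), (0x51, 0x61), (0x42, 0x42), (0x41, 0x41),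
    (0x58, 0x25), (0x52, 0x52), (0xa1, 0xa1)]) (by decide +kernel)).mm ha.1 (by decide +kernel)
  have r : Rels M.gen QH.allRels := M.rels Units.val_injective
    (show a.sh.relsM 2 _ [] _ = true by rw [ha.1]; decide +kernel)
  obtain ⟨φ, h, -⟩ := exists_hom_of_card (by norm_num) (QH.card0 (PQ.prod M.gen) (QH.rels_of_all (PQ_all.prod r)))
    (QH.card0 PQ (QH.rels_of_all PQ_all))
  rw [← quartet_count.1]
  refine ⟨φ, MonoidHom.range_eq_top.1 (eq_top_iff.2 ?_)⟩
  rw [h, ← QH.orig_eq r, ← S.top]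
  refine StdGL23.gen_mem S.rels fun l hl => ?_
  rw [(h1 l hl).1, show MonoidHom.id _ (g l) = M.gen l from Units.ext ((h1 l hl).2.trans ((by
    interval_cases l <;> rfl : _ = _).trans (M.gen_spec l).symm))]
  exact gen_mem_lets (by omega)

theorem QL_ok : QL.nets.all golayOk = true := by decide +kernel

instance fact11 : Fact (Nat.Prime 11) := ⟨by norm_num⟩
/-- arithmetic modulo 11 -/
def a11 : Ar (ZMod 11) := arZ 11 4 (by decide)

theorem l2_11 : Nonempty ((stabilizer M24 d0 ⊓ stabilizer M24 (some 0 : GolayPt) ⊓ stabilizer M24 (none : GolayPt) :) ≃*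
    PSL(2, ZMod 11)) := by
  let P := m24PM _ QL_ok
  have R : Rels P.gen QL.allRels := QL.all_ok' P
  have c := QL.card0 P (QL.rels_of_all R)
  have e : sub P.gen QL.ws0 = G11 ⊓ stabilizer M24 (none : GolayPt) := by
    refine eq_of_le_of_card (by norm_num) (le_inf (le_inf (smul_bset_of_invChk _ (by decide +kernel))
      (P.fix_sound (b := 0) (by norm_num) (by decide +kernel))) (P.fix_sound (b := 23) (by norm_num) (by decide +kernel))) c ?_
    rw [← P11d_top]
    exact (congrArg (fun H : Subgroup M24 => Nat.card H) (M11d.stab0 P11d P11d_rels)).trans (M11d.card1 P11d P11d_rels)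
  obtain ⟨M⟩ := exists_MM (ρ := slM (Fin 2) (ZMod 11)) (a := a11) (e := Equiv.refl (Fin 2))
    (L := [(0x1011, 0x10a1), (0x1101, 0x1a01), (0x1101, 0x1a01), (0x10a1, 0x1011), (0x4033, 0x3084), (0x9223, 0x3999),
      (0x9982, 0x2239)]) (by decide +kernel) (k := 2) (fun l hl => ⟨⟨a11.toM _ _, by
        rw [det_fin_two]; interval_cases l <;> decide +kernel⟩, rfl⟩) (ds := QL.defs) (by decide +kernel)
      (by decide +kernel) (by decide +kernel)
  have r := M.rels_of_chk Subtype.val_injective (QuotientGroup.mk' (Subgroup.center _)) (zs := [0xa00a])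
    (fun z hz => ⟨-1, by rw [List.mem_singleton.1 hz]; decide +kernel,
      (QuotientGroup.eq_one_iff _).2 (Subgroup.mem_center_iff.2 (by simp))⟩) (l := QL.allRels) (by decide +kernel)
  obtain ⟨φ, h, -⟩ := exists_hom_of_card (by norm_num) (QL.card0 (P.prod _) (QL.rels_of_all (R.prod r))) c
  have := QL.simple P R
  have b := bd_psl (F := ZMod 11) (n := 2) (N := 660) (ZMod.card 11) (by decide +kernel)
  have i : Function.Injective φ := (MonoidHom.ker_eq_bot_iff _).1 ((φ.normal_ker.eq_bot_or_eq_top).resolve_right fun q => by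
    have := (QuotientGroup.eq_one_iff _).1 (((MonoidHom.range_eq_bot_iff.2 (MonoidHom.ker_eq_top_iff.1 q)).symm.trans
      (h.trans (QL.orig_eq r).symm)).ge (gen_mem_lets (l := 0) (by norm_num)))
    have := congrArg (slM _ _) (Subgroup.mem_center_iff.1 this (M.gen 1))
    rw [map_mul, map_mul, M.gen_spec, M.gen_spec, ← a11.toM_mulN, ← a11.toM_mulN] at this
    exact absurd (congrFun (congrFun this 0) 0) (by decide +kernel))
  rw [Bd, Subgroup.card_top] at b
  have := Nat.finite_of_card_ne_zero b.1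
  exact e ▸ ⟨MulEquiv.ofBijective φ (i.bijective_of_nat_card_le (c ▸ b.2))⟩

end H28
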