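import Cfsg.Prelude.Def_SporadicCombinatorics

set_option autoImplicit false

namespace H28.HX
open Cfsg Finset Equiv

theorem chain {α : Type*} {n : ℕ} (bs : Fin n ↪ α) {P : Perm α → Prop} (h1 : P 1) (hm : ∀ a b, P a → P b → P (a * b))
    (h : ∀ i y, (∀ j < i, y ≠ bs j) → ∃ ρ, P ρ ∧ (∀ j < i, ρ (bs j) = bs j) ∧ ρ y = bs i) (σ : Perm α) :
    ∃ τ, P τ ∧ ∀ j, τ (σ (bs j)) = bs j := by
  suffices ∀ i ≤ n, ∃ τ, P τ ∧ ∀ j : Fin n, j.1 < i → τ (σ (bs j)) = bs j from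
    (this n le_rfl).imp fun _ h => ⟨h.1, fun j => h.2 j j.2⟩
  intro i hi
  induction i with
  | zero => exact ⟨1, h1, by simp⟩
  | succ i ih =>
    obtain ⟨τ, t, k⟩ := ih (by omega)
    obtain ⟨ρ, h1, h2, h3⟩ := h ⟨i, hi⟩ (τ (σ (bs ⟨i, hi⟩))) fun j hj e =>
      hj.ne' (bs.injective (σ.injective (τ.injective (e.trans (k j hj).symm))))
    refine ⟨_, hm _ _ h1 t, fun j hj => ?_⟩
    rcases Nat.lt_succ_iff_lt_or_eq.1 hj with hj | rfl
    · rw [Perm.mul_apply, k j hj, h2 j hj]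
    · exact h3

abbrev K := QuadraticAlgebra (ZMod 2) 1 1
instance irr : Fact (∀ r : ZMod 2, r ^ 2 ≠ 1 + 1 * r) := ⟨by decide⟩
instance finK : Fintype K := .ofEquiv _ (QuadraticAlgebra.equivProd 1 1).symm
def w : K := ⟨0, 1⟩

variable {F : Type*} [Field F] {ω : F} {e : K ≃+* F}

theorem exists_equiv [Fintype F] (hF : Fintype.card F = 4) (hω : ω ^ 2 + ω + 1 = 0) : ∃ e : K ≃+* F, e w = ω := by
  let e : K ≃+* F := FiniteField.ringEquivOfCardEq (hF ▸ by decide +kernel)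
  obtain ⟨a, rfl⟩ := e.surjective ω
  rcases (by decide +kernel : ∀ a : K, a ^ 2 + a + 1 = 0 → w = a ∨ star w = a) a (e.injective (by simpa using hω))
    with rfl | rfl
  exacts [⟨e, rfl⟩, ⟨starRingAut.trans e, rfl⟩]

/-- systematic encoding of the hexacode -/
def sys (a : K × K × K) : Fin 6 → K :=
  ![a.1, a.2.1, a.2.2, a.1 + a.2.1 + a.2.2, w * w * a.1 + w * a.2.1 + a.2.2, w * a.1 + w * w * a.2.1 + a.2.2]
def Hx (x : Fin 6 → K) : Prop := sys (x 0, x 1, x 2) = x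
instance : DecidablePred Hx := fun _ => inferInstanceAs (Decidable (_ = _))

theorem mem_iff (he : e w = ω) {x : Fin 6 → K} : e ∘ x ∈ hexacode F ω ↔ Hx x := by
  have k : ∀ a b c : K, e a • ![ω, ω ^ 2, ω ^ 2, ω, ω ^ 2, ω] + e b • ![ω ^ 2, ω, ω, ω ^ 2, ω ^ 2, ω] +
      e c • ![ω ^ 2, ω, ω ^ 2, ω, ω, ω ^ 2] = e ∘ (a • ![w, w ^ 2, w ^ 2, w, w ^ 2, w] +
        b • ![w ^ 2, w, w, w ^ 2, w ^ 2, w] + c • ![w ^ 2, w, w ^ 2, w, w, w ^ 2]) := fun a b c => by
    ext i; fin_cases i <;> simp [he]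
  simp only [hexacode, Submodule.mem_span_triple, e.surjective.exists, k, e.injective.comp_left.eq_iff]
  refine ⟨?_, fun h => h ▸ ?_⟩
  · rintro ⟨a, b, c, rfl⟩; revert a b c; decide +kernel
  generalize (x 0, x 1, x 2) = a; revert a; decide +kernel

theorem mem_iff' (he : e w = ω) {x : Fin 6 → F} : x ∈ hexacode F ω ↔ ∃ a, e ∘ sys a = x := by
  obtain ⟨x, rfl⟩ := e.surjective.comp_left x
  exact (mem_iff he).trans ⟨fun h => ⟨_, congrArg _ h⟩, fun ⟨a, h⟩ => e.injective.comp_left h ▸ rfl⟩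

theorem ncard_hex (he : e w = ω) (P : (Fin 6 → F) → Prop) (Q : K × K × K → Prop) [DecidablePred Q]
    (h : ∀ a, P (e ∘ sys a) ↔ Q a) : {x | x ∈ hexacode F ω ∧ P x}.ncard = #{a | Q a} := by
  rw [← Set.ncard_coe_finset, ← Set.ncard_image_of_injective (f := fun a => e ∘ sys a) _
    (e.injective.comp_left.comp fun a b h => Prod.ext (congrFun h 0) (Prod.ext (congrFun h 1) (congrFun h 2)))]
  congr 1; ext x; simp only [mem_iff' he, Set.mem_ofPred_eq, Set.mem_image, mem_coe, mem_filter_univ]; grind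

/-- the monomial map preserves the hexacode -/
def Pres (ω : F) (σ : Perm (Fin 6)) (c : Fin 6 → Fˣ) : Prop := ∀ x ∈ hexacode F ω, monomialMap σ c x ∈ hexacode F ω
def PK (σ : Perm (Fin 6)) (c : Fin 6 → K) : Prop := ∀ a, Hx fun i => c i * sys a (σ.symm i)
instance (σ : Perm (Fin 6)) : DecidablePred (PK σ) := fun _ => inferInstanceAs (Decidable (∀ _, _))

variable {σ τ : Perm (Fin 6)} {c d : Fin 6 → Fˣ}

theorem pres_iff (he : e w = ω) : Pres ω σ c ↔ PK σ fun i => e.symm (c i) := by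
  have k : ∀ a, monomialMap σ c (e ∘ sys a) = e ∘ fun i => e.symm (c i) * sys a (σ.symm i) := fun a => by
    ext; simp [monomialMap]
  refine ⟨fun h a => (mem_iff he).1 (k a ▸ h _ ((mem_iff' he).2 ⟨a, rfl⟩)), fun h x hx => ?_⟩
  obtain ⟨a, rfl⟩ := (mem_iff' he).1 hx
  exact k a ▸ (mem_iff he).2 (h a)

theorem Pres.one : Pres ω 1 1 := fun x hx => by convert hx; ext; exact one_mul _

theorem Pres.mul (h : Pres ω σ c) (h' : Pres ω τ d) : Pres ω (σ * τ) fun p => c p * d (σ.symm p) := fun x hx => by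
  convert h _ (h' x hx) using 1; ext; simp [monomialMap, mul_assoc, Perm.mul_def]

theorem Pres.smul (h : Pres ω σ c) (u : Fˣ) : Pres ω σ fun p => u * c p := fun x hx => by
  convert Submodule.smul_mem _ (u : F) (h x hx) using 1; ext; simp [monomialMap, mul_assoc]

theorem all6 {P : (Fin 6 → K) → Prop} (h : ∀ a ≠ 0, ∀ b ≠ 0, ∀ c ≠ 0, ∀ d ≠ 0, ∀ f ≠ 0, ∀ g ≠ 0, P ![a, b, c, d, f, g])
    (c : Fin 6 → Fˣ) : P fun i => e.symm (c i) := by
  have n : ∀ i, e.symm (c i) ≠ 0 := by simp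
  convert h _ (n 0) _ (n 1) _ (n 2) _ (n 3) _ (n 4) _ (n 5) using 1
  ext i : 1; fin_cases i <;> rfl

set_option synthInstance.maxSize 1024 in
theorem Pres.const (he : e w = ω) (h : Pres ω 1 c) (i : Fin 6) : c i = c 0 :=
  Units.ext (e.symm.injective (all6 (P := fun c => PK 1 c → ∀ i, c i = c 0) (by decide +kernel) c ((pres_iff he).1 h) i))

theorem not_swap (he : e w = ω) : ¬ Pres ω (swap 4 5) c :=
  mt (pres_iff he).1 (all6 (P := fun c => ¬ PK (swap 4 5) c) (by decide +kernel) c)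

def tz (i y : Fin 6) : Fin 6 := if y = i + 1 then i + 2 else i + 1
def tc (i y p : Fin 6) : K := ![0, 1, w, w * w] (Fin.ofNat 4
  (0x333321222231000000000000000000000000333321222231333321000000000000000000132321213231321111231111000000000000113211112311321111231111321111000000 >>> (4 * (6 * (6 * i.1 + y.1) + p.1))))

theorem reduce (he : e w = ω) (σ : Perm (Fin 6)) : ∃ τ c, Pres ω τ c ∧ τ.sign = 1 ∧ (τ * σ = 1 ∨ τ * σ = swap 4 5) := by
  obtain ⟨τ, ⟨c, h1, h2⟩, h⟩ := chain (Fin.castLEEmb (by decide : 4 ≤ 6)) (P := fun τ => ∃ c, Pres ω τ c ∧ τ.sign = 1)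
    ⟨1, .one, by simp⟩ (fun _ _ ⟨_, a, b⟩ ⟨_, c, d⟩ => ⟨_, a.mul c, by simp [b, d]⟩) (fun i y h => by
      by_cases hy : y = Fin.castLE (by decide) i
      · exact ⟨1, ⟨1, .one, by simp⟩, by simp, hy⟩
      obtain ⟨h1, h2, h3, h4, h5⟩ : (∀ p, tc (i.castLE (by decide)) y p ≠ 0) ∧ y ≠ tz (i.castLE (by decide)) y ∧
          PK (swap y (tz (i.castLE (by decide)) y) * swap (i.castLE (by decide)) y) (tc (i.castLE (by decide)) y) ∧
          (∀ j < i, (swap y (tz (i.castLE (by decide)) y) * swap (i.castLE (by decide)) y) (j.castLE (by decide)) =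
            j.castLE (by decide)) ∧
          (swap y (tz (i.castLE (by decide)) y) * swap (i.castLE (by decide)) y) y = i.castLE (by decide) := by
        revert i y; decide +kernel
      exact ⟨_, ⟨fun p => .mk0 (e _) ((map_ne_zero e).2 (h1 p)), (pres_iff he).2 (by simpa using h3),
        by simp [Perm.sign_swap h2, Perm.sign_swap (Ne.symm hy)]⟩, h4, h5⟩) σ
  refine ⟨τ, c, h1, h2, ?_⟩
  have k : ∀ j : Fin 4, (τ * σ) (j.castLE (by decide)) = j.castLE (by decide) := h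
  generalize τ * σ = g at k
  have n := fun a b => g.injective.ne_iff (x := a) (y := b)
  have := (by decide : ∀ a b : Fin 6, (∀ j : Fin 4, a ≠ j.castLE (by decide) ∧ b ≠ j.castLE (by decide)) → a ≠ b →
    a = 4 ∧ b = 5 ∨ a = 5 ∧ b = 4) (g 4) (g 5) (fun j => by
      rw [← k j, n, n]; revert j; decide) (by simp)
  refine this.imp (fun h => ?_) fun h => ?_ <;> ext i : 1 <;> fin_cases i
  all_goals first | exact k 0 | exact k 1 | exact k 2 | exact k 3 | exact h.1 | exact h.2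

end H28.HX
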