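import Mathlib

/-! Short vectors modulo 2 in an even lattice of rank 24 without roots. -/

namespace H28
open Matrix Finset

/-- even positive definite integral forms without roots -/
structure NoRoot (B : Matrix (Fin 24) (Fin 24) ℤ) : Prop where
  symm : B.IsSymm
  pos : ∀ x : Fin 24 → ℤ, x ≠ 0 → 0 < x ⬝ᵥ (B *ᵥ x)
  even : ∀ x : Fin 24 → ℤ, (2 : ℤ) ∣ x ⬝ᵥ (B *ᵥ x)
  two : ∀ x : Fin 24 → ℤ, x ⬝ᵥ (B *ᵥ x) ≠ 2

/-- reduction modulo 2 -/
def r2 (x : Fin 24 → ℤ) : Fin 24 → ZMod 2 := fun i => x i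

theorem r2_eq {x y : Fin 24 → ℤ} : r2 x = r2 y ↔ ∀ i, (2 : ℤ) ∣ (x - y) i :=
  funext_iff.trans (forall_congr' fun i => eq_comm.trans (ZMod.intCast_eq_intCast_iff_dvd_sub _ _ 2))

variable {B : Matrix (Fin 24) (Fin 24) ℤ} {x y : Fin 24 → ℤ}

theorem NoRoot.short (h : NoRoot B) (hx : x ⬝ᵥ (B *ᵥ x) ≤ 8) (hy : y ⬝ᵥ (B *ᵥ y) ≤ 8) (hc : r2 x = r2 y) :
    y = x ∨ y = -x ∨ x ⬝ᵥ (B *ᵥ x) = 8 ∧ y ⬝ᵥ (B *ᵥ y) = 8 ∧ x ⬝ᵥ (B *ᵥ y) = 0 := by
  choose z hz using r2_eq.1 hc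
  obtain ⟨w, rfl⟩ : ∃ w, y = w - z := ⟨y + z, by simp⟩
  obtain rfl : x = w + z := funext fun i => by have := hz i; simp at this ⊢; omega
  have s : z ⬝ᵥ (B *ᵥ w) = w ⬝ᵥ (B *ᵥ z) := by rw [dotProduct_mulVec, ← mulVec_transpose, h.symm.eq, dotProduct_comm]
  have k : ∀ v, v ≠ 0 → 4 ≤ v ⬝ᵥ (B *ᵥ v) := fun v hv => by
    have := h.pos v hv; have := h.even v; have := h.two v; omega
  by_cases h1 : z = 0
  · simp [h1]
  by_cases h2 : w = 0
  · simp [h2]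
  have := k z h1
  have := k w h2
  simp only [mulVec_add, mulVec_sub, add_dotProduct, sub_dotProduct, dotProduct_add, dotProduct_sub] at hx hy ⊢
  omega

theorem NoRoot.fib2 (h : NoRoot B) {S : Finset (Fin 24 → ℤ)} (hS : ∀ x ∈ S, x ⬝ᵥ (B *ᵥ x) < 8) :
    S.card ≤ 2 * (S.image r2).card := by
  refine card_le_mul_card_image _ _ fun a ha => ?_
  obtain ⟨x, hx, rfl⟩ := mem_image.1 ha
  refine (card_le_card (t := {x, -x}) fun y hy => ?_).trans card_le_two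
  obtain ⟨h1, h2⟩ := mem_filter.1 hy
  rcases h.short (hS x hx).le (hS y h1).le h2.symm with q | q | q
  exacts [by simp [q], by simp [q], absurd q.1 (hS x hx).ne]

theorem NoRoot.fib48 (h : NoRoot B) {S : Finset (Fin 24 → ℤ)} (hS : ∀ x ∈ S, x ⬝ᵥ (B *ᵥ x) = 8)
    (hc : ∀ x ∈ S, ∀ y ∈ S, r2 x = r2 y) : S.card ≤ 48 := by
  classical
  have k : ∀ T ⊆ S, (∀ x ∈ T, -x ∉ T) → T.card ≤ 24 := fun T h1 h2 => by
    have : LinearIndependent ℤ fun x : T => x.1 := Fintype.linearIndependent_iff.2 fun g hg j => by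
      have := congrArg (fun v => j.1 ⬝ᵥ (B *ᵥ v)) hg
      simp only [mulVec_sum, dotProduct_sum, mulVec_smul, dotProduct_smul, mulVec_zero, dotProduct_zero] at this
      rw [sum_eq_single j (fun i _ hi => ?_) (by simp), hS _ (h1 j.2)] at this
      · simpa using this
      rcases h.short (hS _ (h1 j.2)).le (hS _ (h1 i.2)).le (hc _ (h1 j.2) _ (h1 i.2)) with q | q | q
      exacts [absurd (Subtype.ext q) hi, absurd (q ▸ i.2) (h2 _ j.2), by simp [q.2.2]]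
    simpa using this.fintype_card_le_finrank
  have h1 := k (S.filter fun x => toLex (-x) < toLex x) (filter_subset _ _) fun x a b =>
    (mem_filter.1 a).2.asymm (neg_neg x ▸ (mem_filter.1 b).2 :)
  have h2 := k (S.filter fun x => ¬ toLex (-x) < toLex x) (filter_subset _ _) fun x a b => by
    have e : -x = x := toLex.injective (le_antisymm (not_lt.1 (neg_neg x ▸ (mem_filter.1 b).2 :)) (not_lt.1 (mem_filter.1 a).2))
    have : x = 0 := funext fun i => by have := congrFun e i; simp at this ⊢; omega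
    simpa [this] using hS x (mem_filter.1 a).1
  have := card_filter_add_card_filter_not (s := S) fun x => toLex (-x) < toLex x
  omega

theorem NoRoot.cross (h : NoRoot B) (h4 : {x : Fin 24 → ℤ | x ⬝ᵥ (B *ᵥ x) = 4}.ncard = 196560)
    (h6 : {x : Fin 24 → ℤ | x ⬝ᵥ (B *ᵥ x) = 6}.ncard = 16773120)
    (h8 : {x : Fin 24 → ℤ | x ⬝ᵥ (B *ᵥ x) = 8}.ncard = 398034000) (hx : x ⬝ᵥ (B *ᵥ x) = 8) :
    {y : Fin 24 → ℤ | y ⬝ᵥ (B *ᵥ y) = 8 ∧ ∀ i, (2 : ℤ) ∣ (x - y) i}.ncard = 48 := by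
  have f : ∀ {k : ℤ} {n : ℕ}, {x : Fin 24 → ℤ | x ⬝ᵥ (B *ᵥ x) = k}.ncard = n + 1 →
      ∃ S : Finset (Fin 24 → ℤ), S.card = n + 1 ∧ ∀ x, x ∈ S ↔ x ⬝ᵥ (B *ᵥ x) = k := fun e =>
    have := Set.finite_of_ncard_ne_zero (e ▸ Nat.succ_ne_zero _)
    ⟨this.toFinset, (Set.ncard_eq_toFinset_card _ this).symm.trans e, by simp⟩
  obtain ⟨S4, c4, m4⟩ := f h4
  obtain ⟨S6, c6, m6⟩ := f h6
  obtain ⟨S8, c8, m8⟩ := f h8
  have a := h.fib2 (S := S4 ∪ S6) fun x hx => by rcases mem_union.1 hx with q | q <;> simp [m4, m6] at q <;> omega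
  rw [card_union_of_disjoint (disjoint_left.2 fun x p q => by simp [m4, m6] at p q; omega)] at a
  have d : Disjoint (insert (r2 0) ((S4 ∪ S6).image r2)) (S8.image r2) := disjoint_left.2 fun v p q => by
    obtain ⟨y, hy, rfl⟩ := mem_image.1 q
    obtain ⟨z, hz, e⟩ : ∃ z, z ⬝ᵥ (B *ᵥ z) < 8 ∧ r2 z = r2 y := by
      rcases mem_insert.1 p with p | p
      · exact ⟨0, by simp, p.symm⟩
      obtain ⟨z, hz, e⟩ := mem_image.1 p
      exact ⟨z, by rcases mem_union.1 hz with q | q <;> simp [m4, m6] at q <;> omega, e⟩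
    have := (m8 y).1 hy
    rcases h.short hz.le this.le e with rfl | rfl | q
    exacts [hz.ne this, hz.ne (by simpa [mulVec_neg] using this), hz.ne q.1]
  have n : r2 0 ∉ (S4 ∪ S6).image r2 := fun p => by
    obtain ⟨z, hz, e⟩ := mem_image.1 p
    have : z ⬝ᵥ (B *ᵥ z) = 4 ∨ z ⬝ᵥ (B *ᵥ z) = 6 := by simpa [m4, m6] using hz
    rcases h.short (x := 0) (y := z) (by simp) (by omega) e.symm with rfl | rfl | q <;> simp at *
  have t := card_le_univ (insert (r2 0) ((S4 ∪ S6).image r2) ∪ S8.image r2)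
  rw [card_union_of_disjoint d, card_insert_of_notMem n] at t
  simp only [Fintype.card_pi, ZMod.card, prod_const, card_univ, Fintype.card_fin] at t
  have b : ∀ v ∈ S8.image r2, (S8.filter (r2 · = v)).card ≤ 48 := fun v _ =>
    h.fib48 (fun x hx => (m8 x).1 (mem_filter.1 hx).1) fun x p y q => (mem_filter.1 p).2.trans (mem_filter.1 q).2.symm
  have e : {y : Fin 24 → ℤ | y ⬝ᵥ (B *ᵥ y) = 8 ∧ ∀ i, (2 : ℤ) ∣ (x - y) i} = S8.filter (r2 · = r2 x) := by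
    ext y; simp only [← r2_eq, coe_filter, m8, Set.mem_ofPred_eq, eq_comm]
  have m := mem_image_of_mem r2 ((m8 x).2 hx)
  rw [e, Set.ncard_coe_finset]
  refine (b _ m).eq_of_not_lt fun q => ?_
  have := sum_lt_sum b ⟨_, m, q⟩
  rw [← card_eq_sum_card_image, sum_const, smul_eq_mul] at this
  omega

end H28
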