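import Cfsg.Agent.H28.Lat
import Cfsg.Agent.H14.Code24
import Cfsg.Agent.H14.LeechShape

/-! Conway's characterisation of the Leech lattice: lattices in frame coordinates (`LM`) and their codes (`CM`). -/

set_option autoImplicit false

namespace H28.LU
open Cfsg H14 Finset

structure LM (M : AddSubgroup V) : Prop where
  par : ∀ x ∈ M, ∀ i j, x i % 2 = x j % 2
  dd : ∀ u : V, (∑ i, u i) % 2 = 0 → (fun i => 4 * u i) ∈ M
  nm : ∀ x ∈ M, 16 ∣ sqNorm x
  n16 : ∀ x ∈ M, sqNorm x ≠ 16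
  cnt : {x | x ∈ M ∧ sqNorm x = 32}.ncard = 196560

def CM (M : AddSubgroup V) : Set (Finset GolayPt) := {s | ∃ x ∈ M, (∀ i, x i % 2 = 0) ∧ cs x = s}

variable {M : AddSubgroup V} {x y : V} {s t : Finset GolayPt}

theorem CM.sd (hs : s ∈ CM M) (ht : t ∈ CM M) : symmDiff s t ∈ CM M := by
  obtain ⟨x, hx, e, rfl⟩ := hs
  obtain ⟨y, hy, e', rfl⟩ := ht
  refine ⟨x + y, add_mem hx hy, fun i => ?_, Finset.ext fun i => ?_⟩ <;> have := e i <;> have := e' i <;>
    simp only [mem_cs, mem_symmDiff, Pi.add_apply] <;> omega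

theorem sq_cases {a : ℤ} (k : ℤ) (h : a ^ 2 = k ^ 2) : a = k ∨ a = -k := pm_of_sq k h

namespace LM
variable (h : LM M)
include h

theorem four (hx : x ∈ M) (e : ∀ i, x i % 4 = y i % 4) (s : (∑ i, x i) % 8 = (∑ i, y i) % 8) : y ∈ M := by
  have e1 : y = x + fun i => 4 * ((y i - x i) / 4) := funext fun i => by have := e i; simp only [Pi.add_apply]; omega
  have e2 := congrArg (fun y : V => ∑ i, y i) e1
  simp only [Pi.add_apply, sum_add_distrib, ← mul_sum] at e2
  exact e1 ▸ add_mem hx (h.dd _ (by omega))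

theorem wt (hs : s ∈ CM M) : s.card % 4 = 0 ∧ s.card ≠ 4 := by
  obtain ⟨x, hx, e, rfl⟩ := hs
  rcases (cs x).eq_empty_or_nonempty with q | ⟨p, hp⟩
  · simp [q]
  have k : ∀ y ∈ M, (∀ i, y i ^ 2 = if i ∈ cs x then 4 else 0) → (cs x).card % 4 = 0 ∧ (cs x).card ≠ 4 := fun y hy q => by
    have h1 := h.nm y hy
    have h2 := h.n16 y hy
    rw [sqNorm, sum_congr rfl fun i _ => q i, sum_ind] at h1 h2
    omega
  have m : ∀ i, x i % 4 = ind 2 (cs x) i % 4 := fun i => by have := e i; simp only [ind, mem_cs]; split_ifs <;> omega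
  have := dvd_sum_sub (n := 4) (f := x) (g := ind 2 (cs x)) fun i => by have := m i; omega
  by_cases q : (∑ i, x i) % 8 = (∑ i, ind 2 (cs x) i) % 8
  · exact k _ (h.four hx m q) fun i => by simp only [ind]; split_ifs <;> rfl
  refine k (ind 2 (cs x) - Pi.single p 4) (h.four hx (fun i => ?_) ?_) fun i => ?_
  · have := m i
    simp only [Pi.sub_apply, Pi.single_apply]; split_ifs <;> omega
  · simp only [Pi.sub_apply, sum_sub_distrib, sum_pi_single', mem_univ, if_true]; omega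
  · simp only [Pi.sub_apply, Pi.single_apply, ind]; split_ifs <;> simp_all

theorem min (hs : s ∈ CM M) (n : s ≠ ∅) : 8 ≤ s.card := by
  have := h.wt hs
  have := (nonempty_iff_ne_empty.2 n).card_pos
  omega

theorem oct : {o | o ∈ CM M ∧ o.card = 8}.ncard ≤ 759 := by
  classical
  rw [Set.ncard_eq_toFinset_card']
  have := card_le_card (show ({o | o ∈ CM M ∧ o.card = 8}.toFinset.biUnion (powersetCard 5)) ⊆ powersetCard 5 univ from fun F hF => by
    obtain ⟨o, -, k⟩ := mem_biUnion.1 hF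
    exact mem_powersetCard.2 ⟨subset_univ _, (mem_powersetCard.1 k).2⟩)
  rw [card_biUnion fun o ho o' ho' n => disjoint_left.2 fun F k k' => ?_, sum_congr rfl fun o ho => by
    rw [card_powersetCard, (Set.mem_toFinset.1 ho).2], sum_const, card_powersetCard, card_univ, card_golayPt] at this
  · simp only [Nat.choose, smul_eq_mul] at this; omega
  simp only [mem_powersetCard, mem_coe, Set.mem_toFinset, Set.mem_ofPred_eq] at *
  have := card_le_card (subset_inter k.1 k'.1)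
  have := card_symmDiff_add o o'
  have := h.min (CM.sd ho.1 ho'.1) (mt symmDiff_eq_bot.1 n)
  omega

theorem c0 : {x : V | (∀ i, x i % 4 = 0) ∧ sqNorm x = 32}.ncard ≤ 2304 := by
  have : ∀ x : V, ∃ p q, (∀ i, x i % 4 = 0) ∧ sqNorm x = 32 → x p ^ 2 = 4 ^ 2 ∧ x q ^ 2 = 4 ^ 2 ∧ ∀ i, i ≠ p → i ≠ q → x i = 0 := fun x => by
    by_cases k : (∀ i, x i % 4 = 0) ∧ sqNorm x = 32
    swap
    · exact ⟨none, none, fun e => absurd e k⟩
    obtain ⟨p, -, hp⟩ := exists_four (x := x) (c := univ) (fun i _ => k.1 i) (k.2.symm ▸ by decide : 0 < sqNorm x) (k.2.symm ▸ by decide : sqNorm x < 64)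
    have e := sqNorm_erase x p
    obtain ⟨q, m, hq⟩ := exists_four (x := x) (c := univ.erase p) (fun i _ => k.1 i) (by omega) (by omega)
    have e' := sum_sq_erase x m
    exact ⟨p, q, fun _ => ⟨hp, hq, fun i a b => pow_eq_zero_iff two_ne_zero |>.1 (eq_of_sum_sq (c := (univ.erase p).erase q) (a := 0)
      (fun i _ => sq_nonneg _) (by omega) i (by simp [a, b]))⟩⟩
  choose p q k using this
  refine (Set.ncard_le_ncard_of_injOn (t := Set.univ) (fun x => ((p x, decide (0 < x (p x))), (q x, decide (0 < x (q x)))))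
    (fun _ _ => trivial) fun x hx y hy e => funext fun i => ?_).trans (by simp [Set.ncard_univ, card_golayPt])
  obtain ⟨a1, a2, a3⟩ := k x hx
  obtain ⟨b1, b2, b3⟩ := k y hy
  simp only [Prod.mk.injEq, decide_eq_decide] at e
  obtain ⟨⟨e1, e2⟩, e3, e4⟩ := e
  rw [← e1] at b1 b3 e2
  rw [← e3] at b2 b3 e4
  have := sq_cases _ a1; have := sq_cases _ a2; have := sq_cases _ b1; have := sq_cases _ b2
  by_cases c : i = p x
  · subst c; omega
  by_cases c' : i = q x
  · subst c'; omega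
  rw [a3 i c c', b3 i c c']

theorem c1 : {x | x ∈ M ∧ sqNorm x = 32 ∧ (∀ i, x i % 2 = 0) ∧ cs x ≠ ∅}.ncard ≤ 128 * 759 := by
  classical
  have f : {x | x ∈ M ∧ sqNorm x = 32 ∧ (∀ i, x i % 2 = 0) ∧ cs x ≠ ∅}.Finite := (finite_short 32).subset fun x hx => hx.2.1.le
  have k : ∀ x ∈ f.toFinset, x ∈ M ∧ (cs x ∈ CM M ∧ (cs x).card = 8) ∧ (∀ i ∈ cs x, x i ^ 2 = 2 ^ 2) ∧ ∀ i ∈ (cs x)ᶜ, x i ^ 2 = 0 := fun x hx => by
    obtain ⟨h1, h2, h3, h4⟩ := f.mem_toFinset.1 hx
    have m : cs x ∈ CM M := ⟨x, h1, h3, rfl⟩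
    have := h.min m h4
    have a : ∀ i ∈ cs x, 4 ≤ x i ^ 2 := fun i hi => four_le_sq (by have := h3 i; rw [mem_cs] at hi; omega)
    have := le_sum_sq a
    have := sqNorm_split x (cs x)
    have := sum_sq_nonneg x (cs x)ᶜ
    exact ⟨h1, ⟨m, by omega⟩, eq_of_sum_sq a (by omega), eq_of_sum_sq (fun i _ => sq_nonneg _) (by omega)⟩
  rw [Set.ncard_eq_toFinset_card _ f]
  refine (card_le_mul_card_image_of_maps_to (f := cs) (t := {o | o ∈ CM M ∧ o.card = 8}.toFinset) (fun x hx => Set.mem_toFinset.2 (k x hx).2.1)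
    128 fun o ho => ?_).trans (Nat.mul_le_mul_left _ (by rw [← Set.ncard_eq_toFinset_card']; exact h.oct))
  have c := (Set.mem_toFinset.1 ho).2
  obtain ⟨p, hp⟩ := card_pos.1 (show 0 < o.card by omega)
  refine (card_le_card_of_injOn (t := (o.erase p).powerset) (fun x => (o.erase p).filter fun i => x i = 2)
    (fun x _ => mem_coe.2 (mem_powerset.2 (filter_subset _ _))) fun x hx y hy e => ?_).trans (by rw [card_powerset, card_erase_of_mem hp, c]; decide)
  obtain ⟨hx, ex⟩ := mem_filter.1 (mem_coe.1 hx)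
  obtain ⟨hy, ey⟩ := mem_filter.1 (mem_coe.1 hy)
  obtain ⟨a1, -, a2, a3⟩ := k x hx
  obtain ⟨b1, -, b2, b3⟩ := k y hy
  rw [ex] at a2 a3
  rw [ey] at b2 b3
  have z : ∀ i, i ≠ p → x i = y i := fun i n => by
    by_cases q : i ∈ o
    · have := Finset.ext_iff.1 e i
      simp only [mem_filter, mem_erase, n, q, ne_eq, not_false_iff, true_and] at this
      have := sq_cases _ (a2 i q); have := sq_cases _ (b2 i q); omega
    · rw [pow_eq_zero_iff two_ne_zero |>.1 (a3 i (mem_compl.2 q)), pow_eq_zero_iff two_ne_zero |>.1 (b3 i (mem_compl.2 q))]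
  have := h.n16 _ (sub_mem a1 b1)
  rw [sqNorm_erase _ p, sum_eq_zero fun i hi => by simp [z i (mem_erase.1 hi).1], Pi.sub_apply] at this
  funext i
  by_cases q : i = p
  · subst q
    rcases sq_cases _ (a2 i hp) with a | a <;> rcases sq_cases _ (b2 i hp) with b | b <;> simp_all
  exact z i q

theorem c2 : {x | x ∈ M ∧ sqNorm x = 32 ∧ ∀ i, x i % 2 = 1}.ncard ≤ 24 * (CM M).ncard := by
  rcases {x | x ∈ M ∧ sqNorm x = 32 ∧ ∀ i, x i % 2 = 1}.eq_empty_or_nonempty with q | ⟨z, hz⟩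
  · simp [q]
  have : ∀ x : V, ∃ p, sqNorm x = 32 ∧ (∀ i, x i % 2 = 1) → x p ^ 2 = 3 ^ 2 ∧ ∀ i, i ≠ p → x i ^ 2 = 1 ^ 2 := fun x => by
    by_cases k : sqNorm x = 32 ∧ ∀ i, x i % 2 = 1
    swap
    · exact ⟨none, fun e => absurd e k⟩
    obtain ⟨p, -, hp⟩ := exists_lt_sq (x := x) (c := univ) (a := 1) (by rw [card_univ, card_golayPt, ← sqNorm, k.1]; decide)
    have := nine_le_sq (k.2 p) hp
    have := sqNorm_erase x p
    have a : ∀ i ∈ univ.erase p, 1 ≤ x i ^ 2 := fun i _ => one_le_sq (k.2 i)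
    have := le_sum_sq a
    have := card_erase_univ p
    exact ⟨p, fun _ => ⟨by omega, fun i n => eq_of_sum_sq a (by omega) i (by simp [n])⟩⟩
  choose p k using this
  refine (Set.ncard_le_ncard_of_injOn (t := Set.univ ×ˢ CM M) (fun x => (p x, cs (x - z))) (fun x hx => ⟨trivial, _, sub_mem hx.1 hz.1, fun i => by
    have := hx.2.2 i; have := hz.2.2 i; simp only [Pi.sub_apply]; omega, rfl⟩) fun x hx y hy e => funext fun i => ?_).trans
    (by simp [Set.ncard_prod, Set.ncard_univ, card_golayPt])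
  obtain ⟨a1, a2⟩ := k x hx.2
  obtain ⟨b1, b2⟩ := k y hy.2
  obtain ⟨e1, e2⟩ := Prod.ext_iff.1 e
  have := Finset.ext_iff.1 e2 i
  simp only [mem_cs, Pi.sub_apply] at this e1
  rw [← e1] at b1 b2
  have := hz.2.2 i
  by_cases c : i = p x
  · subst c; have := sq_cases _ a1; have := sq_cases _ b1; omega
  · have := sq_cases _ (a2 i c); have := sq_cases _ (b2 i c); omega

theorem count : (∃ x ∈ M, ∀ i, x i % 2 = 1) ∧ 2048 < (CM M).ncard := by
  have f : ∀ P : V → Prop, {x | x ∈ M ∧ sqNorm x = 32 ∧ P x}.Finite := fun P => (finite_short 32).subset fun x hx => hx.2.1.le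
  have := Set.ncard_le_ncard (show {x | x ∈ M ∧ sqNorm x = 32} ⊆ {x : V | (∀ i, x i % 4 = 0) ∧ sqNorm x = 32} ∪
    {x | x ∈ M ∧ sqNorm x = 32 ∧ (∀ i, x i % 2 = 0) ∧ cs x ≠ ∅} ∪ {x | x ∈ M ∧ sqNorm x = 32 ∧ ∀ i, x i % 2 = 1} from fun x hx => by
      have p := h.par x hx.1 none
      by_cases q : x none % 2 = 0
      · by_cases c : cs x = ∅
        · exact .inl (.inl ⟨fun i => by have := p i; have := mem_cs.not.1 (c ▸ notMem_empty i); omega, hx.2⟩)
        exact .inl (.inr ⟨hx.1, hx.2, fun i => p i ▸ q, c⟩)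
      exact .inr ⟨hx.1, hx.2, fun i => by have := p i; omega⟩)
    ((((finite_short 32).subset fun x hx => hx.2.le).union (f _)).union (f _))
  have := (Set.ncard_union_le _ _).trans (Nat.add_le_add_right ((Set.ncard_union_le _ _).trans (Nat.add_le_add h.c0 h.c1)) _) |>.trans' this
  have := h.cnt
  have := h.c2
  obtain ⟨x, hx⟩ := Set.nonempty_of_ncard_ne_zero (s := {x | x ∈ M ∧ sqNorm x = 32 ∧ ∀ i, x i % 2 = 1}) (by omega)
  exact ⟨⟨x, hx.1, hx.2.2⟩, by omega⟩

theorem code : ∃ σ : Equiv.Perm GolayPt, ∀ w : GolayPt → ZMod 2, w ∈ golayCode ↔ support₂ (w ∘ σ) ∈ CM M := by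
  let ε := Fintype.equivFinOfCardEq card_golayPt
  let C : Submodule (ZMod 2) (Fin 24 → ZMod 2) := AddSubgroup.toZModSubmodule 2 (.ofSub {w | support₂ (w ∘ ε) ∈ CM M}
    ⟨0, 0, zero_mem M, fun _ => rfl, by ext; simp [mem_support₂]⟩ fun u hu v hv => by
      rw [← sub_eq_add_neg]
      show support₂ (u ∘ ε - v ∘ ε) ∈ CM M
      rw [support₂_sub]; exact CM.sd hu hv)
  have m : ∀ w, w ∈ C ↔ support₂ (w ∘ ε) ∈ CM M := fun _ => Iff.rfl
  have n : ∀ w : Fin 24 → ZMod 2, hammingNorm w = (support₂ (w ∘ ε)).card := fun w => by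
    rw [hn_eq]; exact (card_equiv ε fun i => by simp [mem_support₂]).symm
  have o : ∀ v ∈ C, ∀ w ∈ C, ∑ i, v i * w i = 0 := fun v hv w hw => by
    have := hn_sub v w
    have := (h.wt hv).1
    have := (h.wt hw).1
    have := (h.wt (sub_mem hv hw)).1
    simp only [← n] at *
    rw [dot_eq_card, ZMod.natCast_eq_zero_iff]; omega
  have d1 : 2048 < 2 ^ Module.finrank (ZMod 2) C := by
    refine (h.count.2.trans_le (Nat.card_le_card_of_surjective (fun w : C => (⟨_, w.2⟩ : CM M)) fun s => ?_)).trans_eq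
      ((Module.natCard_eq_pow_finrank (K := ZMod 2)).trans (by rw [Nat.card_zmod]))
    obtain ⟨w, e⟩ := support₂_surj s.1
    have : w ∘ ε.symm ∘ ε = w := by simp
    exact ⟨⟨w ∘ ε.symm, (m _).2 (by rw [Function.comp_assoc, this, e]; exact s.2)⟩, Subtype.ext ((congrArg support₂ this).trans e)⟩
  have d2 := LinearMap.BilinForm.finrank_orthogonal (B := Matrix.toBilin' (1 : Matrix (Fin 24) (Fin 24) (ZMod 2)))
    (LinearMap.BilinForm.nondegenerate_toBilin'_of_det_ne_zero' _ (by simp)) C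
  have d3 := Submodule.finrank_mono (show C ≤ LinearMap.BilinForm.orthogonal (Matrix.toBilin' (1 : Matrix (Fin 24) (Fin 24) (ZMod 2))) C from
    fun w hw v hv => by simpa [Matrix.toBilin'_apply', dotProduct] using o v hv w hw)
  rw [Module.finrank_fin_fun] at d2
  have d4 : 11 < Module.finrank (ZMod 2) C := (Nat.pow_lt_pow_iff_right one_lt_two).1 d1
  obtain ⟨e, he, -⟩ := code_equiv (C := C) (by omega) o fun w hw k => n w ▸ h.min hw fun q => k (hammingNorm_eq_zero.1 (by rw [n, q]; rfl))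
  exact ⟨ε.trans e, he⟩

theorem mem_iff {z : V} (hz : z ∈ M) (z1 : ∀ i, z i % 4 = 1) :
    x ∈ M ↔ ∃ m, (∀ i, x i % 2 = m) ∧ (∑ i, x i) % 8 = 4 * m ∧ cs x ∈ CM M := by
  have s0 : ∀ y ∈ M, (∀ i, y i % 2 = 0) → (∑ i, y i) % 8 = 0 := fun y hy e => by
    have := h.nm _ (add_mem hz hy)
    have := h.nm _ hz
    have := h.nm _ hy
    have := dvd_sum_sub (n := 8) (f := fun i => z i * y i) (g := y) fun i => by
      rw [← sub_one_mul]; exact mul_dvd_mul (show 4 ∣ z i - 1 by have := z1 i; omega) (show 2 ∣ y i by have := e i; omega)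
    rw [sqNorm_add, dotInt] at *
    omega
  have s1 : (∑ i, z i) % 8 = 4 := by
    have := h.nm _ hz
    have := dvd_sum_sub (n := 16) (f := fun i => z i ^ 2) (g := fun i => 2 * z i - 1) fun i => by
      have : 4 ∣ z i - 1 := by have := z1 i; omega
      exact (mul_dvd_mul this this).trans (dvd_of_eq (by ring))
    simp only [sqNorm, sum_sub_distrib, ← mul_sum, sum_const, card_univ, card_golayPt, nsmul_eq_mul] at *
    omega
  refine ⟨fun hx => ?_, fun ⟨m, h1, h2, y, hy, e, h3⟩ => ?_⟩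
  · have p := h.par x hx none
    by_cases q : x none % 2 = 0
    · exact ⟨0, fun i => p i ▸ q, s0 x hx fun i => p i ▸ q, x, hx, fun i => p i ▸ q, rfl⟩
    have e : ∀ i, (x - z) i % 2 = 0 := fun i => by have := p i; have := z1 i; simp only [Pi.sub_apply]; omega
    have := s0 _ (sub_mem hx hz) e
    simp only [Pi.sub_apply, sum_sub_distrib] at this
    exact ⟨1, fun i => by have := p i; omega, by omega, _, sub_mem hx hz, e, Finset.ext fun i => by
      have := p i; have := z1 i; simp only [mem_cs, Pi.sub_apply]; omega⟩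
  have := s0 y hy e
  have c := fun i => mem_cs.symm.trans ((Finset.ext_iff.1 h3 i).trans mem_cs)
  obtain rfl | rfl : m = 0 ∨ m = 1 := by have := h1 none; omega
  · exact h.four hy (fun i => by have := c i; have := h1 i; have := e i; omega) (by omega)
  · exact h.four (add_mem hy hz) (fun i => by have := c i; have := h1 i; have := e i; have := z1 i; simp only [Pi.add_apply]; omega)
      (by simp only [Pi.add_apply, sum_add_distrib]; omega)

theorem leech {z : V} (hz : z ∈ M) (z1 : ∀ i, z i % 4 = 1) : ∃ σ : Equiv.Perm GolayPt, ∀ x : V, x ∘ σ ∈ M ↔ x ∈ leechLattice := by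
  obtain ⟨σ, k⟩ := h.code
  refine ⟨σ, fun x => (h.mem_iff hz z1).trans (Iff.trans (exists_congr fun m => ?_) mem_leech.symm)⟩
  obtain ⟨w, e⟩ := support₂_surj (cs x)
  have : cs (x ∘ σ) ∈ CM M ↔ cs x ∈ GC := by
    rw [← e, support_mem_GC, k, show cs (x ∘ σ) = support₂ (w ∘ σ) from Finset.ext fun i => by
      simpa [mem_support₂] using (Finset.ext_iff.1 e (σ i)).symm]
  rw [this, show ∑ i, (x ∘ σ) i = ∑ i, x i from Equiv.sum_comp σ x]
  exact ⟨fun ⟨a, b, c⟩ => ⟨fun i => by simpa using a (σ.symm i), b, c⟩, fun a => ⟨fun i => a.par _, a.sum, a.code⟩⟩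
end LM

open Matrix
variable {B : Matrix (Fin 24) (Fin 24) ℤ} {v : GolayPt → Fin 24 → ℤ}

/-- a frame: orthogonal vectors of norm 8, congruent modulo 2 -/
structure Frm (B : Matrix (Fin 24) (Fin 24) ℤ) (v : GolayPt → Fin 24 → ℤ) : Prop where
  dot : ∀ i j, v i ⬝ᵥ (B *ᵥ v j) = if i = j then 8 else 0
  cong : ∀ i j, r2 (v i) = r2 (v j)

def fv (B : Matrix (Fin 24) (Fin 24) ℤ) (v : GolayPt → Fin 24 → ℤ) : (Fin 24 → ℤ) →+ V :=
  .mk' (fun y i => v i ⬝ᵥ (B *ᵥ y)) fun _ _ => funext fun _ => by simp [mulVec_add]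

theorem r2_neg (x : Fin 24 → ℤ) : r2 (-x) = r2 x := r2_eq.2 fun i => by simp only [Pi.sub_apply, Pi.neg_apply]; omega

theorem exists_frm (h : NoRoot B) {x : Fin 24 → ℤ} (c : {y : Fin 24 → ℤ | y ⬝ᵥ (B *ᵥ y) = 8 ∧ ∀ i, (2 : ℤ) ∣ (x - y) i}.ncard = 48) :
    ∃ v, Frm B v := by
  classical
  have f := Set.finite_of_ncard_ne_zero (c.trans_ne (by decide))
  rw [Set.ncard_eq_toFinset_card _ f] at c
  have m : ∀ y, y ∈ f.toFinset ↔ y ⬝ᵥ (B *ᵥ y) = 8 ∧ r2 x = r2 y := fun y => by rw [f.mem_toFinset, r2_eq]; rfl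
  generalize f.toFinset = S at m c
  have n : ∀ y ∈ S, -y ∈ S ∧ toLex (-y) ≠ toLex y := fun y hy => ⟨by simpa [m, mulVec_neg, r2_neg] using hy, fun e => by
    have : y = 0 := funext fun i => by have := congrFun (toLex.injective e) i; simp at this ⊢; omega
    simpa [this] using ((m y).1 hy).1⟩
  have := card_filter_add_card_filter_not (s := S) fun x => toLex (-x) < toLex x
  rw [← card_nbij' (s := S.filter fun x => toLex (-x) < toLex x) (t := S.filter fun x => ¬ toLex (-x) < toLex x) Neg.neg Neg.neg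
    (fun y hy => by simp only [coe_filter, Set.mem_ofPred_eq, neg_neg] at *; exact ⟨(n y hy.1).1, hy.2.asymm⟩)
    (fun y hy => by simp only [coe_filter, Set.mem_ofPred_eq, neg_neg] at *; exact ⟨(n y hy.1).1, (not_lt.1 hy.2).lt_of_ne (n y hy.1).2.symm⟩)
    (fun _ _ => neg_neg _) fun _ _ => neg_neg _] at this
  let e := Fintype.equivOfCardEq (α := GolayPt) (β := S.filter fun x => toLex (-x) < toLex x) (by rw [card_golayPt, Fintype.card_coe]; omega)
  have k := fun i => mem_filter.1 (e i).2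
  have k' := fun i => (m _).1 (k i).1
  refine ⟨fun i => e i, fun i j => ?_, fun i j => (k' i).2.symm.trans (k' j).2⟩
  split_ifs with q
  · exact q ▸ (k' i).1
  rcases h.short (k' i).1.le (k' j).1.le ((k' i).2.symm.trans (k' j).2) with a | a | a
  exacts [absurd (e.injective (Subtype.ext a)).symm q, absurd (by have := (k j).2; rwa [a, neg_neg] at this) (k i).2.asymm, a.2.2]

theorem Frm.norm (F : Frm B v) (h : NoRoot B) (y : Fin 24 → ℤ) : sqNorm (fv B v y) = 8 * (y ⬝ᵥ (B *ᵥ y)) := by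
  let ε := (Fintype.equivFinOfCardEq card_golayPt).symm
  let P : Matrix (Fin 24) (Fin 24) ℤ := of (v ∘ ε)
  have e : P * (B * Pᵀ) = (8 : ℤ) • (1 : Matrix (Fin 24) (Fin 24) ℤ) := Matrix.ext fun i j =>
    (F.dot (ε i) (ε j)).trans (by simp [one_apply])
  have d : P.det ≠ 0 := fun q => by have := congrArg det e; rw [det_smul] at this; simp [q] at this
  have : B *ᵥ (Pᵀ *ᵥ (P *ᵥ (B *ᵥ y))) = (8 : ℤ) • B *ᵥ y := sub_eq_zero.1 (eq_zero_of_mulVec_eq_zero d (by
    rw [mulVec_sub, mulVec_mulVec _ B, mulVec_mulVec _ P, e, smul_mulVec, one_mulVec, mulVec_smul, sub_self]))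
  rw [← smul_eq_mul, ← dotProduct_smul, ← this, dotProduct_mulVec, ← mulVec_transpose, h.symm.eq, dotProduct_mulVec, vecMul_transpose,
    sqNorm, ← ε.sum_comp]
  exact sum_congr rfl fun i _ => sq _

theorem Frm.inj (F : Frm B v) (h : NoRoot B) : Function.Injective (fv B v) := (injective_iff_map_eq_zero _).2 fun y e => by_contra fun n => by
  have := h.pos y n
  have := F.norm h y
  simp only [e, sqNorm, Pi.zero_apply] at this
  simp at this; omega

theorem Frm.lm (F : Frm B v) (h : NoRoot B) (h4 : {x : Fin 24 → ℤ | x ⬝ᵥ (B *ᵥ x) = 4}.ncard = 196560) : LM (fv B v).range := by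
  refine ⟨?_, fun u hu => ?_, ?_, ?_, ?_⟩
  · rintro _ ⟨y, rfl⟩ i j
    have : 2 ∣ (v i - v j) ⬝ᵥ (B *ᵥ y) := dvd_sum fun k _ => (r2_eq.1 (F.cong i j) k).mul_right _
    rw [sub_dotProduct] at this
    show (v i ⬝ᵥ _) % 2 = (v j ⬝ᵥ _) % 2
    omega
  · have : ∀ k, 2 ∣ (∑ j, u j • v j) k := fun k => by
      have := dvd_sum_sub (n := 2) (f := fun j => u j * v j k) (g := fun j => u j * v none k) fun j => by
        rw [← mul_sub]; exact (r2_eq.1 (F.cong j none) k).mul_left _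
      rw [← sum_mul] at this
      simpa [Finset.sum_apply] using (dvd_sub_left ((Int.dvd_of_emod_eq_zero hu).mul_right _)).1 this
    choose y hy using this
    refine ⟨y, funext fun i => ?_⟩
    have := congrArg (fun w => v i ⬝ᵥ (B *ᵥ w)) (show ∑ j, u j • v j = (2 : ℤ) • y from funext hy)
    simp only [mulVec_sum, dotProduct_sum, mulVec_smul, dotProduct_smul, F.dot, smul_eq_mul, mul_ite, mul_zero, sum_ite_eq, mem_univ, if_true] at this
    show v i ⬝ᵥ _ = _
    omega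
  · rintro _ ⟨y, rfl⟩; have := h.even y; rw [F.norm h]; omega
  · rintro _ ⟨y, rfl⟩; have := h.two y; rw [F.norm h]; omega
  rw [← h4, ← Set.ncard_image_of_injective _ (F.inj h)]
  congr 1; ext x
  constructor
  · rintro ⟨⟨y, rfl⟩, e⟩; exact ⟨y, by rw [F.norm h] at e; show _ = _; omega, rfl⟩
  · rintro ⟨y, e, rfl⟩; exact ⟨⟨y, rfl⟩, by rw [F.norm h, show _ = _ from e]; rfl⟩

theorem leech_unique (h : NoRoot B) (h4 : {x : Fin 24 → ℤ | x ⬝ᵥ (B *ᵥ x) = 4}.ncard = 196560) (F : Frm B v) :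
    ∃ f : (Fin 24 → ℤ) ≃+ leechLattice, ∀ x : Fin 24 → ℤ, sqNorm ((f x : leechLattice) : V) = 8 * (x ⬝ᵥ (B *ᵥ x)) := by
  obtain ⟨_, ⟨y, rfl⟩, hy⟩ := (F.lm h h4).count.1
  have F' : Frm B fun i => if i ∈ cs (fv B v y) then -v i else v i := ⟨fun i j => by
    have := F.dot i j
    split_ifs at this ⊢ <;> simp_all [mulVec_neg], fun i j => by split_ifs <;> simp only [r2_neg, F.cong i j]⟩
  obtain ⟨σ, k⟩ := (F'.lm h h4).leech ⟨y, rfl⟩ fun i => by
    have := hy i
    have := mem_cs (x := fv B v y) (i := i)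
    show ((if i ∈ cs (fv B v y) then -v i else v i) ⬝ᵥ _) % 4 = 1
    split_ifs with q
    · rw [neg_dotProduct]; have := this.1 q; change (-fv B v y i) % 4 = 1; omega
    · have := this.not.1 q; change (fv B v y i) % 4 = 1; omega
  generalize (fun i => if i ∈ cs (fv B v y) then -v i else v i) = w at F' k
  have c : ∀ x : V, (x ∘ σ.symm) ∘ σ = x := fun x => by ext; simp
  refine ⟨AddEquiv.ofBijective (AddMonoidHom.mk' (fun y => ⟨fv B w y ∘ σ.symm, (k _).1 ⟨y, (c _).symm⟩⟩) fun a b => Subtype.ext (congrArg (· ∘ σ.symm) (map_add (fv B w) a b)))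
    ⟨fun a b e => F'.inj h (by rw [← c (fv B w a), ← c (fv B w b)]; exact congrArg (·.1 ∘ σ) e), fun x => ?_⟩, fun x => ?_⟩
  · obtain ⟨y, e⟩ := (k x).2 x.2
    exact ⟨y, Subtype.ext (show fv B w y ∘ σ.symm = x by rw [e]; ext; simp)⟩
  · exact (Equiv.sum_comp σ.symm fun i => fv B w x i ^ 2).trans (F'.norm h x)

end H28.LU
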