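import Mathlib

/-! Sets of involutions in which non-commuting members have product of a fixed prime order `p ≥ 5`. -/

set_option autoImplicit false

namespace H28
open Subgroup
universe u
variable {G : Type u} [Group G] {p : ℕ} {D : Set G} {a b c d e m y z w g : G}

set_option quotPrecheck false in
local notation "wd" => (by grind -ring -linarith -lia (acSteps := 20000))

set_option quotPrecheck false in
local notation "wc" => ((commute_iff_eq _ _).2 wd)

structure OP (p : ℕ) (D : Set G) : Prop where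
  pp : p.Prime
  p5 : 5 ≤ p
  sq : ∀ d ∈ D, d * d = 1
  ne : ∀ d ∈ D, d ≠ 1
  cnj : ∀ d ∈ D, ∀ e ∈ D, d * e * d ∈ D
  pr : ∀ a ∈ D, ∀ b ∈ D, Commute a b ∨ orderOf (a * b) = p

/-- a member whose product with another member is a member is central -/
def NoTri (p : ℕ) : Prop := ∀ (Q : Type u) [Group Q] [Finite Q] (E : Set Q), OP p E → ∀ a ∈ E, ∀ b ∈ E, a * b ∈ E →
  ∀ y ∈ E, Commute y a

theorem comm_of_pow {n : ℕ} (hn : n.Coprime (orderOf w)) (h : Commute z (w ^ n)) : Commute z w := by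
  obtain ⟨k, hk⟩ := exists_pow_eq_self_of_coprime hn
  exact hk ▸ h.pow_right k

theorem zp_two (h : z * z = 1) (hg : g ∈ zpowers z) : g = 1 ∨ g = z := by
  obtain ⟨k, rfl⟩ := hg
  obtain ⟨j, rfl | rfl⟩ := Int.even_or_odd' k <;> simp [zpow_add, zpow_mul, pow_two, h]

namespace OP
variable (h : OP p D)
include h

theorem inv (hd : d ∈ D) : d⁻¹ = d := inv_eq_of_mul_eq_one_right (h.sq d hd)

theorem conj_mem (hg : g ∈ closure D) : ∀ d ∈ D, g * d * g⁻¹ ∈ D := by
  induction hg using closure_induction'' with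
  | mem x hx => exact fun d hd => (h.inv hx).symm ▸ h.cnj x hx d hd
  | inv_mem x hx => exact fun d hd => by simpa [h.inv hx] using h.cnj x hx d hd
  | one => simp
  | mul x y _ _ hx hy => exact fun d hd => by simpa [mul_assoc] using hx _ (hy d hd)

theorem ord (ha : a ∈ D) (hb : b ∈ D) (n : ¬ Commute a b) : orderOf (a * b) = p := (h.pr a ha b hb).resolve_left n

theorem cop {n : ℕ} (h0 : n ≠ 0) (h4 : n < 5) : n.Coprime p :=
  ((Nat.Prime.coprime_iff_not_dvd h.pp).2 fun k => by have := Nat.le_of_dvd (by omega) k; have := h.p5; omega).symm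

theorem cpow (ha : a ∈ D) (hb : b ∈ D) (k : ¬ Commute a b) {n : ℕ} (h0 : n ≠ 0) (h4 : n < 5) (c : Commute z ((a * b) ^ n)) :
    Commute z (a * b) := comm_of_pow ((h.ord ha hb k).symm ▸ h.cop h0 h4) c

theorem mid (ha : a ∈ D) (hb : b ∈ D) (k : ¬ Commute a b) (c1 : Commute z a) (c2 : Commute z (b * a * b)) : Commute z b := by
  simpa [← mul_assoc, h.sq a ha] using c1.mul_right (h.cpow ha hb k two_ne_zero (by decide) (by
    simpa [pow_two, mul_assoc] using c1.mul_right c2))

theorem map {Q : Type u} [Group Q] (φ : G →* Q) (n : ∀ d ∈ D, φ d ≠ 1) : OP p (φ '' D) := by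
  refine ⟨h.pp, h.p5, ?_, ?_, ?_, ?_⟩
  · rintro _ ⟨d, hd, rfl⟩; rw [← map_mul, h.sq d hd, map_one]
  · rintro _ ⟨d, hd, rfl⟩; exact n d hd
  · rintro _ ⟨d, hd, rfl⟩ _ ⟨e, he, rfl⟩; exact ⟨_, h.cnj d hd e he, by simp⟩
  · rintro _ ⟨d, hd, rfl⟩ _ ⟨e, he, rfl⟩
    refine (h.pr d hd e he).elim (fun k => .inl (k.map φ)) fun k => ?_
    rw [← map_mul]
    refine ((Nat.dvd_prime h.pp).1 (k ▸ orderOf_map_dvd φ _)).imp_left fun q => ?_
    rw [orderOf_eq_one_iff, map_mul, mul_eq_one_iff_eq_inv] at q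
    exact q ▸ (Commute.refl _).inv_left

theorem comm_mul (ha : a ∈ D) (hb : b ∈ D) (c : Commute a b) (n : a ≠ b) (he : e ∈ D) (k : Commute e (a * b)) : Commute e a := by
  by_contra q
  have a2 := h.sq a ha
  have b2 := h.sq b hb
  have q' : ¬ Commute e b := fun r => q (by simpa [mul_assoc, b2] using k.mul_right r)
  obtain ⟨j, hj⟩ := h.pp.odd_of_ne_two (by have := h.p5; omega)
  have := pow_orderOf_eq_one (e * b)
  rw [h.ord he hb q', show e * b = e * a * (a * b) from wd, (k.mul_left ((Commute.refl a).mul_right c)).mul_pow,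
    ← h.ord he ha q, pow_orderOf_eq_one, h.ord he ha q, hj, pow_succ, pow_mul, c.mul_pow, pow_two, pow_two, a2, b2] at this
  exact n (by simpa [mul_eq_one_iff_eq_inv, h.inv hb] using this)

theorem key [Finite G] (N : NoTri.{u} p) (ha : a ∈ D) (hb : b ∈ D) (c : Commute a b) (n : a ≠ b) (hy : y ∈ D)
    (na : ¬ Commute y a) (nb : ¬ Commute y b) : Commute (a * y * a) (b * y * b) := by
  have a2 := h.sq a ha
  have b2 := h.sq b hb
  have y2 := h.sq y hy
  have c' := c.eq
  by_contra q
  have o := h.ord hy (h.cnj a ha _ (h.cnj b hb y hy)) fun k => q (by have := k.eq; exact wc)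
  obtain ⟨w, hw⟩ : ∃ w, w = y * (a * b) := ⟨_, rfl⟩
  obtain ⟨j, hj⟩ := h.pp.odd_of_ne_two (by have := h.p5; omega)
  have iy : ∀ n : ℕ, y * w ^ n = (w ^ n)⁻¹ * y := fun n => by
    rw [← inv_pow, ← (show SemiconjBy y w w⁻¹ from by rw [SemiconjBy, eq_inv_mul_iff_mul_eq, hw]; exact wd).pow_right n]
  obtain ⟨z, hz⟩ : ∃ z, z = w ^ p := ⟨_, rfl⟩
  have z2 : z * z = 1 := by
    rw [hz, ← (Commute.refl w).mul_pow, show w * w = y * (a * (b * y * b) * a) by rw [hw]; exact wd, ← o, pow_orderOf_eq_one]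
  have zy : Commute z y := by have := iy p; rw [← hz, inv_eq_of_mul_eq_one_right z2] at this; exact this.symm
  have zt : Commute z (a * b) := by
    rw [show a * b = y * w by rw [hw]; exact wd]; exact zy.mul_right (hz ▸ (Commute.refl w).pow_left p)
  have he : a * b * z ∈ D := by
    have := h.conj_mem (inv_mem (pow_mem (hw ▸ mul_mem (subset_closure hy) (mul_mem (subset_closure ha) (subset_closure hb)))
      (j + 1))) y hy
    rwa [← iy, inv_inv, mul_assoc, ← pow_add, show j + 1 + (j + 1) = 1 + p by omega, pow_add, pow_one, ← mul_assoc, ← hz,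
      show y * w = a * b by rw [hw]; exact wd] at this
  have et : Commute (a * b * z) (a * b) := (Commute.refl _).mul_left zt
  have za : Commute z a := by have := (h.comm_mul ha hb c n he et).eq; have := zt.eq; exact wc
  have zb : Commute z b := by have := (h.comm_mul hb ha c.symm n.symm he (c.eq ▸ et)).eq; have := zt.eq; exact wc
  have mc : ∀ {x}, Commute z x → x ∈ centralizer {z} := fun k => mem_centralizer_singleton_iff.2 k.symm.eq
  let z' : centralizer {z} := ⟨z, mc (Commute.refl z)⟩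
  have : (zpowers z').Normal := ⟨fun x hx g => by
    obtain ⟨k, rfl⟩ := hx
    rw [((show Commute g z' from Subtype.ext (mem_centralizer_singleton_iff.1 g.2)).zpow_right k).eq, mul_inv_cancel_right]
    exact ⟨k, rfl⟩⟩
  have E : OP p {d : centralizer {z} | d.1 ∈ D ∧ d ≠ z'} := ⟨h.pp, h.p5, fun d hd => Subtype.ext (h.sq _ hd.1),
    fun d hd k => h.ne _ hd.1 (congrArg Subtype.val k), fun d hd e he => ⟨h.cnj _ hd.1 _ he.1, fun k => he.2 (Subtype.ext (by
      have := congrArg Subtype.val k; have := h.sq _ hd.1; have := mem_centralizer_singleton_iff.1 d.2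
      simp only [coe_mul, z'] at *; exact wd))⟩,
    fun d hd e he => (h.pr _ hd.1 _ he.1).imp Subtype.ext fun k => by rw [← orderOf_coe]; exact k⟩
  have := (N _ _ (E.map (QuotientGroup.mk' (zpowers z')) fun d hd k => (zp_two (Subtype.ext z2) ((QuotientGroup.eq_one_iff d).1 k)).elim
    (E.ne d hd) hd.2) _ ⟨⟨a, mc za⟩, ⟨ha, fun k => na (by rw [show a = z from congrArg Subtype.val k]; exact zy.symm)⟩, rfl⟩
    _ ⟨⟨b, mc zb⟩, ⟨hb, fun k => nb (by rw [show b = z from congrArg Subtype.val k]; exact zy.symm)⟩, rfl⟩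
    ⟨⟨a, mc za⟩ * ⟨b, mc zb⟩ * z', ⟨he, fun k => n (by have : a * b * z = z := congrArg Subtype.val k; exact wd)⟩, by
      rw [map_mul, map_mul, QuotientGroup.mk'_apply _ z', (QuotientGroup.eq_one_iff z').2 (mem_zpowers z'), mul_one]⟩
    _ ⟨⟨y, mc zy⟩, ⟨hy, fun k => na (by rw [show y = z from congrArg Subtype.val k]; exact za)⟩, rfl⟩)
  rw [← commutatorElement_eq_one_iff_commute, ← map_commutatorElement, QuotientGroup.mk'_apply, QuotientGroup.eq_one_iff] at this
  have k : (y * a) ^ 4 = 1 := by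
    rcases zp_two (Subtype.ext z2) this with k | k <;> have := congrArg Subtype.val k <;>
      simp only [commutatorElement_def, coe_mul, coe_inv, h.inv ha, h.inv hy, z', coe_one] at this <;>
      rw [show (y * a) ^ 4 = y * a * y * a * (y * a * y * a) by simp [pow_succ, mul_assoc], this] <;> simp [z2]
  have := Nat.le_of_dvd (by decide) (h.ord hy ha na ▸ orderOf_dvd_of_pow_eq_one k)
  have := h.p5
  omega

/-- the graph of non-commuting members has no induced path `a - y - b - m` -/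
theorem p4 [Finite G] (N : NoTri.{u} p) (ha : a ∈ D) (hy : y ∈ D) (hb : b ∈ D) (hm : m ∈ D) (n1 : ¬ Commute y a)
    (n2 : ¬ Commute y b) (n3 : ¬ Commute b m) (c1 : Commute a b) (c2 : Commute a m) (c3 : Commute y m) : False := by
  have a2 := h.sq a ha
  have b2 := h.sq b hb
  have y2 := h.sq y hy
  have m2 := h.sq m hm
  have e1 := c1.eq
  have e2 := c2.eq
  have e3 := c3.eq
  have ny : ∀ n, n ≠ 0 → n < 5 → ¬ Commute y ((b * m) ^ n) := fun n h0 h4 k =>
    n2 (by simpa [mul_assoc, m2] using (h.cpow hb hm n3 h0 h4 k).mul_right c3)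
  have h2 := h.cnj b hb m hm
  have h3 : b * m * b * m * b ∈ D := by simpa [mul_assoc] using h.cnj b hb _ (h.cnj m hm b hb)
  have k1 := (h.key N ha hb c1 (fun e => n3 (e ▸ c2)) hy n1 n2).eq
  have k2 := (h.key N ha h2 ((c1.mul_right c2).mul_right c1) (fun e => n3 (by have := (e ▸ c2).eq; exact wc)) hy n1
    fun k => ny 2 (by decide) (by decide) (by simpa [pow_two, mul_assoc] using k.mul_right c3)).eq
  have k3 := (h.mid (z := a * y * a) (h.cnj b hb y hy) h3 (fun k => n2 (by have := k.eq; clear k1 k2; exact wc)) k1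
    (by rwa [show b * m * b * m * b * (b * y * b) * (b * m * b * m * b) = b * m * b * y * (b * m * b) by clear k1 k2; exact wd]))
  have k4 : Commute y (b * m * b * m * b) := by
    have c := (((c1.mul_right c2).mul_right c1).mul_right c2).mul_right c1
    have := (c.mul_left k3).mul_left c
    rwa [show a * (a * y * a) * a = y by simp only [← mul_assoc, a2, one_mul]; rw [mul_assoc, a2, mul_one]] at this
  exact ny 3 (by decide) (by decide) (by simpa [pow_succ, mul_assoc] using k4.mul_right c3)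

theorem rank3 [Finite G] (N : NoTri.{u} p) (gen : closure D = ⊤) (tr : ∀ a ∈ D, ∀ b ∈ D, ∃ g, g * a * g⁻¹ = b)
    (rk : ∀ y ∈ D, ∀ w ∈ D, ¬ Commute a y → ¬ Commute a w → ∃ g, Commute g a ∧ g * y * g⁻¹ = w)
    (ha : a ∈ D) (hm : m ∈ D) (hy : y ∈ D) (c1 : Commute a m) (c2 : Commute y m) (n1 : ¬ Commute y a) : False := by
  have cj : ∀ g, ∀ d ∈ D, g * d * g⁻¹ ∈ D := fun g => h.conj_mem (gen.ge trivial)
  have cc : ∀ g : G, ∀ {x y : G}, Commute (g * x * g⁻¹) (g * y * g⁻¹) ↔ Commute x y := fun g x y =>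
    ⟨fun k => by simpa [mul_assoc] using k.map (MulAut.conj g⁻¹), fun k => k.map (MulAut.conj g)⟩
  obtain ⟨w, hw, n2, n3⟩ : ∃ w ∈ D, ¬ Commute w a ∧ ¬ Commute w m := by
    by_contra! k
    have st : ∀ g ∈ closure D, ∀ v, (v ∈ D ∧ Commute v m ∧ ∀ x ∈ D, ¬ Commute x m → Commute v x) →
        (g * v * g⁻¹ ∈ D ∧ Commute (g * v * g⁻¹) m ∧ ∀ x ∈ D, ¬ Commute x m → Commute (g * v * g⁻¹) x) := fun g hg => by
      have s1 : ∀ u ∈ D, ∀ v, (v ∈ D ∧ Commute v m ∧ ∀ x ∈ D, ¬ Commute x m → Commute v x) →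
          (u * v * u ∈ D ∧ Commute (u * v * u) m ∧ ∀ x ∈ D, ¬ Commute x m → Commute (u * v * u) x) := fun u hu v ⟨hv, q1, q2⟩ => by
        have u2 := h.sq u hu
        by_cases c : Commute v u
        · rw [mul_assoc, c.eq, ← mul_assoc, u2, one_mul]; exact ⟨hv, q1, q2⟩
        have um : Commute u m := by_contra fun r => c (q2 u hu r)
        refine ⟨h.cnj u hu v hv, (um.mul_left q1).mul_left um, fun x hx r => ?_⟩
        have ux : Commute u x := by_contra fun s => c (h.mid hx hu (fun k => s k.symm) (q2 x hx r) (q2 _ (h.cnj u hu x hx) fun k =>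
          r (by
            have := (um.mul_left k).mul_left um
            rwa [show u * (u * x * u) * u = x by simp only [← mul_assoc, u2, one_mul]; rw [mul_assoc, u2, mul_one]] at this)))
        exact (ux.mul_left (q2 x hx r)).mul_left ux
      induction hg using closure_induction'' with
      | mem x hx => exact (h.inv hx).symm ▸ s1 x hx
      | inv_mem x hx => simpa [h.inv hx] using s1 x hx
      | one => simp
      | mul x y _ _ hx hy => exact fun d hd => by simpa [mul_assoc] using hx _ (hy d hd)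
    obtain ⟨g, rfl⟩ := tr a ha m hm
    have := (st g (gen.ge trivial) a ⟨ha, c1, fun x hx r => by_contra fun s => r (k x hx fun t => s t.symm)⟩).2.2 _ (cj g y hy)
    exact n1 ((cc g).1 (by_contra fun s => s (this s).symm))
  have n4 : ¬ Commute y w := fun k => h.p4 N hy ha hw hm (fun k => n1 k.symm) (fun k => n2 k.symm) n3 k c2 c1
  obtain ⟨g, ga, rfl⟩ := rk y hy w hw (fun k => n1 k.symm) fun k => n2 k.symm
  have sub : {z ∈ D | Commute z a ∧ Commute z (g * y * g⁻¹)} ⊆ {z ∈ D | Commute z a ∧ Commute z y} := fun z ⟨hz, q1, q2⟩ => by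
    have zm : Commute z m := by_contra fun k => h.p4 N hz hm hw ha (fun r => k r.symm) (fun k => n3 k.symm) n2 q2 q1 c1.symm
    exact ⟨hz, q1, by_contra fun k => h.p4 N hz hy hw hm (fun r => k r.symm) n4 n3 q2 zm c2⟩
  have := Set.eq_of_subset_of_ncard_le sub (Set.ncard_le_ncard_of_injOn (fun z => g * z * g⁻¹) (fun z ⟨hz, q1, q2⟩ =>
    ⟨cj g z hz, by have := (cc g).2 q1; rwa [ga.eq, mul_inv_cancel_right] at this, (cc g).2 q2⟩) fun _ _ _ _ e => by simpa using e)
  exact n3 (this.ge ⟨hm, c1.symm, c2.symm⟩).2.2.symm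

end OP
end H28
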