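import Cfsg.Agent.H28.RkA
import Cfsg.Agent.H13.RI8

/-! `{2,p}`-transpositions, `p ≥ 5`: members with the same commuting members agree modulo `O₂`. -/

set_option autoImplicit false

open Cfsg H18 Subgroup H9 H19 H21 MulAction Relation H13
open H5 (eq_one_of_odd A1 Suz prank_of_pair even_of_inv)

namespace H28
universe u
variable {G : Type u} [Group G] {p : ℕ} {D : Set G} {d x t : G}

theorem OP.odd (o : OP p D) : Odd p := o.pp.odd_of_ne_two (by have := o.p5; omega)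

theorem OP.ot (o : OP p D) : OT D :=
  ⟨⟨o.sq, o.ne, o.cnj, fun a ha b hb => (o.pr a ha b hb).imp_right fun k => .inl (by rw [k]; exact o.odd)⟩, fun a ha b hb k => by
    have a2 := o.sq a ha
    have b2 := o.sq b hb
    rcases o.pr a ha b hb with c | c
    · have := c.eq
      exact o.ne _ k wd[a2 & b2 & this]
    · have := Nat.le_of_dvd (by decide) (c ▸ orderOf_dvd_of_pow_eq_one (show (a * b) ^ 4 = 1 by
        simpa [pow_succ, mul_assoc] using o.sq _ k))
      have := o.p5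
      omega⟩

variable [Finite G]

theorem s51_false (h : S51 D d x) (ht : t ∈ Ec D d) (ne : t ≠ d) (o : OP p D) : False := by
  obtain ⟨r, m⟩ := h.rt_comp h.nD h.hd
  set a := QuotientGroup.mk (s := normalizer (elemComponentOf (CommAdj D) D d)) 1
  have fx : ∀ y ∈ D, y • a = a ↔ y ∈ Ec D d := fun y hy => by
    rw [coset_fix, inv_one, one_mul, mul_one, m y hy]
    refine ⟨fun k => ?_, fun k => RI.ccon_comm h.hd hy (Ec_comm (Ec_self h.hd) k)⟩
    clear hy
    induction k with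
    | refl => exact Ec_self h.hd
    | tail _ j i => exact h.cent ht ne j.2.1 ((i.2 _ j.2.1).2 j.2.2.2.symm)
  have xa : x • a ≠ a := fun e => h.od_nc h.hd h.hx h.o (Ec_comm (Ec_self h.hd) ((fx x h.hx).1 e))
  have da := (fx d h.hd).2 (Ec_self h.hd)
  have inv := fun y => master noU ⟨h.sq, h.ne, h.cnj, r.fix, r.uniq, fun _ ha _ hb => h.mulD ht ne ha hb⟩ ⟨h.hd, da⟩ h.hx xa y
    (h.genD.ge (mem_top y))
  have sa : SA G (G ⧸ normalizer (elemComponentOf (CommAdj D) D d)) := ⟨fun u u2 u1 => r.fix u (inv u u2 u1),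
    fun u u2 u1 => r.uniq u (inv u u2 u1), fun b => by
      induction b using QuotientGroup.induction_on with | _ g =>
      exact ⟨_, conj_sq (h.sq d h.hd) g, conj_ne (h.ne d h.hd) g, by simpa [a] using conj_smul_fix da g⟩⟩
  have d2 := h.sq d h.hd
  have td := Ec_comm ht (Ec_self h.hd)
  have rk := prank_of_pair (mem_top t) (mem_top d) (h.ne t ht.1) (h.ne d h.hd) ne (h.sq t ht.1) d2 td
  have := nml_top_iff.1 (pcore_nml (π := {2}ᶜ) (H := (⊤ : Subgroup G)))
  obtain ⟨Q, τ, A, -⟩ := sa.A1_of_cent (M := ⊤) ⟨d2, h.ne d h.hd, da⟩ (mem_top d) rk (fun l => xa (l (mem_top x))) (by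
    refine fun n hn => mem_C1.2 ?_
    have nO : ∀ y ∈ D, y ∉ O[{2}ᶜ]((⊤ : Subgroup G)) := fun y hy k =>
      h.ne y hy (eq_one_of_odd (H5.odd_order_of_mem odd_O k) (h.sq y hy))
    have := h.nml_two h.nD nO h.hd ht.1 (h.mulD ht ne ht.1 h.hd td ne) hn
    rw [h.hO, mem_bot] at this
    exact mul_inv_eq_iff_eq_mul.1 (by rw [← tt' d2 (n * d * n⁻¹), this, mul_one]))
  obtain ⟨K, V, W, Q₀, s, S⟩ := A.exists_suz
  have h2 := S.rank_iff.1 rk
  have od : ∀ u v : G, u ∈ D → v ∈ D → 2 < orderOf (u * v) → orderOf (u * v) = p := fun u v hu hv k => o.ord hu hv fun c => by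
    have := Nat.le_of_dvd two_pos (orderOf_dvd_of_pow_eq_one (show (u * v) ^ 2 = 1 by
      rw [c.mul_pow, pow_two, pow_two, o.sq u hu, o.sq v hv, one_mul]))
    omega
  have hτ := inv τ A.tt A.t_ne
  have p5 := o.p5
  have := od s τ (inv s S.ss S.s_ne) hτ
  obtain rfl : p = 5 := by obtain ⟨-, ⟨-, j⟩ | ⟨-, -, j⟩ | ⟨-, -, j, -⟩⟩ := concl S h2 <;> omega
  have := S.cycK
  obtain ⟨k, hk⟩ := IsCyclic.exists_ofOrder_eq_natCard (α := K)
  obtain ⟨n, -, hn⟩ := S.exists_pow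
  have c := S.card₀
  have ok := S.oddK
  have e : τ * (τ * k) = k := A.tt' k
  rw [← orderOf_coe] at hk
  have k3 : 2 < Nat.card K := by obtain ⟨j, hj⟩ := ok; omega
  have := od τ (τ * k) hτ (inv _ (by rw [← mul_assoc, S.invK k.2, inv_mul_cancel]) fun q => by
    have := Nat.le_of_dvd two_pos (orderOf_dvd_of_pow_eq_one (show (k : G) ^ 2 = 1 by rw [← e, q, mul_one, pow_two, A.tt]))
    omega) (by rw [e]; omega)
  rw [e, hk] at this
  have : 3 ∣ 2 ^ n := ⟨2, by omega⟩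
  exact absurd (Nat.prime_three.dvd_of_dvd_pow this) (by decide)

theorem OP.vlem (o : OP p D) (hd : d ∈ D) (hx : x ∈ D) (n : ¬ Commute d x) : ∃ N : Subgroup G, IsPGroup 2 N ∧ d ∉ N ∧
    (∀ t ∈ Ec D d, d * t ∈ N) ∧ ∀ g ∈ closure (Ec D d ∪ {x}), ∀ y ∈ N, g * y * g⁻¹ ∈ N := by
  have h := o.ot
  set X := closure (Ec D d ∪ {x})
  have dX : d ∈ X := subset_closure (.inl (Ec_self hd))
  have xX : x ∈ X := subset_closure (.inr rfl)
  have le : X ≤ closure D := Subgroup.closure_mono (Set.union_subset (fun _ k => k.1) (by simpa))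
  obtain ⟨s, s'⟩ := h.s51 (d := ⟨d, dX⟩) (x := ⟨x, xX⟩) (T := X.subtype ⁻¹' Ec D d) X.subtype X.subtype_injective
    (QuotientGroup.mk' (pCore 2 X)) (QuotientGroup.mk'_surjective _) (by
      rw [QuotientGroup.ker_mk', pCore_eq Nat.prime_two]; exact pcore_pi) (H1.pCore_quotient_eq_bot 2 X)
    (fun g => h.mem_nD (le g.2)) hd hx (h.od hd hx n) (fun _ k => k)
    (top_le_iff.1 (closure_closure_coe_preimage.ge.trans (Subgroup.closure_mono fun y hy =>
      hy.imp id fun e => Subtype.ext e)))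
  have E : OP p {y : X | IsConj ⟨x, xX⟩ y} := by
    have m : ∀ y : X, IsConj ⟨x, xX⟩ y → y.1 ∈ D := fun y hy => by
      obtain ⟨g, rfl⟩ := isConj_iff.1 hy; exact o.conj_mem (le g.2) x hx
    exact ⟨o.pp, o.p5, fun y hy => Subtype.ext (o.sq _ (m y hy)), fun y hy k => o.ne _ (m y hy) (congrArg Subtype.val k),
      fun y hy z hz => hz.trans (isConj_iff.2 ⟨y, by rw [inv_eq_of_mul_self (Subtype.ext (o.sq _ (m y hy)))]⟩),
      fun y hy z hz => (o.pr _ (m y hy) _ (m z hz)).imp Subtype.ext fun k => by rw [← orderOf_coe]; exact k⟩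
  have E' := E.map (QuotientGroup.mk' (pCore 2 X)) fun y hy => s.ne _ (MonoidHom.map_isConj _ hy)
  rw [show _ '' _ = {y | IsConj (QuotientGroup.mk' (pCore 2 X) ⟨x, xX⟩) y} from Set.ext fun y => ⟨by
    rintro ⟨y, hy, rfl⟩; exact MonoidHom.map_isConj _ hy, fun k => by
      obtain ⟨g, rfl⟩ := isConj_iff.1 k
      obtain ⟨g, rfl⟩ := QuotientGroup.mk'_surjective _ g
      exact ⟨_, isConj_iff.2 ⟨g, rfl⟩, by simp⟩⟩] at E'
  refine ⟨(pCore 2 X).map X.subtype, (H17.pCore_isPGroup X 2).map _, fun ⟨y, hy, e⟩ => s.ne _ s.hd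
    ((QuotientGroup.eq_one_iff _).2 (by rwa [show (⟨d, dX⟩ : X) = y from Subtype.ext e.symm])), fun t ht => ?_, ?_⟩
  · have tX : t ∈ X := subset_closure (.inl ht)
    have := by_contra fun k => s51_false s (s' ⟨t, tX⟩ ht) k E'
    exact ⟨_, QuotientGroup.eq.1 this.symm, by simp [o.inv hd]⟩
  · rintro g hg _ ⟨y, hy, rfl⟩
    exact ⟨_, Normal.conj_mem inferInstance y hy ⟨g, hg⟩, rfl⟩

theorem noTri : NoTri.{u} p := fun Q _ _ E o a ha b hb k y hy => by_contra fun n => by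
  obtain ⟨N, -, h1, h2, -⟩ := o.vlem ha hy fun c => n c.symm
  have a2 := o.sq a ha
  have b2 := o.sq b hb
  have c : Commute a b := o.ot.comm ha hb k
  have e1 : a * b * b = a := by rw [mul_assoc, b2, mul_one]
  have e2 : a * (a * b) = b := by rw [← mul_assoc, a2, one_mul]
  have f : ∀ z ∈ E, Commute z a → Commute z (a * b) := fun z hz q => o.comm_mul k hb (c.mul_left (Commute.refl b))
    (fun r => o.ne a ha (by simpa using r)) hz (e1.symm ▸ q)
  have m1 := h2 b ⟨hb, fun z hz => ⟨fun q => e2 ▸ (Commute.mul_right q (f z hz q)).eq, fun q => o.comm_mul ha k ((Commute.refl a).mul_right c)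
    (fun r => o.ne b hb (by simpa using r)) hz (e2.symm ▸ q)⟩⟩
  have m2 := h2 _ ⟨k, fun z hz => ⟨f z hz, o.comm_mul ha hb c (fun r => o.ne _ k (r ▸ a2)) hz⟩⟩
  exact h1 (by simpa [e2, e1] using mul_mem m1 m2)

theorem OP.ec (o : OP p D) (gen : closure D = ⊤) (hO : pCore 2 G = ⊥) (hd : d ∈ D) (ht : t ∈ Ec D d) : t = d := by
  have := Fact.mk Nat.prime_two
  have nD : ∀ g, g ∈ normalizer D := fun g => o.ot.mem_nD (gen.ge trivial)
  have d2 := o.sq d hd
  have t2 := o.sq t ht.1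
  have c : Commute d t := Ec_comm (Ec_self hd) ht
  have := (H17.le_pCore_of_isSubnormal (normalClosure_normal).isSubnormal (isPGroup_normalClosure_of_pairs (p := 2) (x := d * t)
    fun g => ?_)).trans hO.le (subset_normalClosure rfl)
  · rw [mem_bot, mul_eq_one_iff_inv_eq, o.inv hd] at this; exact this.symm
  have hx := o.conj_mem (gen.ge (mem_top g)) d hd
  have hs := Ec_conj (nD g) ht
  rw [show g * (d * t) * g⁻¹ = g * d * g⁻¹ * (g * t * g⁻¹) by group]
  generalize g * d * g⁻¹ = x at hx hs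
  generalize g * t * g⁻¹ = s at hs
  have x2 := o.sq x hx
  have s2 := o.sq s hs.1
  have c' : Commute x s := Ec_comm (Ec_self hx) hs
  by_cases q : Commute d x
  · have q1 : Commute x t := (ht.2 x hx).1 q.symm
    have q2 : Commute d s := (hs.2 d hd).1 q
    have q3 : Commute t s := (hs.2 t ht.1).1 q1.symm
    exact isPGroup_closure_pair (k := 1) wd[c.eq & d2 & t2] wd[c'.eq & x2 & s2] (by
      rw [pow_one, pow_two]; exact wd[c.eq & d2 & t2 & c'.eq & x2 & s2 & q.eq & q1.eq & q2.eq & q3.eq])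
  obtain ⟨N, hN, -, h2, h3⟩ := o.vlem hd hx q
  obtain ⟨j, hj⟩ := o.odd
  have mw : (d * x) ^ j ∈ closure (Ec D d ∪ {x}) := pow_mem (mul_mem (subset_closure (.inl (Ec_self hd))) (subset_closure (.inr rfl))) j
  have e : (d * x) ^ j * d * ((d * x) ^ j)⁻¹ = x := by
    have := (show SemiconjBy d (d * x)⁻¹ (d * x) by rw [SemiconjBy, mul_inv_rev, o.inv hd, o.inv hx, mul_assoc]).pow_right j
    rw [mul_assoc, ← inv_pow, this.eq, ← mul_assoc, ← pow_add, ← mul_right_inj (d * x), ← mul_assoc, ← pow_succ',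
      show j + j + 1 = p by omega, ← o.ord hd hx q, pow_orderOf_eq_one, mul_assoc, x2, mul_one, one_mul]
  generalize (d * x) ^ j = w at mw e
  refine hN.to_le ((closure_le _).2 ?_)
  rintro _ (rfl | rfl)
  · exact h2 t ht
  · have := h3 _ mw _ (h2 (w⁻¹ * s * w⁻¹⁻¹) (by
      have := Ec_conj (nD w⁻¹) hs
      rwa [show w⁻¹ * x * w⁻¹⁻¹ = d by rw [← e]; group] at this))
    rwa [show w * (d * (w⁻¹ * s * w⁻¹⁻¹)) * w⁻¹ = w * d * w⁻¹ * s by group, e] at this

end H28
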