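import Cfsg.Agent.H2.HSG

/-! A 60 × 60 integral Gram matrix `g` with `g² = 16 g + 16 J`: four copies of the roots
`eᵢ + eⱼ` of `D₆`. Through each index pass exactly two `0/1`-solutions of `g φ = 16 φ + 8`. -/

set_option linter.unusedSectionVars false

namespace H28
namespace Sg

open Finset

structure GM {D : Type*} [Fintype D] (g : D → D → ℤ) : Prop where
  card : Fintype.card D = 60
  symm : ∀ y z, g y z = g z y
  diag : ∀ y, g y y = 2
  le : ∀ y z, g y z ≤ 2
  row : ∀ y, ∑ z, g y z = 40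
  sq : ∀ y z, ∑ w, g y w * g z w = 16 * g y z + 16

/-- solutions -/
structure Sol {D : Type*} [Fintype D] (g : D → D → ℤ) (φ : D → ℤ) : Prop where
  zo : ∀ z, φ z = 0 ∨ φ z = 1
  eq : ∀ y, ∑ z, g y z * φ z = 16 * φ y + 8

variable {D : Type*} [Fintype D] {g : D → D → ℤ}

/-- class indicator -/
def ee (g : D → D → ℤ) (y z : D) : ℤ := if g y z = 2 then 1 else 0

theorem sum_c (h : GM g) (c : ℤ) : ∑ _z : D, c = 60 * c := by
  simp [h.card]

theorem GM.nonneg (h : GM g) (y z : D) : 0 ≤ g y z := by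
  have h1 : 0 ≤ ∑ w, (3 * g y w + 3 * g z w - 4) ^ 2 := sum_nonneg fun _ _ => sq_nonneg _
  have h2 : ∀ w, (3 * g y w + 3 * g z w - 4) ^ 2 = 9 * (g y w * g y w) + 9 * (g z w * g z w) +
      18 * (g y w * g z w) - 24 * g y w - 24 * g z w + 16 := fun w => by ring
  simp only [h2, sum_add_distrib, sum_sub_distrib, ← mul_sum, h.sq, h.row, h.diag, sum_c h] at h1
  omega

theorem GM.tri (h : GM g) (y z : D) : g y z = 0 ∨ g y z = 1 ∨ g y z = 2 := by
  have := h.nonneg y z; have := h.le y z; omega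

theorem GM.eqrow (h : GM g) {y z : D} (h2 : g y z = 2) (w : D) : g y w = g z w := by
  have h1 : ∑ w, (g y w - g z w) ^ 2 = 0 := by
    have h3 : ∀ w, (g y w - g z w) ^ 2 = g y w * g y w + g z w * g z w - 2 * (g y w * g z w) :=
      fun w => by ring
    simp only [h3, sum_add_distrib, sum_sub_distrib, ← mul_sum, h.sq, h.diag, h2]
    norm_num
  have := (sum_eq_zero_iff_of_nonneg fun _ _ => sq_nonneg _).1 h1 w (mem_univ _)
  have := pow_eq_zero_iff (two_ne_zero) |>.1 this
  omega

theorem GM.cls (h : GM g) (y : D) : ∑ z, ee g y z = 4 := by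
  have h1 : ∀ z, 2 * ee g y z = g y z * g y z - g y z := fun z => by
    unfold ee; rcases h.tri y z with e | e | e <;> simp [e]
  have h2 : ∑ z, 2 * ee g y z = 8 := by
    simp only [h1, sum_sub_distrib, h.sq, h.row, h.diag]; norm_num
  rw [← mul_sum] at h2; omega

theorem GM.line (h : GM g) {p q : D} (hpq : g p q = 0) :
    ∃ r, ∀ z, g p z + g q z + g r z = 2 := by
  have s2 : ∑ z, (2 - g p z - g q z) * (2 - g p z - g q z) = 48 := by
    have : ∀ z, (2 - g p z - g q z) * (2 - g p z - g q z) = g p z * g p z + g q z * g q z +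
        2 * (g p z * g q z) - 4 * g p z - 4 * g q z + 4 := fun z => by ring
    simp only [this, sum_add_distrib, sum_sub_distrib, ← mul_sum, h.sq, h.row, h.diag, hpq, sum_c h]
    norm_num
  have s1 : ∑ z, (2 - g p z - g q z) = 40 := by
    simp only [sum_sub_distrib, h.row, sum_c h]; norm_num
  have hr : ∃ r, g p r = 0 ∧ g q r = 0 := by
    by_contra hne
    push Not at hne
    have : ∑ z, (2 - g p z - g q z) * (2 - g p z - g q z) = ∑ z, (2 - g p z - g q z) := by
      refine sum_congr rfl fun z _ => ?_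
      have h1 := hne z
      have h2 : g p z = 2 → g q z = 0 := fun e => by
        rw [h.symm q z, ← h.eqrow e q, hpq]
      have h3 : g q z = 2 → g p z = 0 := fun e => by
        rw [h.symm p z, ← h.eqrow e p, h.symm, hpq]
      rcases h.tri p z with e | e | e <;> rcases h.tri q z with f | f | f <;> simp_all
    omega
  obtain ⟨r, h1, h2⟩ := hr
  refine ⟨r, fun z => ?_⟩
  have s3 : ∑ z, (2 - g p z - g q z - g r z) ^ 2 = 0 := by
    have : ∀ z, (2 - g p z - g q z - g r z) ^ 2 = (2 - g p z - g q z) * (2 - g p z - g q z) +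
        g r z * g r z - 4 * g r z + 2 * (g p z * g r z) + 2 * (g q z * g r z) := fun z => by ring
    simp only [this, sum_add_distrib, sum_sub_distrib, ← mul_sum, s2, h.sq, h.row, h.diag, h1, h2]
    norm_num
  have := (sum_eq_zero_iff_of_nonneg fun _ _ => sq_nonneg _).1 s3 z (mem_univ _)
  have := pow_eq_zero_iff (two_ne_zero) |>.1 this
  omega

/-- the fourth point of the star -/
theorem GM.star (h : GM g) {u v a b : D} (huv : g u v = 1) (hua : g u a = 0) (hva : g v a = 0)
    (hub : g u b = 0) (hvb : g v b = 0) (hab : g a b = 1) :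
    ∃ f, ∀ z, g f z = g u z + g v z + g a z + g b z - 2 := by
  obtain ⟨p, hp⟩ := h.line hua
  obtain ⟨q, hq⟩ := h.line hvb
  have h1 := hq u
  have h2 := hq a
  have h3 := hp q
  rw [h.symm v u, h.symm b u, h.symm q u] at h1
  rw [h.symm b a, h.symm q a] at h2
  obtain ⟨f, hf⟩ := h.line (show g p q = 0 by omega)
  exact ⟨f, fun z => by have := hp z; have := hq z; have := hf z; omega⟩

theorem GM.one_of (h : GM g) {u v a b : D} (huv : g u v = 1) (hua : g u a = 0) (hva : g v a = 0)
    (hub : g u b = 0) (hvb : g v b = 0) (hab : g a b ≠ 2) : g a b = 1 := by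
  rcases h.tri a b with e | e | e
  · obtain ⟨p, hp⟩ := h.line hua
    have h1 := hp b
    have h2 := hp v
    have h3 := h.eqrow (show g p b = 2 by omega) v
    rw [h.symm a v] at h2
    rw [h.symm b v] at h3
    omega
  · exact e
  · exact absurd e hab

theorem GM.three (h : GM g) {u v : D} (huv : g u v = 1) :
    ∃ a b c, (g u a = 0 ∧ g v a = 0) ∧ (g u b = 0 ∧ g v b = 0) ∧ (g u c = 0 ∧ g v c = 0) ∧
      g a b ≠ 2 ∧ g a c ≠ 2 ∧ g b c ≠ 2 := by
  have s : ∑ z, (1 - g u z) * (1 - g v z) = 12 := by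
    have : ∀ z, (1 - g u z) * (1 - g v z) = g u z * g v z - g u z - g v z + 1 := fun z => by ring
    simp only [this, sum_add_distrib, sum_sub_distrib, h.sq, h.row, huv, sum_c h]
    norm_num
  have key : ∀ a b : D, ∃ c, (g u c = 0 ∧ g v c = 0) ∧ g a c ≠ 2 ∧ g b c ≠ 2 := by
    intro a b
    by_contra hne
    push Not at hne
    have : ∑ z, (1 - g u z) * (1 - g v z) ≤ ∑ z, (ee g a z + ee g b z) := by
      refine sum_le_sum fun z _ => ?_
      have h1 := hne z
      have h2 : g u z = 2 → g v z = 1 := fun e => by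
        rw [h.symm v z, ← h.eqrow e v, huv]
      have h3 : g v z = 2 → g u z = 1 := fun e => by
        rw [h.symm u z, ← h.eqrow e u, h.symm, huv]
      unfold ee
      rcases h.tri u z with e | e | e <;> rcases h.tri v z with f | f | f <;>
        split_ifs <;> simp_all
    rw [sum_add_distrib, h.cls, h.cls] at this
    omega
  obtain ⟨a, ha, -, -⟩ := key u u
  obtain ⟨b, hb, hab, -⟩ := key a a
  obtain ⟨c, hc, hac, hbc⟩ := key a b
  exact ⟨a, b, c, ha, hb, hc, hab, hac, hbc⟩

theorem GM.exists_sol (h : GM g) {u v : D} (huv : g u v = 1) :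
    ∃ φ, Sol g φ ∧ φ u = 1 ∧ φ v = 1 := by
  obtain ⟨a, b, c, ⟨hua, hva⟩, ⟨hub, hvb⟩, ⟨huc, hvc⟩, hab, hac, hbc⟩ := h.three huv
  replace hab := h.one_of huv hua hva hub hvb hab
  replace hac := h.one_of huv hua hva huc hvc hac
  replace hbc := h.one_of huv hub hvb huc hvc hbc
  obtain ⟨f1, h1⟩ := h.star huv hua hva hub hvb hab
  obtain ⟨f2, h2⟩ := h.star huv hua hva huc hvc hac
  obtain ⟨f3, h3⟩ := h.star huv hub hvb huc hvc hbc
  have hd := h.diag
  have hs := h.symm
  have hvu : g v u = 1 := by rw [hs, huv]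
  have hau : g a u = 0 := by rw [hs, hua]
  have hbu : g b u = 0 := by rw [hs, hub]
  have hcu : g c u = 0 := by rw [hs, huc]
  have hav : g a v = 0 := by rw [hs, hva]
  have hbv : g b v = 0 := by rw [hs, hvb]
  have hcv : g c v = 0 := by rw [hs, hvc]
  have hba : g b a = 1 := by rw [hs, hab]
  have hca : g c a = 1 := by rw [hs, hac]
  have hcb : g c b = 1 := by rw [hs, hbc]
  set ψ : D → ℤ := fun z => 2 * g u z + 2 * g v z + g a z + g b z + g c z - 4 with hψ
  have s2 : ∑ z, ψ z * ψ z = 80 := by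
    have : ∀ z, ψ z * ψ z = 4 * (g u z * g u z) + 4 * (g v z * g v z) + g a z * g a z +
        g b z * g b z + g c z * g c z + 8 * (g u z * g v z) + 4 * (g u z * g a z) +
        4 * (g u z * g b z) + 4 * (g u z * g c z) + 4 * (g v z * g a z) +
        4 * (g v z * g b z) + 4 * (g v z * g c z) + 2 * (g a z * g b z) + 2 * (g a z * g c z) +
        2 * (g b z * g c z) - 16 * g u z - 16 * g v z - 8 * g a z - 8 * g b z - 8 * g c z + 16 :=
      fun z => by simp only [hψ]; ring
    simp only [this, sum_add_distrib, sum_sub_distrib, ← mul_sum, h.sq, h.row, hd, huv, hua, hub,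
      huc, hva, hvb, hvc, hab, hac, hbc, sum_c h]
    norm_num
  have hE : ∀ z, (ψ z = 2 ∧ ee g u z + ee g v z + ee g f1 z + ee g f2 z + ee g f3 z = 1) ∨
      ee g u z + ee g v z + ee g f1 z + ee g f2 z + ee g f3 z = 0 := by
    intro z
    have key : ∀ p, g p z = 2 → g u z = g p u ∧ g v z = g p v ∧ g a z = g p a ∧ g b z = g p b ∧
        g c z = g p c := fun p e =>
      ⟨by rw [hs u z, h.eqrow e], by rw [hs v z, h.eqrow e], by rw [hs a z, h.eqrow e],
        by rw [hs b z, h.eqrow e], by rw [hs c z, h.eqrow e]⟩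
    have k1 := key u
    have k2 := key v
    have k3 := key f1
    have k4 := key f2
    have k5 := key f3
    simp only [h1, h2, h3, hd, huv, hua, hub, huc, hva, hvb, hvc, hab, hac, hbc, hvu, hau, hbu, hcu,
      hav, hbv, hcv, hba, hca, hcb] at k1 k2 k3 k4 k5
    simp only [hψ, ee, h1, h2, h3]
    split_ifs <;> omega
  have s3 : ∑ z, (ψ z * ψ z - 4 * (ee g u z + ee g v z + ee g f1 z + ee g f2 z + ee g f3 z)) = 0 := by
    simp only [sum_sub_distrib, ← mul_sum, sum_add_distrib, s2, h.cls]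
    norm_num
  have s4 := (sum_eq_zero_iff_of_nonneg fun z _ => by
    rcases hE z with ⟨e1, e2⟩ | e2
    · rw [e1, e2]; norm_num
    · rw [e2]; simpa using mul_self_nonneg _).1 s3
  have h02 : ∀ z, ψ z = 0 ∨ ψ z = 2 := fun z => by
    rcases hE z with ⟨e1, -⟩ | e2
    · exact Or.inr e1
    · have := s4 z (mem_univ _)
      rw [e2] at this
      exact Or.inl (by simpa using this)
  have hg : ∀ y, ∑ z, g y z * ψ z = 16 * ψ y + 16 := by
    intro y
    have : ∀ z, g y z * ψ z = 2 * (g u z * g y z) + 2 * (g v z * g y z) + g a z * g y z +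
        g b z * g y z + g c z * g y z - 4 * g y z := fun z => by simp only [hψ]; ring
    simp only [this, sum_add_distrib, sum_sub_distrib, ← mul_sum, h.sq, h.row]
    simp only [hψ]; ring
  refine ⟨fun z => ψ z / 2, ⟨fun z => ?_, fun y => ?_⟩, ?_, ?_⟩
  · rcases h02 z with e | e <;> simp [e]
  · have h4 : ∀ z, ψ z = 2 * (ψ z / 2) := fun z => by rcases h02 z with e | e <;> simp [e]
    have h5 := hg y
    have : ∑ z, g y z * ψ z = 2 * ∑ z, g y z * (ψ z / 2) := by
      rw [mul_sum]; exact sum_congr rfl fun z _ => by rw [h4 z]; simp; ring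
    have := h4 y
    omega
  · simp [hψ, hd, hvu, hau, hbu, hcu]
  · simp [hψ, hd, huv, hav, hbv, hcv]

theorem Sol.sum (h : GM g) {φ : D → ℤ} (hφ : Sol g φ) : ∑ z, φ z = 20 := by
  have h1 : ∑ y, ∑ z, g y z * φ z = ∑ y, (16 * φ y + 8) := sum_congr rfl fun y _ => hφ.eq y
  rw [sum_comm] at h1
  simp only [← sum_mul, h.symm _ (_ : D), h.row, sum_add_distrib, ← mul_sum, sum_c h] at h1
  omega

theorem Sol.cls (h : GM g) {φ : D → ℤ} (hφ : Sol g φ) {y z : D} (e : g y z = 2) : φ y = φ z := by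
  have h1 := hφ.eq y
  have h2 := hφ.eq z
  simp only [h.eqrow e] at h1
  omega

/-- on the support all entries are positive -/
theorem Sol.pos (h : GM g) {φ : D → ℤ} (hφ : Sol g φ) {y z : D} (hy : φ y = 1) (hz : φ z = 1) :
    1 ≤ g y z := by
  have s : ∑ w, (φ w + ee g y w - g y w * φ w) = 0 := by
    simp only [sum_sub_distrib, sum_add_distrib, hφ.sum h, h.cls, hφ.eq, hy]; norm_num
  have := (sum_eq_zero_iff_of_nonneg fun w _ => by
    have := fun e => hφ.cls h (y := y) (z := w) e
    unfold ee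
    rcases h.tri y w with e | e | e <;> rcases hφ.zo w with f | f <;> simp_all).1 s z (mem_univ _)
  unfold ee at this
  rcases h.tri y z with e | e | e <;> simp_all

theorem Sol.unique (h : GM g) {φ ψ : D → ℤ} (hφ : Sol g φ) (hψ : Sol g ψ) {u v : D}
    (huv : g u v = 1) (h1 : φ u = 1) (h2 : φ v = 1) (h3 : ψ u = 1) (h4 : ψ v = 1) : φ = ψ := by
  by_contra hne
  have hw : ∃ w, ψ w = 1 ∧ φ w = 0 := by
    by_contra hw
    push Not at hw
    have s : ∑ w, (φ w - ψ w) = 0 := by rw [sum_sub_distrib, hφ.sum h, hψ.sum h]; rfl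
    have := (sum_eq_zero_iff_of_nonneg fun w _ => by
      have := hw w
      rcases hφ.zo w with f | f <;> rcases hψ.zo w with f' | f' <;> omega).1 s
    exact hne (funext fun w => by have := this w (mem_univ _); omega)
  obtain ⟨w, hw1, hw0⟩ := hw
  have s1 : ∑ z, φ z * ψ z ≤ 8 := by
    have := hφ.eq w
    rw [hw0] at this
    refine le_trans (sum_le_sum fun z _ => ?_) (this.le.trans (by norm_num))
    have := fun e => hψ.pos h hw1 (z := z) e
    have := h.nonneg w z
    rcases hφ.zo z with f | f <;> rcases hψ.zo z with f' | f' <;> simp_all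
  have s2 : ∑ z, (φ z + ψ z - φ z * ψ z + ee g u z + ee g v z) ≤ ∑ z, g u z * g v z := by
    refine sum_le_sum fun z _ => ?_
    have a1 := fun e => hφ.pos h h1 (z := z) e
    have a2 := fun e => hφ.pos h h2 (z := z) e
    have a3 := fun e => hψ.pos h h3 (z := z) e
    have a4 := fun e => hψ.pos h h4 (z := z) e
    have b1 : g u z = 2 → g v z = 1 := fun e => by
      rw [h.symm v z, ← h.eqrow e v, huv]
    have b2 : g v z = 2 → g u z = 1 := fun e => by
      rw [h.symm u z, ← h.eqrow e u, h.symm, huv]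
    unfold ee
    rcases h.tri u z with e | e | e <;> rcases h.tri v z with e' | e' | e' <;>
      rcases hφ.zo z with f | f <;> rcases hψ.zo z with f' | f' <;> simp_all
  simp only [sum_add_distrib, sum_sub_distrib, hφ.sum h, hψ.sum h, h.cls, h.sq, huv] at s2
  omega

/-- indicator of entry one -/
def nn (g : D → D → ℤ) (y z : D) : ℤ := if g y z = 1 then 1 else 0

theorem GM.sum_nn (h : GM g) (y : D) : ∑ z, nn g y z = 32 := by
  have h1 : ∀ z, nn g y z = g y z - 2 * ee g y z := fun z => by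
    unfold nn ee; rcases h.tri y z with e | e | e <;> simp [e]
  simp only [h1, sum_sub_distrib, ← mul_sum, h.row, h.cls]; norm_num

theorem Sol.sum_nn (h : GM g) {φ : D → ℤ} (hφ : Sol g φ) {y : D} (hy : φ y = 1) :
    ∑ z, nn g y z * φ z = 16 := by
  have h1 : ∀ z, nn g y z * φ z = g y z * φ z - 2 * ee g y z := fun z => by
    have := fun e => hφ.cls h (y := y) (z := z) e
    unfold nn ee; rcases h.tri y z with e | e | e <;> simp_all
  simp only [h1, sum_sub_distrib, ← mul_sum, hφ.eq, h.cls, hy]; norm_num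

theorem GM.two (h : GM g) (y : D) : ∃ φ ψ, φ ≠ ψ ∧ (Sol g φ ∧ φ y = 1) ∧ (Sol g ψ ∧ ψ y = 1) ∧
    ∀ χ, Sol g χ → χ y = 1 → χ = φ ∨ χ = ψ := by
  have hv : ∃ v, g y v = 1 := by
    by_contra hv
    push Not at hv
    have := h.sum_nn y
    simp [nn, hv] at this
  obtain ⟨v, hv⟩ := hv
  obtain ⟨φ, hφ, hy, -⟩ := h.exists_sol hv
  have hw : ∃ w, g y w = 1 ∧ φ w = 0 := by
    by_contra hw
    push Not at hw
    have h1 := hφ.sum_nn h hy
    have h2 : ∑ z, nn g y z * φ z = ∑ z, nn g y z := sum_congr rfl fun z _ => by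
      have := hw z
      unfold nn
      rcases hφ.zo z with f | f <;> split_ifs <;> simp_all
    rw [h2, h.sum_nn] at h1
    omega
  obtain ⟨w, hw, hw0⟩ := hw
  obtain ⟨ψ, hψ, hy', hw1⟩ := h.exists_sol hw
  have hne : φ ≠ ψ := fun e => by rw [e] at hw0; omega
  refine ⟨φ, ψ, hne, ⟨hφ, hy⟩, ⟨hψ, hy'⟩, fun χ hχ hy'' => ?_⟩
  by_contra hc
  push Not at hc
  have s : ∑ z, (nn g y z * φ z + nn g y z * ψ z + nn g y z * χ z) ≤ ∑ z, nn g y z := by
    refine sum_le_sum fun z _ => ?_
    have a1 := fun e e1 e2 => hne (hφ.unique h hψ (v := z) e hy e1 hy' e2)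
    have a2 := fun e e1 e2 => hc.1 (hχ.unique h hφ (v := z) e hy'' e1 hy e2)
    have a3 := fun e e1 e2 => hc.2 (hχ.unique h hψ (v := z) e hy'' e1 hy' e2)
    unfold nn
    split_ifs with e
    · rcases hφ.zo z with f | f <;> rcases hψ.zo z with f' | f' <;> rcases hχ.zo z with f'' | f'' <;>
        simp_all
    · simp
  simp only [sum_add_distrib, hφ.sum_nn h hy, hψ.sum_nn h hy', hχ.sum_nn h hy'', h.sum_nn] at s
  omega

end Sg
end H28
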