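import Cfsg.Agent.H28.SgA

/-! Every SRG(77,16,0,4) is the block graph of an S(3,6,22) on its 22 Hoffman cocliques
(Brouwer). -/

set_option linter.unusedSectionVars false

namespace H28
namespace Sg

open Finset H2 H2.S22 H2.HSG Cfsg

variable {V : Type*} [Fintype V] [DecidableEq V] {G : SimpleGraph V} [DecidableRel G.Adj]

theorem dl_val' {p : V → Prop} (x y : Subtype p) : dl (x : V) y = dl x y := by
  unfold dl; simp only [Subtype.ext_iff]; congr

theorem dl_comm' {β : Type*} (x y : β) : dl x y = dl y x := by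
  unfold dl; by_cases h : x = y
  · simp [h]
  · simp [h, Ne.symm h]

theorem A_zo (x y : V) : A G x y = 0 ∨ A G x y = 1 := by unfold A; split_ifs <;> simp

section loc
variable (hG : G.IsSRGWith 77 16 0 4) (v : V)
include hG

theorem aP (x : P G v) : A G v x = 1 := if_pos x.2
theorem aQ (d : Q G v) : A G v d = 0 := if_neg d.2.2
theorem aPP (x y : P G v) : A G x y = 0 := if_neg (no_tri hG x.2 y.2)

theorem deg16 (x : V) : ∑ u, A G x u = 16 := by rw [sum_deg, hG.regular.degree_eq]; rfl

theorem cP : Fintype.card (P G v) = 16 := by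
  have := deg16 hG v
  rw [split (G := G) v] at this
  simp only [A_self, aP hG, aQ hG, sum_const, card_univ, nsmul_eq_mul] at this
  omega

theorem cQ : Fintype.card (Q G v) = 60 := by
  have := split (G := G) v (fun _ => 1)
  simp only [sum_const, card_univ, nsmul_eq_mul, hG.card, cP hG] at this
  omega

theorem q2 (x y : P G v) : ∑ d : Q G v, A G x d * A G y d = 3 + 12 * dl x y := by
  have := srg_cn hG x y
  rw [split (G := G) v, dl_val'] at this
  simp only [aPP hG, A_comm G _ v, aP hG] at this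
  simp at this
  omega

theorem q1 (x : P G v) : ∑ d : Q G v, A G x d = 15 := by
  have := q2 hG v x x
  simpa [A_sq, dl] using this

theorem c1 (b : Q G v) : ∑ x : P G v, A G x b = 4 := by
  have := srg_cn hG v b
  rw [split (G := G) v] at this
  simp only [A_self, aP hG, aQ hG, dl, if_neg b.2.1.symm, A_comm G b] at this
  simpa using this

theorem c2 (b : Q G v) : ∑ d : Q G v, A G b d = 12 := by
  have := deg16 hG b
  rw [split (G := G) v, A_comm, aQ hG] at this
  have h := c1 hG v b
  simp only [A_comm G _ (b : V)] at h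
  omega

theorem pq (x : P G v) (b : Q G v) : ∑ d : Q G v, A G x d * A G b d = 4 - 4 * A G x b := by
  have := srg_cn hG x b
  have hne : (x : V) ≠ b := fun e => b.2.2 (e ▸ x.2)
  rw [split (G := G) v] at this
  simp only [aPP hG, A_comm G _ v, aQ hG, dl, if_neg hne] at this
  simp at this
  omega

theorem qq (b c : Q G v) : ∑ d : Q G v, A G b d * A G c d =
    12 * dl b c - 4 * A G b c + 4 - mm v b c := by
  have := srg_cn hG b c
  rw [split (G := G) v, dl_val'] at this
  simp only [A_comm G _ v, aQ hG] at this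
  have h2 : ∑ x : P G v, A G b x * A G c x = mm v b c :=
    sum_congr rfl fun x _ => by rw [A_comm G b, A_comm G c]
  rw [h2] at this
  push_cast at this
  omega

omit hG in
/-- the Gram matrix -/
noncomputable def gm (b c : Q G v) : ℤ := 4 * dl b c - 2 * A G b c + 2 - mm v b c

theorem sum_mm (b : Q G v) (f : Q G v → ℤ) :
    ∑ d, mm v b d * f d = ∑ x : P G v, A G x b * ∑ d : Q G v, A G x d * f d := by
  unfold mm
  simp only [sum_mul, mul_sum]
  rw [sum_comm]
  exact sum_congr rfl fun _ _ => sum_congr rfl fun _ _ => by ring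

theorem sum_gm (b : Q G v) (f : Q G v → ℤ) : ∑ d, gm v b d * f d =
    4 * f b - 2 * ∑ d : Q G v, A G b d * f d + 2 * ∑ d, f d -
      ∑ x : P G v, A G x b * ∑ d : Q G v, A G x d * f d := by
  have : ∀ d, gm v b d * f d = 4 * (dl b d * f d) - 2 * (A G b d * f d) + 2 * f d -
      mm v b d * f d := fun d => by unfold gm; ring
  simp only [this, sum_add_distrib, sum_sub_distrib, ← mul_sum, sum_dl, sum_mm hG]

theorem gB (b c : Q G v) : ∑ d : Q G v, gm v b d * A G c d = 12 - 6 * gm v b c := by
  rw [sum_gm hG, qq hG, c2 hG]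
  simp only [pq hG]
  have : ∀ x : P G v, A G x b * (4 - 4 * A G x c) = 4 * A G x b - 4 * (A G x b * A G x c) :=
    fun x => by ring
  simp only [this, sum_sub_distrib, ← mul_sum, c1 hG]
  unfold gm mm
  rw [A_comm G c b]
  ring

theorem gN (b : Q G v) (y : P G v) : ∑ d : Q G v, gm v b d * A G y d = 10 := by
  rw [sum_gm hG, q1 hG]
  simp only [mul_comm (A G b _), pq hG, q2 hG]
  have : ∀ x : P G v, A G x b * (3 + 12 * dl x y) = 3 * A G x b + 12 * (dl y x * A G x b) :=
    fun x => by rw [dl_comm' x y]; ring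
  simp only [this, sum_add_distrib, ← mul_sum, c1 hG, sum_dl]
  ring

theorem g1 (b : Q G v) : ∑ d : Q G v, gm v b d = 40 := by
  have := sum_gm hG v b (fun _ => 1)
  simp only [mul_one, c2 hG, q1 hG, ← sum_mul, c1 hG, sum_const, card_univ, cQ hG] at this
  rw [this]; norm_num

omit hG in
theorem gm_symm (b c : Q G v) : gm v b c = gm v c b := by
  unfold gm mm
  rw [dl_comm' b c, A_comm G b c]
  simp only [mul_comm]

theorem gm_GM : GM (gm (G := G) v) where
  card := cQ hG v
  symm := gm_symm v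
  diag b := by simp [gm, dl, A_self, mm, A_sq, c1 hG]
  le b c := by
    by_cases e : b = c
    · subst e; simp [gm, dl, A_self, mm, A_sq, c1 hG]
    · have h1 := A_zo (G := G) b c
      have h2 : 0 ≤ mm v b c := sum_nonneg fun x _ => by
        rcases A_zo (G := G) x b with e | e <;> rcases A_zo (G := G) x c with f | f <;> simp [e, f]
      simp only [gm, dl, if_neg e]
      omega
  row := g1 hG v
  sq b c := by
    rw [sum_congr rfl fun w _ => mul_comm (gm v b w) (gm v c w), sum_gm hG, g1 hG]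
    simp only [mul_comm (A G _ _) (gm v b _), gB hG, gN hG, ← sum_mul, c1 hG]
    ring

end loc

variable (G) in
/-- Hoffman cocliques, as `0/1` functions -/
structure Hof (φ : V → ℤ) : Prop where
  zo : ∀ z, φ z = 0 ∨ φ z = 1
  eq : ∀ y, ∑ z, A G y z * φ z = 6 - 6 * φ y

theorem Hof.adj {φ : V → ℤ} (h : Hof G φ) {x y : V} (hx : φ x = 1) (hxy : G.Adj x y) :
    φ y = 0 := by
  have h1 := h.eq x
  rw [hx] at h1
  have := (sum_eq_zero_iff_of_nonneg fun z _ => by
    rcases A_zo (G := G) x z with e | e <;> rcases h.zo z with f | f <;> simp [e, f]).1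
      (h1.trans (by norm_num)) y (mem_univ _)
  simpa [A, hxy] using this

section glob
variable (hG : G.IsSRGWith 77 16 0 4)
include hG

theorem Hof.sum {φ : V → ℤ} (h : Hof G φ) : ∑ z, φ z = 21 := by
  have h1 : ∑ y, ∑ z, A G y z * φ z = ∑ y, (6 - 6 * φ y) := sum_congr rfl fun y _ => h.eq y
  rw [sum_comm] at h1
  simp only [← sum_mul, A_comm G _ (_ : V), deg16 hG, sum_sub_distrib, ← mul_sum, sum_const,
    card_univ, hG.card] at h1
  norm_num at h1
  omega

theorem Hof.sol {φ : V → ℤ} (h : Hof G φ) {v : V} (hv : φ v = 1) :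
    Sol (gm (G := G) v) fun d => φ d := by
  have hP : ∀ x : P G v, φ x = 0 := fun x => h.adj hv x.2
  have s1 : ∑ d : Q G v, φ d = 20 := by
    have := h.sum hG
    rw [split (G := G) v] at this
    simp only [hP, hv, sum_const_zero] at this
    omega
  have s2 : ∀ x : P G v, ∑ d : Q G v, A G x d * φ d = 5 := fun x => by
    have := h.eq x
    rw [split (G := G) v] at this
    simp only [hP, hv, A_comm G _ v, aP hG, mul_zero, sum_const_zero] at this
    omega
  have s3 : ∀ b : Q G v, ∑ d : Q G v, A G b d * φ d = 6 - 6 * φ b := fun b => by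
    have := h.eq b
    rw [split (G := G) v] at this
    simp only [hP, hv, A_comm G _ v, aQ hG, mul_zero, sum_const_zero] at this
    omega
  refine ⟨fun z => h.zo z, fun b => ?_⟩
  rw [sum_gm hG, s1, s3]
  simp only [s2, ← sum_mul, c1 hG]
  ring

omit hG in
/-- extension of a local solution -/
noncomputable def ext (v : V) (φ : Q G v → ℤ) (u : V) : ℤ :=
  if h : u ≠ v ∧ ¬ G.Adj v u then φ ⟨u, h⟩ else if u = v then 1 else 0

omit hG in
theorem ext_v (v : V) (φ : Q G v → ℤ) : ext v φ v = 1 := by simp [ext]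

omit hG in
theorem ext_P (v : V) (φ : Q G v → ℤ) (x : P G v) : ext v φ x = 0 := by
  simp [ext, x.2, x.2.ne']

omit hG in
theorem ext_Q (v : V) (φ : Q G v → ℤ) (d : Q G v) : ext v φ d = φ d := by
  unfold ext; rw [dif_pos d.2]

theorem Sol.hof {v : V} {φ : Q G v → ℤ} (h : Sol (gm (G := G) v) φ) : Hof G (ext v φ) := by
  have s1 := h.sum (gm_GM hG v)
  have key : ∀ (f : Q G v → ℤ), ∑ b, f b * (16 * φ b + 8) =
      ∑ d, (∑ b, gm v d b * f b) * φ d := fun f => by
    simp only [← h.eq, mul_sum, sum_mul]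
    rw [sum_comm]
    exact sum_congr rfl fun d _ => sum_congr rfl fun b _ => by rw [gm_symm v b d]; ring
  have key2 : ∀ (f : Q G v → ℤ), ∑ b, f b * (16 * φ b + 8) =
      16 * ∑ b, f b * φ b + 8 * ∑ b, f b := fun f => by
    simp only [mul_sum, ← sum_add_distrib]
    exact sum_congr rfl fun d _ => by ring
  have s2 : ∀ x : P G v, ∑ d : Q G v, A G x d * φ d = 5 := fun x => by
    have h1 := key fun d => A G x d
    rw [key2] at h1
    simp only [gN hG, q1 hG, ← mul_sum, s1] at h1
    omega
  have s3 : ∀ b : Q G v, ∑ d : Q G v, A G b d * φ d = 6 - 6 * φ b := fun b => by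
    have h1 := key fun d => A G b d
    rw [key2] at h1
    have h2 : ∀ d, (12 - 6 * gm v d b) * φ d = 12 * φ d - 6 * (gm v b d * φ d) := fun d => by
      rw [gm_symm v d b]; ring
    simp only [gB hG, c2 hG, h2, sum_sub_distrib, ← mul_sum, s1, h.eq] at h1
    omega
  refine ⟨fun u => ?_, fun u => ?_⟩
  · obtain ⟨w, rfl⟩ := (dec_bij (G := G) v).2 u
    rcases w with _ | x | d
    · exact Or.inr (ext_v v φ)
    · exact Or.inl (ext_P v φ x)
    · exact (ext_Q v φ d).symm ▸ h.zo d
  · rw [split (G := G) v]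
    simp only [ext_v, ext_P, ext_Q, mul_zero, sum_const_zero]
    obtain ⟨w, rfl⟩ := (dec_bij (G := G) v).2 u
    rcases w with _ | x | d
    · simp [dec, A_self, aQ hG, ext_v]
    · simp [dec, A_comm G _ v, aP hG, ext_P, s2]
    · simp [dec, A_comm G _ v, aQ hG, ext_Q, s3]

theorem Hof.ext_eq {φ : V → ℤ} (h : Hof G φ) {v : V} (hv : φ v = 1) :
    ext (G := G) v (fun d => φ d) = φ := by
  funext u
  obtain ⟨w, rfl⟩ := (dec_bij (G := G) v).2 u
  rcases w with _ | x | d
  · exact (ext_v v _).trans hv.symm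
  · exact (ext_P v _ x).trans (h.adj hv x.2).symm
  · exact ext_Q v _ d

omit hG in
theorem hof_finite : Finite {φ : V → ℤ // Hof G φ} := by
  refine Finite.of_injective (fun φ => fun z => φ.1 z = 1) fun φ ψ e => Subtype.ext (funext fun z => ?_)
  have h1 : φ.1 z = 1 ↔ ψ.1 z = 1 := by rw [show (φ.1 z = 1) = (ψ.1 z = 1) from congrFun e z]
  rcases φ.2.zo z with a | a <;> rcases ψ.2.zo z with b | b <;> simp_all

end glob

variable (G) in
/-- the points -/
def Pt := {φ : V → ℤ // Hof G φ}

noncomputable instance : Fintype (Pt G) := @Fintype.ofFinite _ hof_finite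

noncomputable instance : DecidableEq (Pt G) := Classical.decEq _

variable (G) in
/-- the blocks -/
noncomputable def bk (x : V) : Finset (Pt G) := univ.filter fun φ => φ.1 x = 1

theorem bk_adj {x y : V} (h : G.Adj x y) : bk G x ∩ bk G y = ∅ := by
  ext φ
  simp only [bk, mem_inter, mem_filter, mem_univ, true_and, notMem_empty, iff_false, not_and]
  intro hx hy
  have := φ.2.adj hx h
  omega

theorem card_int (x y : V) : ((bk G x ∩ bk G y).card : ℤ) = ∑ φ : Pt G, φ.1 x * φ.1 y := by
  unfold bk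
  rw [← filter_and, card_filter]
  push_cast
  refine sum_congr rfl fun φ _ => ?_
  rcases φ.2.zo x with a | a <;> rcases φ.2.zo y with b | b <;> simp [a, b]

theorem card_bk' (x : V) : ((bk G x).card : ℤ) = ∑ φ : Pt G, φ.1 x := by
  unfold bk
  rw [card_filter]
  push_cast
  refine sum_congr rfl fun φ _ => ?_
  rcases φ.2.zo x with a | a <;> simp [a]

variable (hG : G.IsSRGWith 77 16 0 4)
include hG

theorem bk_two {x y : V} (hne : y ≠ x) (h : ¬ G.Adj x y) : (bk G x ∩ bk G y).card = 2 := by
  obtain ⟨φ, ψ, hne', ⟨hφ, h1⟩, ⟨hψ, h2⟩, hu⟩ := (gm_GM hG x).two ⟨y, hne, h⟩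
  obtain ⟨p, hp⟩ : ∃ p : Pt G, p.1 = ext x φ := ⟨⟨_, hφ.hof hG⟩, rfl⟩
  obtain ⟨q, hq⟩ : ∃ p : Pt G, p.1 = ext x ψ := ⟨⟨_, hψ.hof hG⟩, rfl⟩
  refine card_eq_two.2 ⟨p, q, fun e => hne' (funext fun d => ?_), ?_⟩
  · rw [← ext_Q x φ d, ← ext_Q x ψ d, ← hp, ← hq, e]
  · ext χ
    simp only [bk, mem_inter, mem_filter, mem_univ, true_and]
    rw [mem_insert, mem_singleton]
    constructor
    · rintro ⟨a, b⟩
      rcases hu _ (χ.2.sol hG a) b with e | e
      · exact Or.inl (Subtype.ext (by rw [hp, ← e]; exact (χ.2.ext_eq hG a).symm))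
      · exact Or.inr (Subtype.ext (by rw [hq, ← e]; exact (χ.2.ext_eq hG a).symm))
    · rintro (rfl | rfl)
      · rw [hp]; exact ⟨ext_v x φ, (ext_Q x φ ⟨y, hne, h⟩).trans h1⟩
      · rw [hq]; exact ⟨ext_v x ψ, (ext_Q x ψ ⟨y, hne, h⟩).trans h2⟩

theorem card_bk (x : V) : (bk G x).card = 6 := by
  have h1 : ∑ y, ((bk G x ∩ bk G y).card : ℤ) = 21 * (bk G x).card := by
    simp only [card_int]
    rw [sum_comm, card_bk', mul_sum]
    exact sum_congr rfl fun φ _ => by rw [← mul_sum, φ.2.sum hG, mul_comm]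
  rw [split (G := G) x] at h1
  have h2 : ∀ y : P G x, ((bk G x ∩ bk G y).card : ℤ) = 0 := fun y => by rw [bk_adj y.2]; rfl
  have h3 : ∀ y : Q G x, ((bk G x ∩ bk G y).card : ℤ) = 2 := fun y => by
    rw [bk_two hG y.2.1 y.2.2]; rfl
  simp only [h2, h3, inter_self, sum_const, card_univ, cQ hG] at h1
  norm_num at h1
  omega

theorem card_Pt : Fintype.card (Pt G) = 22 := by
  have h1 : ∑ x, ((bk G x).card : ℤ) = 21 * Fintype.card (Pt G) := by
    simp only [card_bk']
    rw [sum_comm]
    simp only [fun φ : Pt G => φ.2.sum hG, sum_const, card_univ]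
    simp [mul_comm]
  simp only [card_bk hG, sum_const, card_univ, hG.card] at h1
  norm_num at h1
  omega

theorem int_le {x y : V} (hne : x ≠ y) : (bk G x ∩ bk G y).card ≤ 2 := by
  by_cases h : G.Adj x y
  · rw [bk_adj h]; simp
  · rw [bk_two hG hne.symm h]

theorem bk_inj : Function.Injective (bk G) := by
  intro b d h
  by_contra hne
  have := int_le hG hne
  rw [h, inter_self, card_bk hG] at this
  omega

theorem adj_iff (x y : V) : G.Adj x y ↔ bk G x ∩ bk G y = ∅ := by
  refine ⟨bk_adj, fun h => ?_⟩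
  by_contra hn
  by_cases e : y = x
  · subst e
    have := card_bk hG y
    rw [inter_self] at h
    rw [h] at this
    simp at this
  · have := bk_two hG e hn
    rw [h] at this
    simp at this

theorem steiner77 : IsSteinerSystem 3 6 (Set.range (bk G)) := by
  refine ⟨by rintro _ ⟨b, rfl⟩; exact card_bk hG b, fun s hs => ?_⟩
  have huniq : ∀ s : Finset (Pt G), s.card = 3 → ∀ b d, s ⊆ bk G b → s ⊆ bk G d → b = d := by
    intro s hs b d h1 h2
    by_contra hne
    have := int_le hG hne
    have := card_le_card (subset_inter h1 h2)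
    omega
  have hex : ∃ b, s ⊆ bk G b := by
    have hU : (univ : Finset V).biUnion (fun b => powersetCard 3 (bk G b)) =
        powersetCard 3 (univ : Finset (Pt G)) := by
      refine eq_of_subset_of_card_le (fun t ht => ?_) ?_
      · obtain ⟨b, -, hb⟩ := mem_biUnion.1 ht
        exact mem_powersetCard.2 ⟨subset_univ _, (mem_powersetCard.1 hb).2⟩
      · rw [card_biUnion]
        · simp only [card_powersetCard, card_bk hG, card_univ, card_Pt hG, sum_const, hG.card]
          decide
        · intro b _ d _ hne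
          refine disjoint_left.2 fun t h1 h2 => hne ?_
          exact huniq t (mem_powersetCard.1 h1).2 b d (mem_powersetCard.1 h1).1
            (mem_powersetCard.1 h2).1
    have : s ∈ powersetCard 3 (univ : Finset (Pt G)) := mem_powersetCard.2 ⟨subset_univ _, hs⟩
    rw [← hU] at this
    obtain ⟨b, -, hb⟩ := mem_biUnion.1 this
    exact ⟨b, (mem_powersetCard.1 hb).1⟩
  obtain ⟨b, hb⟩ := hex
  refine ⟨bk G b, ⟨⟨b, rfl⟩, hb⟩, ?_⟩
  rintro _ ⟨⟨d, rfl⟩, hd⟩
  rw [huniq s hs d b hd hb]

end Sg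
end H28
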