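import Cfsg.Agent.H28.SL2

/-! In a special rank one group with elementary abelian unipotent subgroup of exponent `p`, `⟨a, b(a)⟩` is an image of `SL₂(p)`
with central kernel (`special_psl2Pair`); `IsPSL2PairOver k A B` gives `A ⊔ B ≅ SL₂(k)` or `PSL₂(k)`. -/

set_option autoImplicit false

namespace H28
open Cfsg

variable {G : Type*} [Group G] {A B : Subgroup G}

theorem ptn_conj (h : IsRankOnePair A B) {η a : G} (hA : cj η A = A) (hB : cj η B = B) (ha : a ∈ A) (ha1 : a ≠ 1) :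
    ptn A B (η * a * η⁻¹) = η * ptn A B a * η⁻¹ := by
  obtain ⟨h1, -, h3⟩ := ptn_spec h ha ha1
  refine ptn_eq h (hA.le (conj_mem_cj ha)) (by simpa [conj_eq_one_iff] using ha1) (hB.le (conj_mem_cj h1)) ?_
  rw [cj_mul, cj_mul, cj_mul, cj_mul, (cj_eq_iff.1 hA).symm, (cj_eq_iff.1 hB).symm, h3]

theorem mu_conj (h : IsRankOnePair A B) {η a : G} (hA : cj η A = A) (hB : cj η B = B) (ha : a ∈ A) (ha1 : a ≠ 1) :
    mu A B (η * a * η⁻¹) = η * mu A B a * η⁻¹ := by
  unfold mu; rw [ptn_conj h hA hB ha ha1]; group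

theorem bruhat_unique (h : IsRankOnePair A B) {n n' a a' : G} (hn : Swaps A B n) (hn' : Swaps A B n') (ha : a ∈ A)
    (ha' : a' ∈ A) (e : n * a = a' * n') : n = n' := by
  have h1 : a' = 1 := by
    refine r1_eq_one h ha' ?_
    have := congrArg (fun g => cj g A) e
    simp only [cj_mul, cj_of_mem ha, hn.1, hn'.1] at this
    exact this.symm
  rw [h1, one_mul] at e
  have h2 : a = 1 := by
    refine r1_eq_one h ha ?_
    have : a = n⁻¹ * n' := by rw [← e]; group
    rw [this, cj_mul, hn'.2, hn.inv.1]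
  rw [← e, h2, mul_one]

theorem Swaps.mul {n n' : G} (hn : Swaps A B n) (hn' : Swaps A B n') : cj (n * n') A = A ∧ cj (n * n') B = B := by
  rw [cj_mul, cj_mul, hn'.1, hn'.2, hn.1, hn.2]; exact ⟨rfl, rfl⟩

theorem sl2_center {k : Type*} [Field k] {g : SL2 k} (hg : g ∈ Subgroup.center (SL2 k)) : g = 1 ∨ g = -1 := by
  have h1 := Subgroup.mem_center_iff.1 hg (xU 1)
  have h2 := Subgroup.mem_center_iff.1 hg (xL 1)
  have a1 := congrArg (fun g : SL2 k => g.1 0 0) h1
  have a2 := congrArg (fun g : SL2 k => g.1 0 1) h1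
  have a3 := congrArg (fun g : SL2 k => g.1 0 0) h2
  simp [sl2_mul_val, Matrix.mul_apply] at a1 a2 a3
  have hd := sl2_det g
  have a4 : g.1 1 1 = g.1 0 0 := by linear_combination a2
  rw [a1, a4, mul_zero, sub_zero] at hd
  rcases mul_self_eq_one_iff.1 hd with h | h
  · left; apply sl2_ext <;> simp [*]
  · right; apply sl2_ext <;> simp [*]

theorem psl2Pair_equiv {k : Type*} [Field k] (h : IsPSL2PairOver k A B) :
    Nonempty (↥(A ⊔ B) ≃* SL2 k) ∨ Nonempty (↥(A ⊔ B) ≃* Matrix.ProjectiveSpecialLinearGroup (Fin 2) k) := by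
  obtain ⟨φ, hr, hk, -, -⟩ := h
  rw [← hr]
  by_cases hb : φ.ker = ⊥
  · left
    exact ⟨(MonoidHom.ofInjective ((MonoidHom.ker_eq_bot_iff φ).1 hb)).symm⟩
  · right
    have : φ.ker = Subgroup.center (SL2 k) := by
      refine le_antisymm hk fun g hg => ?_
      obtain ⟨n, hn, hn1⟩ := exists_ne_one hb
      rcases sl2_center hg with rfl | rfl
      · exact one_mem _
      · rcases sl2_center (hk hn) with rfl | rfl
        · exact absurd rfl hn1
        · exact hn
    exact ⟨(QuotientGroup.quotientKerEquivRange φ).symm.trans (QuotientGroup.quotientMulEquivOfEq this)⟩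

section prime
variable {p : ℕ} [Fact p.Prime]

theorem pow_val_add {a : G} (ha : a ^ p = 1) (s t : ZMod p) : a ^ (s + t).val = a ^ s.val * a ^ t.val := by
  rw [ZMod.val_add, ← pow_add, ← pow_eq_pow_mod _ ha]

theorem pow_val_mul {a : G} (ha : a ^ p = 1) (s t : ZMod p) : a ^ (s * t).val = (a ^ s.val) ^ t.val := by
  rw [ZMod.val_mul, ← pow_mul, ← pow_eq_pow_mod _ ha]

theorem pow_val_eq_one {a : G} (ha : a ^ p = 1) (ha1 : a ≠ 1) {t : ZMod p} (h : a ^ t.val = 1) : t = 0 := by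
  have := orderOf_eq_prime ha ha1
  rw [← orderOf_dvd_iff_pow_eq_one, this] at h
  exact (ZMod.val_eq_zero t).1 (Nat.eq_zero_of_dvd_of_lt h (ZMod.val_lt t))

theorem special_psl2Pair (hs : IsSpecialRankOnePair A B) (hA : IsElementaryAbelian p A) {a : G} (ha : a ∈ A)
    (ha1 : a ≠ 1) : IsPSL2PairOver (ZMod p) (Subgroup.zpowers a) (Subgroup.zpowers (ptn A B a)) := by
  have hap := hA.2 a ha
  set x : ZMod p → G := fun t => a ^ t.val with hx
  have xadd : ∀ s t, x (s + t) = x s * x t := pow_val_add hap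
  have xmul : ∀ s t, x (s * t) = x s ^ t.val := pow_val_mul hap
  have x0 : x 0 = 1 := by simp [hx]
  have x1 : x 1 = a := by simp [hx, ZMod.val_one]
  have xneg : ∀ t, x (-t) = (x t)⁻¹ := fun t => by rw [eq_inv_iff_mul_eq_one, ← xadd, neg_add_cancel, x0]
  have xA : ∀ t, x t ∈ A := fun t => A.pow_mem ha _
  have xne : ∀ t, t ≠ 0 → x t ≠ 1 := fun t ht h => ht (pow_val_eq_one hap ha1 h)
  set W : ZMod p → G := fun t => mu A B (x t) with hW
  set w := mu A B a with hw
  have W1 : W 1 = w := by simp only [hW, x1, hw]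
  have Wsw : ∀ t, t ≠ 0 → Swaps A B (W t) := fun t ht => mu_swaps hs (xA t) (xne t ht)
  have wsw : Swaps A B w := mu_swaps hs ha ha1
  have Wneg : ∀ t, t ≠ 0 → W (-t) = (W t)⁻¹ := fun t ht => by
    simp only [hW, xneg]; exact mu_inv hs (xA t) (xne t ht)
  -- squares of the `μ`s centralise
  have musq : ∀ c ∈ A, c ≠ 1 → Commute (mu A B c * mu A B c) c := by
    intro c hc hc1
    have e1 := mu_conj_left hs hc hc1
    have e2 := mu_conj_right hs hc hc1
    have : mu A B c * mu A B c * c * (mu A B c * mu A B c)⁻¹ = c := by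
      calc _ = mu A B c * (mu A B c * c * (mu A B c)⁻¹) * (mu A B c)⁻¹ := by group
        _ = (mu A B c * ptn A B c * (mu A B c)⁻¹)⁻¹ := by rw [e1]; group
        _ = c := by rw [e2, inv_inv]
    rw [mul_inv_eq_iff_eq_mul] at this
    exact this
  have Wsq : ∀ t, t ≠ 0 → ∀ u, Commute (W t * W t) (x u) := by
    intro t ht u
    rw [show u = t * (u / t) by field_simp, xmul]
    exact (musq _ (xA t) (xne t ht)).pow_right _
  have wsq : ∀ u, Commute (w * w) (x u) := by rw [← W1]; exact Wsq 1 one_ne_zero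
  have winv : ∀ u, w⁻¹ * x u * w = w * x u * w⁻¹ := by
    intro u
    calc _ = w⁻¹ * (x u * (w * w)) * w⁻¹ := by group
      _ = _ := by rw [← (wsq u).eq]; group
  have hptn : ∀ t, t ≠ 0 → ptn A B (x t) = w * x (-t⁻¹) * w⁻¹ := by
    intro t ht
    have h1 := pm_pow hs hA.1 t.val a ha (xne t ht) w wsw
    rw [pm_mu_self hs ha ha1] at h1
    have h2 := (pm_spec hs.1 wsw (xA t) (xne t ht)).1
    have h3 : pm A B w (x t) = x (-t⁻¹) := by
      have := pow_val_mul (hA.2 _ h2) t t⁻¹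
      rw [mul_inv_cancel₀ ht, ZMod.val_one, pow_one] at this
      rw [this, h1, xneg, inv_pow]
    rw [← winv, ← h3]; unfold pm; group
  have Weq : ∀ t, t ≠ 0 → W t = x t * (w * x t⁻¹ * w⁻¹) * x t := by
    intro t ht
    simp only [hW]; unfold mu; rw [hptn t ht, xneg]; group
  have Weq' : ∀ t, t ≠ 0 → W t = (w * x t⁻¹ * w⁻¹) * x t * (w * x t⁻¹ * w⁻¹) := by
    intro t ht
    simp only [hW]; unfold mu; rw [sp_braid hs (xA t) (xne t ht), hptn t ht, xneg]; group
  have Wx : ∀ t, t ≠ 0 → ∀ u, W t * x u * (W t)⁻¹ = w * x (u / t ^ 2) * w⁻¹ := by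
    intro t ht u
    have e := mu_conj_left hs (xA t) (xne t ht)
    rw [hptn t ht, xneg] at e
    rw [show u = t * (u / t) by field_simp, xmul, ← conj_pow, e,
      show t * (u / t) / t ^ 2 = t⁻¹ * (u / t) by field_simp, xmul, ← conj_pow]
    congr 1; group
  obtain ⟨h, hh⟩ : ∃ h : ZMod p → G, ∀ t, h t = W t * w⁻¹ := ⟨_, fun _ => rfl⟩
  have hW' : ∀ t, W t = h t * w := fun t => by simp [hh]
  have hnorm : ∀ t, t ≠ 0 → cj (h t) A = A ∧ cj (h t) B = B := fun t ht => by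
    rw [hh]; exact (Wsw t ht).mul wsw.inv
  have h_x : ∀ u t, u ≠ 0 → h u * x t = x (u ^ 2 * t) * h u := by
    intro u t hu
    have e := Wx u hu (u ^ 2 * t)
    rw [show u ^ 2 * t / u ^ 2 = t by field_simp, ← winv] at e
    calc h u * x t = W u * (w⁻¹ * x t * w) * w⁻¹ := by simp only [hh]; group
      _ = (W u * W u) * x (u ^ 2 * t) * (W u)⁻¹ * w⁻¹ := by rw [← e]; group
      _ = _ := by rw [(Wsq u hu _).eq]; simp only [hh]; group
  have hconj : ∀ u t, u ≠ 0 → t ≠ 0 → h u * W t * (h u)⁻¹ = W (u ^ 2 * t) := by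
    intro u t hu ht
    simp only [hW]
    rw [← mu_conj hs.1 (hnorm u hu).1 (hnorm u hu).2 (xA t) (xne t ht), h_x u t hu]; congr 1; group
  have wcomm : Commute (w * w) w := (Commute.refl w).mul_left (Commute.refl w)
  have wsqW : ∀ t, t ≠ 0 → Commute (w * w) (W t) := fun t ht => by
    rw [Weq t ht]
    exact ((wsq _).mul_right ((wcomm.mul_right (wsq _)).mul_right wcomm.inv_right)).mul_right (wsq _)
  have wsqh : ∀ t, t ≠ 0 → Commute (w * w) (h t) := fun t ht => by
    rw [hh]; exact (wsqW t ht).mul_right wcomm.inv_right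
  have w_h : ∀ u, u ≠ 0 → w * h u = h u⁻¹ * w := by
    intro u hu
    have e : w * W u * w⁻¹ = W u⁻¹ := by
      rw [Weq u hu, Weq' _ (inv_ne_zero hu), inv_inv]
      calc _ = (w * x u * w⁻¹) * ((w * w) * x u⁻¹) * (w * w)⁻¹ * (w * x u * w⁻¹) := by group
        _ = _ := by rw [(wsq _).eq]; group
    simp only [hh]; rw [← e]; group
  -- the `h t` commute with each other
  have hcent : ∀ z : G, cj z A = A → cj z B = B → Commute z a → ∀ t, t ≠ 0 → Commute z (h t) := by
    intro z hzA hzB hza t ht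
    have k : ∀ t, t ≠ 0 → Commute z (W t) := by
      intro t ht
      have e := mu_conj hs.1 hzA hzB (xA t) (xne t ht)
      rw [(hza.pow_right t.val).eq, mul_inv_cancel_right, eq_comm, mul_inv_eq_iff_eq_mul] at e
      exact e
    rw [hh]
    exact (k t ht).mul_right (by rw [← W1]; exact (k 1 one_ne_zero).inv_right)
  obtain ⟨g, hg⟩ := IsCyclic.exists_monoid_generator (α := (ZMod p)ˣ)
  have hgen : ∀ t : ZMod p, t ≠ 0 → ∃ m : ℕ, t = (g : ZMod p) ^ m := fun t ht => by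
    obtain ⟨m, hm⟩ := hg (Units.mk0 t ht)
    exact ⟨m, by simpa using (congrArg Units.val hm).symm⟩
  have hgpow : ∀ m : ℕ, (cj (h g ^ m) A = A ∧ cj (h g ^ m) B = B) ∧
      ∀ t, h g ^ m * x t = x (((g : ZMod p) ^ m) ^ 2 * t) * h g ^ m := by
    intro m
    induction m with
    | zero => simp
    | succ m ih =>
      refine ⟨⟨by rw [pow_succ, cj_mul, (hnorm _ g.ne_zero).1, ih.1.1],
        by rw [pow_succ, cj_mul, (hnorm _ g.ne_zero).2, ih.1.2]⟩, fun t => ?_⟩
      rw [pow_succ, mul_assoc, h_x _ _ g.ne_zero, ← mul_assoc, ih.2, mul_assoc]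
      congr 2; ring
  have hcommg : ∀ s, s ≠ 0 → ∃ (m : ℕ) (z : G), h s = h g ^ m * z ∧ ∀ t, t ≠ 0 → Commute z (h t) := by
    intro s hs0
    obtain ⟨m, rfl⟩ := hgen s hs0
    refine ⟨m, (h g ^ m)⁻¹ * h ((g : ZMod p) ^ m), by group, hcent _ ?_ ?_ ?_⟩
    · rw [cj_mul, (hnorm _ hs0).1, ← cj_eq_iff.1 (hgpow m).1.1]
    · rw [cj_mul, (hnorm _ hs0).2, ← cj_eq_iff.1 (hgpow m).1.2]
    · rw [← x1, Commute, SemiconjBy, mul_assoc, h_x _ _ hs0, ← mul_assoc, ← mul_assoc]
      congr 1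
      rw [inv_mul_eq_iff_eq_mul, ← mul_assoc, (hgpow m).2]; group
  have hcomm : ∀ s t, s ≠ 0 → t ≠ 0 → Commute (h s) (h t) := by
    intro s t hs0 ht
    obtain ⟨m, z, e, hz⟩ := hcommg s hs0
    obtain ⟨m', z', e', hz'⟩ := hcommg t ht
    rw [e]
    refine Commute.mul_left (Commute.pow_left ?_ _) (hz t ht)
    rw [e']
    exact ((Commute.refl _).pow_right _).mul_right (hz' _ g.ne_zero).symm
  have h1 : h 1 = 1 := by simp only [hh, W1]; simp
  have E2' : ∀ u t, u ≠ 0 → t ≠ 0 → h (u ^ 2 * t) = h u * (h u⁻¹)⁻¹ * h t := by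
    intro u t hu ht
    have e := hconj u t hu ht
    rw [hW', hW'] at e
    have e2 : w * (h u)⁻¹ = (h u⁻¹)⁻¹ * w := by
      rw [eq_inv_mul_iff_mul_eq, ← mul_assoc, ← w_h u hu]; group
    rw [mul_assoc, mul_assoc, e2, ← mul_assoc, ← mul_assoc, mul_left_inj] at e
    rw [← e, mul_assoc, mul_assoc, (hcomm t _ ht (inv_ne_zero hu)).inv_right.eq]
  have E2 : ∀ u t, u ≠ 0 → t ≠ 0 → h (u ^ 2 * t) = h (u ^ 2) * h t := by
    intro u t hu ht
    have := E2' u 1 hu one_ne_zero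
    rw [mul_one, h1, mul_one] at this
    rw [E2' u t hu ht, this]
  have E1 : ∀ t, t ≠ 0 → h (-t) = (w * w)⁻¹ * (h t⁻¹)⁻¹ := by
    intro t ht
    have e : h (-t) = (h t * w)⁻¹ * w⁻¹ := by rw [← hW', ← Wneg t ht, hh]
    rw [e, ← mul_inv_rev, ← mul_inv_rev, ← mul_assoc, w_h t ht, mul_assoc]
  have hsqinv : ∀ u, u ≠ 0 → h (u ^ 2)⁻¹ = (h (u ^ 2))⁻¹ := by
    intro u hu
    rw [eq_inv_iff_mul_eq_one, ← inv_pow, ← E2 _ _ (inv_ne_zero hu) (pow_ne_zero _ hu), ← h1]
    congr 1; field_simp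
  have hm1 : h (-1) = (w * w)⁻¹ := by rw [E1 1 one_ne_zero, inv_one, h1]; simp
  have key : (w * w) * (w * w) = 1 ∧ ∀ t, t ≠ 0 → h t⁻¹ = (h t)⁻¹ := by
    by_cases hsq : IsSquare (-1 : ZMod p)
    · obtain ⟨i, hi⟩ := hsq
      have hi0 : i ≠ 0 := by rintro rfl; simp at hi
      rw [← sq] at hi
      refine ⟨?_, fun t ht => ?_⟩
      · have := E2 i (-1) hi0 (by simp)
        rw [← hi, hm1, neg_mul_neg, mul_one, h1, ← mul_inv_rev, eq_comm, inv_eq_one] at this
        exact this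
      · have := E2 i t hi0 ht
        rw [← hi, hm1, neg_one_mul, E1 t ht, mul_right_inj] at this
        rw [← this, inv_inv]
    · have w4 : (w * w) * (w * w) = 1 := by
        obtain ⟨r, q, hrq⟩ := ZMod.sq_add_sq p (-1 : ZMod p)
        have hr : r ≠ 0 := by rintro rfl; exact hsq ⟨q, by linear_combination -hrq⟩
        have hq : q ≠ 0 := by rintro rfl; exact hsq ⟨r, by linear_combination -hrq⟩
        have yeq : ∀ t, t ≠ 0 → w * x t⁻¹ * w⁻¹ = x (-t) * W t * x (-t) := fun t ht => by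
          rw [Weq t ht, xneg]; group
        obtain ⟨t, ht⟩ : ∃ t, t = -r ^ 2 := ⟨_, rfl⟩
        obtain ⟨u, hu⟩ : ∃ u, u = -q ^ 2 := ⟨_, rfl⟩
        have ht0 : t ≠ 0 := by simp [ht, hr]
        have hu0 : u ≠ 0 := by simp [hu, hq]
        have htu : t + u = 1 := by rw [ht, hu]; linear_combination -hrq
        have hs0 : -t ^ 2 ≠ 0 := by simpa using ht0
        have e1 : x (-(t * u)) * W (t * u) * x (-(t * u)) = x (-t) * W t * x (-t) * (x (-u) * W u * x (-u)) := by
          rw [← yeq _ (mul_ne_zero ht0 hu0), ← yeq t ht0, ← yeq u hu0,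
            show (t * u)⁻¹ = t⁻¹ + u⁻¹ by field_simp; linear_combination -htu, xadd]
          group
        have e2 : W t * (x (-t) * x (-u)) = x (t ^ 2) * W (-t ^ 2) * x (t ^ 2) * W t := by
          have := yeq _ hs0
          rw [neg_neg] at this
          rw [← this, ← xadd, ← mul_inv_eq_iff_eq_mul, Wx t ht0]
          congr 3
          field_simp; linear_combination -htu
        have hη := (Wsw t ht0).mul (Wsw u hu0)
        have hn : Swaps A B (W (-t ^ 2) * (W t * W u)) :=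
          ⟨by rw [cj_mul, hη.1, (Wsw _ hs0).1], by rw [cj_mul, hη.2, (Wsw _ hs0).2]⟩
        have hmem : (W t * W u)⁻¹ * x (t ^ 2) * (W t * W u) ∈ A := by
          rw [← mem_cj, hη.1]; exact xA _
        have e3 := bruhat_unique hs.1 hn (Wsw _ (mul_ne_zero ht0 hu0))
          (A.mul_mem (A.mul_mem hmem (xA (-u))) (A.inv_mem (xA (-(t * u)))))
          (A.mul_mem (A.inv_mem (A.mul_mem (xA (-t)) (xA (t ^ 2)))) (xA (-(t * u)))) (by
            rw [← mul_assoc, mul_inv_eq_iff_eq_mul, mul_assoc _ _ (W (t * u)), mul_assoc _ _ (x (-(t * u))), e1]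
            calc _ = (x (-t) * x (t ^ 2))⁻¹ * x (-t) * (x (t ^ 2) * W (-t ^ 2) * x (t ^ 2) * W t) * W u * x (-u) := by
                  group
              _ = _ := by rw [← e2]; group)
        have Wm : ∀ v, v ≠ 0 → W (-v ^ 2) = h (v ^ 2) * w⁻¹ := by
          intro v hv
          rw [Wneg _ (pow_ne_zero _ hv), hW', inv_eq_iff_mul_eq_one]
          calc _ = h (v ^ 2) * (w * h (v ^ 2)) * w⁻¹ := by group
            _ = 1 := by rw [w_h _ (pow_ne_zero _ hv), hsqinv v hv]; group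
        have e4 : w⁻¹ * h (r ^ 2) = (h (r ^ 2))⁻¹ * w⁻¹ := by
          rw [← hsqinv r hr, inv_mul_eq_iff_eq_mul, ← mul_assoc, w_h _ (inv_ne_zero (pow_ne_zero _ hr)), inv_inv]
          group
        rw [Wm t ht0, ht, hu, Wm r hr, Wm q hq, hW', show (-r ^ 2) ^ 2 = r ^ 2 * r ^ 2 by ring,
          show -r ^ 2 * -q ^ 2 = r ^ 2 * q ^ 2 by ring, E2 _ _ hr (pow_ne_zero _ hr), E2 _ _ hr (pow_ne_zero _ hq)] at e3
        have e5 : h (r ^ 2) * h (q ^ 2) * ((w * w)⁻¹ * w⁻¹) = h (r ^ 2) * h (q ^ 2) * w := by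
          rw [← e3]
          calc _ = h (r ^ 2) * (h (q ^ 2) * (w * w)⁻¹) * w⁻¹ := by group
            _ = h (r ^ 2) * h (r ^ 2) * ((h (r ^ 2))⁻¹ * w⁻¹) * (w⁻¹ * (h (q ^ 2) * w⁻¹)) := by
              rw [← (wsqh _ (pow_ne_zero _ hq)).inv_left.eq]; group
            _ = _ := by rw [← e4]; group
        have e6 := mul_left_cancel e5
        calc w * w * (w * w) = w * w * (((w * w)⁻¹ * w⁻¹) * w) := by rw [e6]
          _ = 1 := by group
      refine ⟨w4, fun t ht => ?_⟩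
      by_cases hts : IsSquare t
      · obtain ⟨v, rfl⟩ := hts
        rw [← sq] at ht ⊢
        exact hsqinv v (by rintro rfl; simp at ht)
      · have : IsSquare (-t) := by
          have c1 := (quadraticChar_neg_one_iff_not_isSquare (F := ZMod p)).2 hsq
          have c2 := (quadraticChar_neg_one_iff_not_isSquare (F := ZMod p)).2 hts
          refine (quadraticChar_one_iff_isSquare (by simpa using ht)).1 ?_
          rw [← neg_one_mul, map_mul, c1, c2]; norm_num
        obtain ⟨v, hv⟩ := this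
        have hv0 : v ≠ 0 := by rintro rfl; simp [ht] at hv
        rw [← sq] at hv
        have e : t = -v ^ 2 := by rw [← hv, neg_neg]
        rw [e, inv_neg, E1 _ (inv_ne_zero (pow_ne_zero _ hv0)), E1 _ (pow_ne_zero _ hv0), inv_inv, hsqinv v hv0,
          inv_inv, mul_inv_rev ((w * w)⁻¹), inv_inv, (inv_eq_iff_mul_eq_one.2 w4),
          (wsqh _ (pow_ne_zero _ hv0)).inv_right.eq]
  have hgm : ∀ m : ℕ, h ((g : ZMod p) ^ m) = h g ^ m := by
    intro m
    induction m using Nat.twoStepInduction with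
    | zero => simp [h1]
    | one => simp
    | more m ih _ =>
      rw [add_comm, pow_add, E2' _ _ g.ne_zero (pow_ne_zero _ g.ne_zero), ih, key.2 _ g.ne_zero, inv_inv, pow_add, sq]
  have R : SL2Rel x h w := by
    refine ⟨xadd, fun s t hs0 ht => ?_, h_x, w_h, ?_, fun t ht => ?_⟩
    · obtain ⟨m, rfl⟩ := hgen s hs0
      obtain ⟨n, rfl⟩ := hgen t ht
      rw [← pow_add, hgm, hgm, hgm, pow_add]
    · rw [hm1, eq_inv_iff_mul_eq_one, key.1]
    · rw [mul_assoc (x _) (h _) w, ← hW', Weq _ (inv_ne_zero ht), inv_inv, xneg]; group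
  have hU : (upperUnipotentSL2 (ZMod p)).map (sl2Hom R) = Subgroup.zpowers a := by
    apply le_antisymm
    · rintro _ ⟨y, hy, rfl⟩
      obtain ⟨t, rfl⟩ := mem_upper.1 hy
      rw [sl2Hom_xU]; exact Subgroup.npow_mem_zpowers _ _
    · rw [Subgroup.zpowers_le]
      exact ⟨xU 1, xU_mem _, by rw [sl2Hom_xU, x1]⟩
  have hb : ptn A B a = w * x (-1) * w⁻¹ := by rw [← x1, hptn 1 one_ne_zero, inv_one]
  have hL : (lowerUnipotentSL2 (ZMod p)).map (sl2Hom R) = Subgroup.zpowers (ptn A B a) := by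
    apply le_antisymm
    · rintro _ ⟨y, hy, rfl⟩
      obtain ⟨t, rfl⟩ := mem_lower.1 hy
      rw [sl2Hom_xL, ← neg_one_mul, xmul, ← conj_pow, ← hb]; exact Subgroup.npow_mem_zpowers _ _
    · rw [Subgroup.zpowers_le]
      exact ⟨xL 1, xL_mem _, by rw [sl2Hom_xL, hb]⟩
  have := psl2Pair_of_hom (sl2Hom R) (by
    rw [hU, hL]
    intro hc
    have c := commutator_eq_bot_iff.1 hc _ (Subgroup.mem_zpowers _) _ (Subgroup.mem_zpowers _)
    have e := sp_rel hs ha ha1
    rw [c.eq, mul_inv_cancel_right, ← c.inv_left.eq, mul_inv_cancel_right] at e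
    exact (ptn_spec hs.1 ha ha1).2.1 (r1_inf hs.1 (e ▸ A.inv_mem ha) (ptn_spec hs.1 ha ha1).1))
  rwa [hU, hL] at this

end prime

end H28
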