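import Cfsg.Prelude.Def_SporadicCombinatorics

set_option autoImplicit false

namespace H28.TG
open Cfsg Finset

abbrev Wd := ArrayPt → ZMod 3
local notation "𝒞" => ternaryGolayCode

/-- generator matrix, systematic on the positions `I` -/
def B (k : Fin 6) (p : ArrayPt) : ZMod 3 :=
  ((22095789620871738776348616353483311 / 3 ^ (12 * k.1 + 3 * p.1.1 + p.2.val) % 3 : ℕ) : ZMod 3)
def I : Fin 6 → ArrayPt := ![(0, 0), (0, 1), (0, 2), (1, 0), (1, 1), (2, 0)]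
def enc (v : Fin 6 → ZMod 3) : Wd := fun p => ∑ k, v k * B k p

theorem mem_code {x : Wd} : x ∈ 𝒞 ↔ ∃ s : ZMod 3, (∀ i : Fin 4, ∑ r : ZMod 3, x (i, r) = -s) ∧
    ∀ a b : ZMod 3, ∑ i : Fin 4, x (i, a * ![0, 1, 1, 1] i + b * ![1, 0, 1, 2] i) = s :=
  exists_congr fun s => and_congr_right fun _ => ⟨fun h a b => h _ (Submodule.mem_span_pair.2 ⟨a, b, rfl⟩),
    fun h t ht => by obtain ⟨a, b, rfl⟩ := Submodule.mem_span_pair.1 ht; exact h a b⟩

theorem B_mem (k : Fin 6) : B k ∈ 𝒞 := mem_code.2 (by revert k; decide +kernel)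

theorem enc_mem (v : Fin 6 → ZMod 3) : enc v ∈ 𝒞 := by
  have := Submodule.sum_mem 𝒞 (t := univ) fun k _ => Submodule.smul_mem 𝒞 (v k) (B_mem k)
  convert this
  ext p; simp [enc]

theorem enc_I (v : Fin 6 → ZMod 3) (k : Fin 6) : enc v (I k) = v k := by
  simp [enc, (by decide +kernel : ∀ j k, B j (I k) = if j = k then 1 else 0)]

theorem eq_zero {x : Wd} (h : x ∈ 𝒞) (h0 : ∀ k, x (I k) = 0) : x = 0 := by
  obtain ⟨s, h1, h2⟩ := mem_code.1 h
  have u : ∀ f : ZMod 3 → ZMod 3, ∑ r, f r = f 0 + f 1 + f 2 := Fin.sum_univ_three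
  simp only [u, Fin.forall_fin_succ, I, Fin.sum_univ_four] at h0 h1 h2
  have a1 : x (0, 0) + x (1, 0) + x (2, 0) + x (3, 0) = s := h2 0 0
  have a2 : x (0, 1) + x (1, 0) + x (2, 1) + x (3, 2) = s := h2 0 1
  have a4 : x (0, 0) + x (1, 1) + x (2, 1) + x (3, 1) = s := h2 1 0
  have a5 : x (0, 1) + x (1, 1) + x (2, 2) + x (3, 0) = s := h2 1 1
  simp at h0 h1
  have : ∀ i, x (i, 0) = 0 ∧ x (i, 1) = 0 ∧ x (i, 2) = 0 := by
    clear h2 u h
    simp only [Fin.forall_fin_succ]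
    simp
    grind
  exact funext fun ⟨i, r⟩ => by
    rcases (by decide : ∀ r : ZMod 3, r = 0 ∨ r = 1 ∨ r = 2) r with rfl | rfl | rfl <;> simp [this i]

theorem eq_enc {x : Wd} (h : x ∈ 𝒞) : x = enc (x ∘ I) :=
  sub_eq_zero.1 (eq_zero (sub_mem h (enc_mem _)) fun k => by simp [enc_I])

def dg : (Fin 6 → ZMod 3) ≃ Fin 729 := finFunctionFinEquiv (m := 3) (n := 6)
/-- the `n`-th codeword -/
def wd (n : Fin 729) : Wd := enc (dg.symm n)

theorem wd_inj : Function.Injective wd := fun a b h =>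
  dg.symm.injective (funext fun k => by have := congrFun h (I k); rwa [wd, wd, enc_I, enc_I] at this)

theorem mem_iff {x : Wd} : x ∈ 𝒞 ↔ ∃ n, wd n = x :=
  ⟨fun h => ⟨dg (x ∘ I), by rw [wd, Equiv.symm_apply_apply, ← eq_enc h]⟩,
    fun ⟨_, h⟩ => h ▸ enc_mem _⟩

theorem ncard_code (P : Wd → Prop) [DecidablePred P] :
    {x | x ∈ 𝒞 ∧ P x}.ncard = #{n | P (wd n)} := by
  rw [← Set.ncard_coe_finset, ← Set.ncard_image_of_injective _ wd_inj]
  congr 1; ext x; simp only [mem_iff, Set.mem_ofPred_eq, Set.mem_image, mem_coe, mem_filter_univ]; grind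

theorem cnt : ∀ w ∈ [(0, 1), (6, 264), (9, 440), (12, 24)], #{n | #(ternarySupport (wd n)) = w.1} = w.2 := by
  decide +kernel

theorem wt {x : Wd} (h : x ∈ 𝒞) (h0 : x ≠ 0) :
    #(ternarySupport x) = 6 ∨ #(ternarySupport x) = 9 ∨ #(ternarySupport x) = 12 := by
  obtain ⟨n, rfl⟩ := mem_iff.1 h
  clear h
  revert n
  decide +kernel

end H28.TG
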