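import Cfsg.Agent.H11.Std
import Cfsg.Prelude.Def_SporadicB

set_option autoImplicit false

namespace H28.TV
open Cfsg H11 H11.PForm Module Matrix

variable {F : Type*} [Field F] {σ : F →+* F} {P : FParam σ} {ι : Type*} [Fintype ι] [DecidableEq ι]
  {S : PForm P (ι → F)}

theorem rank_one (hS : S.Nondeg) {g : S.Isom} {M : Matrix ι ι F} (h : ∀ v, g.1 v = M *ᵥ v) :
    (M - 1).rank = 1 ↔ ∃ d b, d ≠ 0 ∧ S.QCond d b ∧ g = S.qrefl d b := by
  have m : ∀ u, u ∈ LinearMap.range (M - 1).mulVecLin ↔ ∃ x, g.1 x - x = u := by simp [h, sub_mulVec]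
  rw [Matrix.rank, finrank_eq_one_iff']
  constructor
  · rintro ⟨⟨d, hd⟩, h0, k⟩
    obtain ⟨x, rfl⟩ := (m d).1 hd
    replace h0 : g.1 x - x ≠ 0 := fun e => h0 (Subtype.ext e)
    have f : ∀ y, S.h (g.1 x - x) y = 0 → g.1 y = y := fun y hy => hS.ext_right fun z => by
      obtain ⟨c, e⟩ := k ⟨_, (m _).2 ⟨(g⁻¹).1 z, rfl⟩⟩
      have : S.h (c • (g.1 x - x)) y = S.h (g.1 ((g⁻¹).1 z) - (g⁻¹).1 z) y := congrArg (fun u => S.h u.1 y) e
      rw [h_smul_left, hy, mul_zero, isom_apply_inv_self, map_sub, LinearMap.sub_apply, eq_comm, sub_eq_zero] at this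
      rw [isom_h_right, this]
    have n : S.h (g.1 x - x) x ≠ 0 := fun e => h0 (sub_eq_zero.2 (f x e))
    obtain ⟨h1, h2⟩ := qrefl_step (isom_q g x) n
    refine ⟨_, _, h0, h1, isom_ext fun y => ?_⟩
    generalize g.1 x - x = d at f n h2 ⊢
    have : S.h d (y - (S.h d y / S.h d x) • x) = 0 := by
      rw [map_sub, h_smul_right, div_mul_cancel₀ _ n, sub_self]
    have a := (f _ this).trans (qrefl_apply_of_perp (b := -S.h d x) this).symm
    rwa [map_sub, map_sub, map_smul, map_smul, h2, sub_left_inj] at a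
  rintro ⟨d, b, h0, h1, rfl⟩
  obtain ⟨y, hy⟩ := hS.exists_h_eq_one h0
  refine ⟨⟨d, (m _).2 ⟨-b • y, by simp [qrefl_apply h1, hy, h1.ne, smul_smul]⟩⟩, by simpa using h0, fun ⟨u, hu⟩ => ?_⟩
  obtain ⟨x, rfl⟩ := (m u).1 hu
  exact ⟨-(b⁻¹ * S.h d x), Subtype.ext (by simp [qrefl_apply h1])⟩

theorem three (hS : S.Nondeg) (hε : P.ε = 1) (h2 : (2 : F) = 0) (hN : ∀ c, c ≠ 0 → σ c * c = 1) {G : Type*} [Group G]
    (φ : G →* S.Isom) (hφ : Function.Injective φ) {D : Set G}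
    (hD : ∀ g, g ∈ D ↔ ∃ d ≠ 0, S.QCond d 1 ∧ φ g = S.qrefl d 1) (hne : D.Nonempty)
    (ht : ∀ d ≠ 0, ∀ e ≠ 0, S.QCond d 1 → S.QCond e 1 → ∃ k, ∃ c : F, c ≠ 0 ∧ (φ k).1 d = c • e)
    (hg : Subgroup.closure D = ⊤) : IsThreeTranspositionClass D := by
  have sm : ∀ {d} {c : F}, c ≠ 0 → S.QCond d 1 → S.qrefl (c • d) 1 = S.qrefl d 1 := fun hc h => by
    simpa [hN _ hc] using qrefl_smul h hc
  have sq : ∀ a ∈ D, a * a = 1 := fun a ha => hφ (by
    obtain ⟨d, -, h, e⟩ := (hD a).1 ha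
    rw [map_mul, e, map_one, mul_eq_one_iff_eq_inv, qrefl_inv h, hε, map_one, one_mul])
  have iv : ∀ a ∈ D, a⁻¹ = a := fun a ha => inv_eq_of_mul_eq_one_right (sq a ha)
  refine ⟨⟨fun a ha => orderOf_eq_prime (by rw [pow_two, sq a ha]) fun e => ?_, fun a ha b hb => ?_⟩, ?_, hg⟩
  · obtain ⟨d, h0, h, k⟩ := (hD a).1 ha
    obtain ⟨y, hy⟩ := hS.exists_h_eq_one h0
    have := qrefl_apply h y
    simp [← k, e, hy, h0, eq_sub_iff_add_eq] at this
  · obtain ⟨d, -, h, k⟩ := (hD a).1 ha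
    obtain ⟨e, -, h', k'⟩ := (hD b).1 hb
    have c1 : φ (a * b * a⁻¹) = S.qrefl ((S.qrefl d 1).1 e) 1 := by rw [map_mul, map_mul, map_inv, k', conj_qrefl, k]
    have c2 : φ (b * a * b⁻¹) = S.qrefl ((S.qrefl e 1).1 d) 1 := by rw [map_mul, map_mul, map_inv, k, conj_qrefl, k']
    by_cases z : S.h d e = 0
    · rw [qrefl_apply_of_perp z, ← k', hφ.eq_iff, iv a ha] at c1
      exact .inl (by rw [pow_two, ← mul_assoc, c1, sq b hb])
    have s : S.h e d * S.h d e = 1 := by rw [S.symm, hε, one_mul, hN _ z]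
    have : (S.qrefl e 1).1 d = S.h e d • (S.qrefl d 1).1 e := by
      rw [qrefl_apply h, qrefl_apply h']
      ext i
      simp only [inv_one, one_mul, Pi.sub_apply, Pi.smul_apply, smul_eq_mul]
      linear_combination (d i - S.h e d * e i) * h2 + d i * s
    rw [this, sm (left_ne_zero_of_mul_eq_one s) (h'.map _), ← c1, hφ.eq_iff, iv a ha, iv b hb] at c2
    refine .inr ?_
    calc (a * b) ^ 3 = (a * b * a) * (b * a * b) := by simp [pow_succ, mul_assoc]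
      _ = 1 := by rw [c2]; simp [mul_assoc, ← mul_assoc a a, ← mul_assoc b b, sq a ha, sq b hb]
  obtain ⟨a, ha⟩ := hne
  obtain ⟨d, h0, h, k⟩ := (hD a).1 ha
  refine ⟨a, ha, Set.ext fun b => ⟨fun hb => ?_, fun hb => ?_⟩⟩
  · obtain ⟨e, h0', h', k'⟩ := (hD b).1 hb
    obtain ⟨g, c, hc, e⟩ := ht d h0 e h0' h h'
    exact isConj_iff.2 ⟨g, hφ (by rw [map_mul, map_mul, map_inv, k, conj_qrefl, e, sm hc h', k'])⟩
  obtain ⟨g, rfl⟩ := isConj_iff.1 hb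
  exact (hD _).2 ⟨_, by simpa using h0, h.map (φ g), by rw [map_mul, map_mul, map_inv, k, conj_qrefl]⟩

theorem orth {ι : Type} [Fintype ι] [DecidableEq ι] [Nonempty ι] (Q : QuadraticForm (ZMod 2) (ι → ZMod 2))
    (hS : (orthS Q).Nondeg) (h4 : finrank (ZMod 2) (ι → ZMod 2) ≠ 4) : IsThreeTranspositionClass
      {g : isometryGroup (ZMod 2) Q | (((g : GL ι (ZMod 2)) : Matrix ι ι (ZMod 2)) - 1).rank = 1} := by
  have o : ∀ c : ZMod 2, c ≠ 0 → c = 1 := by decide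
  have k : ∀ g : isometryGroup (ZMod 2) Q, (((g : GL ι (ZMod 2)) : Matrix ι ι (ZMod 2)) - 1).rank = 1 ↔
      ∃ d ≠ 0, (orthS Q).QCond d 1 ∧ orthEquiv Q g = (orthS Q).qrefl d 1 := fun g =>
    (rank_one hS (orthEquiv_apply Q g)).trans (exists_congr fun d =>
      ⟨fun ⟨b, h, c, e⟩ => ⟨h, o b c.ne ▸ ⟨c, e⟩⟩, fun ⟨h, c⟩ => ⟨1, h, c⟩⟩)
  have l : ∀ v, (orthS Q).q v ≠ 0 → ∃ d ≠ 0, (orthS Q).QCond d 1 ∧ (orthS Q).refl v = (orthS Q).qrefl d 1 :=
    fun v hv => ⟨v, fun e => hv (e ▸ orth_q_zero _), o _ hv ▸ orth_qcond hv, by rw [PForm.refl, o _ hv]⟩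
  refine three hS rfl rfl (by decide) (orthEquiv Q).toMonoidHom (orthEquiv Q).injective k ?_
    (fun d h0 e h0' h h' => ?_) (Subgroup.eq_top_iff' _ |>.2 fun g => ?_)
  · obtain ⟨v, hv⟩ := hS.orth_exists_q_ne
    exact ⟨(orthEquiv Q).symm ((orthS Q).refl v), (k _).2 (by simpa only [MulEquiv.apply_symm_apply] using l v hv)⟩
  · obtain ⟨g, e⟩ := hS.witt_vec h0 h0' (by rw [← h.orth_eq, ← h'.orth_eq]; simp)
    exact ⟨(orthEquiv Q).symm g, 1, one_ne_zero, by simpa using e⟩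
  obtain ⟨g, rfl⟩ := (orthEquiv Q).symm.surjective g
  refine R_induction (hS.orth_R_eq_top (.inr (.inl h4))) (p := fun g => (orthEquiv Q).symm g ∈ Subgroup.closure _)
    (by simp) (fun v g hv h => ?_) g
  rw [map_mul]
  exact mul_mem (Subgroup.subset_closure ((k _).2 (by simpa only [MulEquiv.apply_symm_apply] using l v hv))) h

end H28.TV
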